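import Cfsg.Agent.Helper2.Cox
import Cfsg.Agent.Helper2.BN3

/-!
# The Weyl group of a (B, N)-pair satisfies the exchange condition
-/

set_option autoImplicit false
set_option linter.unusedSectionVars false

namespace Cfsg.Agent.Helper2

namespace BN

variable {G : Type*} [Group G] (P : Cfsg.BNPair G)

/-- the lift of a word to `G` -/
def nw (ω : List P.S) : G := (ω.map (fun s : P.S => (s : G))).prod

theorem nw_nil : nw P [] = 1 := by simp [nw]

theorem nw_cons (s : P.S) (ω : List P.S) : nw P (s :: ω) = (s : G) * nw P ω := by simp [nw]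

theorem nw_append (ω ω' : List P.S) : nw P (ω ++ ω') = nw P ω * nw P ω' := by simp [nw]

theorem nw_mem_W : ∀ ω : List P.S, nw P ω ∈ W P P.S ω.length
  | [] => by
    rw [nw_nil]
    exact (P.B ⊓ P.N).one_mem
  | s :: ω => by
    rw [nw_cons]
    show (s : G) * nw P ω ∈ W P P.S (ω.length + 1)
    exact (mem_W_succ P).2 ⟨s, s.2, nw P ω, nw_mem_W ω, rfl⟩

theorem nw_mem_N (ω : List P.S) : nw P ω ∈ P.N :=
  W_subset_N P (le_refl P.S) (nw_mem_W P ω)

theorem exists_word_of_mem_W : ∀ (k : ℕ) (n : G), n ∈ W P P.S k →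
    ∃ ω : List P.S, ω.length = k ∧ (nw P ω)⁻¹ * n ∈ P.B ⊓ P.N := by
  intro k
  induction k with
  | zero =>
    intro n hn
    refine ⟨[], rfl, ?_⟩
    rw [nw_nil, inv_one, one_mul]
    exact hn
  | succ k ih =>
    intro n hn
    obtain ⟨s, hs, m, hm, rfl⟩ := (mem_W_succ P).1 hn
    obtain ⟨ω, hl, hω⟩ := ih m hm
    refine ⟨⟨s, hs⟩ :: ω, by rw [List.length_cons, hl], ?_⟩
    rw [nw_cons]
    have e : (s * nw P ω)⁻¹ * (s * m) = (nw P ω)⁻¹ * m := by group
    show (s * nw P ω)⁻¹ * (s * m) ∈ P.B ⊓ P.N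
    rw [e]
    exact hω

theorem mem_W_of_word (ω : List P.S) (n : G) (h : (nw P ω)⁻¹ * n ∈ P.B ⊓ P.N) :
    n ∈ W P P.S ω.length := by
  have h1 := W_mul_H P (le_refl P.S) _ _ _ (nw_mem_W P ω) h
  rwa [mul_inv_cancel_left] at h1

variable [hN : ((P.B ⊓ P.N).subgroupOf P.N).Normal]

/-- the distinguished involutions of the Weyl group -/
def sig (s : P.S) : P.N ⧸ (P.B ⊓ P.N).subgroupOf P.N :=
  QuotientGroup.mk (⟨(s : G), P.subset s.2⟩ : P.N)

theorem wp_sig (ω : List P.S) :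
    Cox.wp (sig P) ω = QuotientGroup.mk (⟨nw P ω, nw_mem_N P ω⟩ : P.N) := by
  induction ω with
  | nil =>
    rw [Cox.wp_nil]
    have h1 : (⟨nw P [], nw_mem_N P []⟩ : P.N) = 1 := Subtype.ext (nw_nil P)
    rw [h1]
    rfl
  | cons s ω ih =>
    rw [Cox.wp_cons, ih]
    have h1 : (⟨nw P (s :: ω), nw_mem_N P (s :: ω)⟩ : P.N)
        = ⟨(s : G), P.subset s.2⟩ * ⟨nw P ω, nw_mem_N P ω⟩ := Subtype.ext (nw_cons P s ω)
    rw [h1]
    rfl

theorem wp_sig_eq_iff (ω : List P.S) (n : P.N) :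
    Cox.wp (sig P) ω = QuotientGroup.mk n ↔ (nw P ω)⁻¹ * (n : G) ∈ P.B ⊓ P.N := by
  rw [wp_sig, QuotientGroup.eq, Subgroup.mem_subgroupOf]
  rfl

theorem sig_mul_self (s : P.S) : sig P s * sig P s = 1 := by
  have h1 : sig P s * sig P s = QuotientGroup.mk
      ((⟨(s : G), P.subset s.2⟩ : P.N) * ⟨(s : G), P.subset s.2⟩) := rfl
  rw [h1, QuotientGroup.eq_one_iff, Subgroup.mem_subgroupOf]
  exact sq_mem_H P s.2

theorem sig_injective : Function.Injective (sig P) := by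
  intro s t h
  have h1 : (⟨(s : G), P.subset s.2⟩ : P.N)⁻¹ * ⟨(t : G), P.subset t.2⟩
      ∈ (P.B ⊓ P.N).subgroupOf P.N := QuotientGroup.eq.1 h
  rw [Subgroup.mem_subgroupOf] at h1
  exact Subtype.ext (P.inj s s.2 t t.2 h1.1)

theorem sig_gen (w : P.N ⧸ (P.B ⊓ P.N).subgroupOf P.N) : ∃ ω, Cox.wp (sig P) ω = w := by
  obtain ⟨n, rfl⟩ := QuotientGroup.mk_surjective w
  obtain ⟨k, hk⟩ := exists_W_of_mem_N P n.2
  obtain ⟨ω, -, hω⟩ := exists_word_of_mem_W P k _ hk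
  exact ⟨ω, (wp_sig_eq_iff P ω n).2 hω⟩

theorem red_sig_iff (ω : List P.S) :
    Cox.Red (sig P) ω ↔ len P P.S (nw P ω) = ω.length := by
  constructor
  · intro h
    apply le_antisymm (len_le P (nw_mem_W P ω))
    have hW := mem_W_len P ⟨_, nw_mem_W P ω⟩
    obtain ⟨ω', hl, hω'⟩ := exists_word_of_mem_W P _ _ hW
    have h1 := h ω' (by
      rw [wp_sig P ω]
      exact (wp_sig_eq_iff P ω' ⟨nw P ω, nw_mem_N P ω⟩).2 hω')
    rw [hl] at h1
    exact h1
  · intro h ω' he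
    rw [wp_sig P ω] at he
    have h1 := (wp_sig_eq_iff P ω' ⟨nw P ω, nw_mem_N P ω⟩).1 he
    have h2 := mem_W_of_word P ω' _ h1
    have h3 := len_le P h2
    calc ω.length = len P P.S (nw P ω) := h.symm
      _ ≤ ω'.length := h3

theorem exchange_sig (i : P.S) (ω : List P.S) (hred : Cox.Red (sig P) ω)
    (hnr : ¬ Cox.Red (sig P) (i :: ω)) :
    ∃ (α : List P.S) (i' : P.S) (β : List P.S), ω = α ++ i' :: β ∧
      sig P i * Cox.wp (sig P) α = Cox.wp (sig P) α * sig P i' := by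
  have hS : P.S ⊆ P.S := le_refl _
  have hfind : ∀ (β α : List P.S), len P P.S (nw P α) < len P P.S ((i : G) * nw P α) →
      ¬ len P P.S (nw P (α ++ β)) < len P P.S ((i : G) * nw P (α ++ β)) →
      ∃ (α' : List P.S) (i' : P.S) (β' : List P.S), α ++ β = α' ++ i' :: β' ∧
        len P P.S (nw P α') < len P P.S ((i : G) * nw P α') ∧
        ¬ len P P.S (nw P (α' ++ [i'])) < len P P.S ((i : G) * nw P (α' ++ [i'])) := by
    intro β
    induction β with
    | nil =>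
      intro α h1 h2
      rw [List.append_nil] at h2
      exact absurd h1 h2
    | cons b β ih =>
      intro α h1 h2
      have e0 : (α ++ [b]) ++ β = α ++ b :: β := by simp
      by_cases h3 : len P P.S (nw P (α ++ [b])) < len P P.S ((i : G) * nw P (α ++ [b]))
      · obtain ⟨α', i', β', e, h4, h5⟩ := ih (α ++ [b]) h3 (by rw [e0]; exact h2)
        exact ⟨α', i', β', by rw [← e0]; exact e, h4, h5⟩
      · exact ⟨α, b, β, rfl, h1, h3⟩
  have hlen1 : len P P.S (nw P ω) = ω.length := (red_sig_iff P ω).1 hred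
  have hlen2 : len P P.S ((i : G) * nw P ω) ≠ ω.length + 1 := by
    intro h
    apply hnr
    rw [red_sig_iff, nw_cons, List.length_cons]
    exact h
  have hlen3 : len P P.S ((i : G) * nw P ω) ≤ len P P.S (nw P ω) + 1 :=
    len_S_mul_le P hS i.2 ⟨_, nw_mem_W P ω⟩
  have hb1 : len P P.S (nw P ([] : List P.S)) < len P P.S ((i : G) * nw P ([] : List P.S)) := by
    rw [nw_nil, mul_one, len_S_eq_one P i.2]
    have h0 : len P P.S (1 : G) = 0 :=
      (len_eq_zero_iff P (J := P.S) ⟨0, (P.B ⊓ P.N).one_mem⟩).2 (P.B ⊓ P.N).one_mem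
    rw [h0]
    exact Nat.one_pos
  have hb2 : ¬ len P P.S (nw P ([] ++ ω)) < len P P.S ((i : G) * nw P ([] ++ ω)) := by
    rw [List.nil_append]
    omega
  obtain ⟨α, i', β, e, h4, h5⟩ := hfind ω [] hb1 hb2
  rw [List.nil_append] at e
  refine ⟨α, i', β, e, ?_⟩
  -- notation
  have hnw1 : nw P (α ++ [i']) = nw P α * (i' : G) := by
    rw [nw_append, nw_cons, nw_nil, mul_one]
  obtain ⟨w, hw⟩ : ∃ w : G, w = nw P α := ⟨_, rfl⟩
  obtain ⟨s, hs⟩ : ∃ s : G, s = (i : G) := ⟨_, rfl⟩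
  obtain ⟨s', hs'⟩ : ∃ s' : G, s' = (i' : G) := ⟨_, rfl⟩
  rw [← hw, ← hs] at h4
  rw [hnw1, ← hw, ← hs, ← hs'] at h5
  have hsS : s ∈ P.S := by rw [hs]; exact i.2
  have hs'S : s' ∈ P.S := by rw [hs']; exact i'.2
  have hwN : w ∈ P.N := by rw [hw]; exact nw_mem_N P α
  have hwW : ∃ k, w ∈ W P P.S k := by rw [hw]; exact ⟨_, nw_mem_W P α⟩
  have hs'N : s' ∈ P.N := P.subset hs'S
  have hsN : s ∈ P.N := P.subset hsS
  have hws'W : ∃ k, w * s' ∈ W P P.S k := exists_W_of_mem_N P (P.N.mul_mem hwN hs'N)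
  have h6 : len P P.S (s * (w * s')) < len P P.S (w * s') := by
    have := len_ne P hS hsS hws'W
    omega
  obtain ⟨b, hb, hb'⟩ := claimB P hS hsS hws'W h6
  have h7 := (len_lt_iff P hS hsS hwW).1 h4 b hb
  obtain ⟨b1, hb1', b2, hb2', e1⟩ := (mem_dc P).1 hb'
  have e2 : s * b * w = b1 * ((w * s') * b2 * s'⁻¹) := by
    have e3 : s * b * w = (s * b * (w * s')) * s'⁻¹ := by group
    rw [e3, e1]; group
  have e4 : w * s' * s'⁻¹ = w := by group
  have h8 : (s * w)⁻¹ * (w * s') ∈ P.B ⊓ P.N := by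
    rcases ax7_inv P hs'S (P.N.mul_mem hwN hs'N) hb2' with h9 | h9
    · exfalso
      rw [e4] at h9
      have h10 : s * b * w ∈ dc P w := by
        rw [e2]; exact dc_mul_left P hb1' h9
      exact S_mul_not_mem_dc P hsS hwN (mem_dc_trans P (mem_dc_symm P h7) h10)
    · have h10 : s * b * w ∈ dc P (w * s') := by
        rw [e2]; exact dc_mul_left P hb1' h9
      have h11 : w * s' ∈ dc P (s * w) := mem_dc_trans P (mem_dc_symm P h10) h7
      exact bruhat_unique_H P (P.N.mul_mem hsN hwN) (P.N.mul_mem hwN hs'N) h11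
  have hfin : (nw P (α ++ [i']))⁻¹ * nw P (i :: α) ∈ P.B ⊓ P.N := by
    have e5 : (nw P (α ++ [i']))⁻¹ * nw P (i :: α) = ((s * w)⁻¹ * (w * s'))⁻¹ := by
      rw [hnw1, nw_cons, ← hw, ← hs, ← hs']
      group
    rw [e5]
    exact (P.B ⊓ P.N).inv_mem h8
  have h12 := (wp_sig_eq_iff P (α ++ [i']) ⟨nw P (i :: α), nw_mem_N P _⟩).2 hfin
  rw [← wp_sig P (i :: α)] at h12
  have e6 : Cox.wp (sig P) (i :: α) = sig P i * Cox.wp (sig P) α := Cox.wp_cons _ _ _
  have e7 : Cox.wp (sig P) (α ++ [i']) = Cox.wp (sig P) α * sig P i' := by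
    rw [Cox.wp_append, Cox.wp_singleton]
  rw [← e6, ← e7]
  exact h12.symm

end BN

end Cfsg.Agent.Helper2
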