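import Mathlib
import Cfsg.Prelude.Def_PLocal
import Cfsg.Prelude.Def_LocalEven

/-!
Chief factors above a critical subgroup: if `g` acts with nilpotency index `i` on the chief
factors inside `Q` and `j` on those inside `Z(Q)`, it acts with index `i + j - 1` on all chief
factors inside `P` (here `[P, Q] ≤ Z(Q)`, `C_P(Q) = Z(Q)`).
-/

namespace Cfsg.Agent.Helper2.CritChief

open scoped commutatorElement

section basics

variable {G : Type*} [Group G]

theorem comm_mem {A B : Subgroup G} {a b : G} (ha : a ∈ A) (hb : b ∈ B) :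
    a * b * a⁻¹ * b⁻¹ ∈ ⁅A, B⁆ := by
  have h := Subgroup.commutator_mem_commutator ha hb
  rwa [commutatorElement_def] at h

theorem comm_le {A B C : Subgroup G} (h : ∀ a ∈ A, ∀ b ∈ B, a * b * a⁻¹ * b⁻¹ ∈ C) :
    ⁅A, B⁆ ≤ C := by
  rw [Subgroup.commutator_le]
  intro a ha b hb
  rw [commutatorElement_def]
  exact h a ha b hb

/-- `W` is invariant under conjugation by the elements of `H`. -/
abbrev Inv (H W : Subgroup G) : Prop := ∀ h ∈ H, ∀ w ∈ W, h * w * h⁻¹ ∈ W

theorem inv_of_normal {W : Subgroup G} (hW : W.Normal) (H : Subgroup G) : Inv H W :=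
  fun h _ w hw => hW.conj_mem w hw h

theorem inv_comm {H W : Subgroup G} (hW : Inv H W) : Inv H ⁅W, H⁆ := by
  intro h hh x hx
  have hmap : (⁅W, H⁆).map (MulAut.conj h).toMonoidHom ≤ ⁅W, H⁆ := by
    rw [Subgroup.map_commutator]
    apply Subgroup.commutator_mono
    · rintro _ ⟨w, hw, rfl⟩
      exact hW h hh w hw
    · rintro _ ⟨k, hk, rfl⟩
      exact H.mul_mem (H.mul_mem hh hk) (H.inv_mem hh)
  exact hmap (Subgroup.mem_map_of_mem _ hx)

theorem comm_le_of_inv {H W : Subgroup G} (hW : Inv H W) : ⁅W, H⁆ ≤ W := by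
  apply comm_le
  intro w hw h hh
  have h1 : h * w⁻¹ * h⁻¹ ∈ W := hW h hh _ (W.inv_mem hw)
  have h2 : w * h * w⁻¹ * h⁻¹ = w * (h * w⁻¹ * h⁻¹) := by group
  rw [h2]
  exact W.mul_mem hw h1

theorem iter_inv {H U : Subgroup G} (hU : Inv H U) (k : ℕ) :
    Inv H (Cfsg.iterCommutator U H k) := by
  induction k with
  | zero => exact hU
  | succ k ih => exact inv_comm ih

theorem iter_anti' {H U : Subgroup G} (hU : Inv H U) (k d : ℕ) :
    Cfsg.iterCommutator U H (k + d) ≤ Cfsg.iterCommutator U H k := by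
  induction d with
  | zero => exact le_rfl
  | succ d ih =>
    have h1 : Cfsg.iterCommutator U H (k + d + 1) ≤ Cfsg.iterCommutator U H (k + d) :=
      comm_le_of_inv (iter_inv hU (k + d))
    exact h1.trans ih

theorem iter_anti {H U : Subgroup G} (hU : Inv H U) {k l : ℕ} (hkl : k ≤ l) :
    Cfsg.iterCommutator U H l ≤ Cfsg.iterCommutator U H k := by
  obtain ⟨d, rfl⟩ := Nat.exists_eq_add_of_le hkl
  exact iter_anti' hU k d

theorem iter_le_of_normal {U : Subgroup G} (hU : U.Normal) (H : Subgroup G) (k : ℕ) :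
    Cfsg.iterCommutator U H k ≤ U :=
  iter_anti (inv_of_normal hU H) (Nat.zero_le k)

theorem iter_mono {U U' : Subgroup G} (H : Subgroup G) (h : U ≤ U') (k : ℕ) :
    Cfsg.iterCommutator U H k ≤ Cfsg.iterCommutator U' H k := by
  induction k with
  | zero => exact h
  | succ k ih => exact Subgroup.commutator_mono ih le_rfl

theorem iter_map {G' : Type*} [Group G'] (f : G →* G') (U H : Subgroup G) (k : ℕ) :
    (Cfsg.iterCommutator U H k).map f = Cfsg.iterCommutator (U.map f) (H.map f) k := by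
  induction k with
  | zero => rfl
  | succ k ih =>
    show (⁅Cfsg.iterCommutator U H k, H⁆).map f =
      ⁅Cfsg.iterCommutator (U.map f) (H.map f) k, H.map f⁆
    rw [Subgroup.map_commutator, ih]

theorem step_formula (u y h v t bz β ct : G)
    (hv : v = h⁻¹ * u * h) (ht : t = v⁻¹ * u)
    (hbz : bz = u * (h * y⁻¹ * h⁻¹) * u⁻¹ * (h * y⁻¹ * h⁻¹)⁻¹)
    (hβ : β = v * y * v⁻¹ * y⁻¹) (hct : ct = t * y * t⁻¹ * y⁻¹)
    (h1 : y * bz = bz * y) (h2 : y * β = β * y) (h3 : v * ct = ct * v) :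
    u * (y * h * y⁻¹ * h⁻¹) * u⁻¹ * (y * h * y⁻¹ * h⁻¹)⁻¹ = ct * (β * h * β⁻¹ * h⁻¹) := by
  have e1 : u * (y * h * y⁻¹ * h⁻¹) * u⁻¹ * (y * h * y⁻¹ * h⁻¹)⁻¹ =
      (u * y * u⁻¹ * y⁻¹) * (y * bz * y⁻¹) := by
    rw [hbz]; group
  have e2 : y * bz * y⁻¹ = bz := by rw [h1]; group
  have e3 : u * y * u⁻¹ * y⁻¹ = (v * ct * v⁻¹) * β := by
    rw [hct, hβ, ht]; group
  have e4 : v * ct * v⁻¹ = ct := by rw [h3]; group
  have e5 : bz = h * (y⁻¹ * β⁻¹ * y) * h⁻¹ := by
    rw [hbz, hβ, hv]; group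
  have e6 : y⁻¹ * β⁻¹ * y = β⁻¹ := by
    have h4 : β⁻¹ * y = y * β⁻¹ := by
      calc β⁻¹ * y = β⁻¹ * (y * β) * β⁻¹ := by group
        _ = β⁻¹ * (β * y) * β⁻¹ := by rw [h2]
        _ = y * β⁻¹ := by group
    rw [mul_assoc, h4]; group
  rw [e1, e2, e3, e4, e5, e6]; group

/-- The Hom-lemma: `A/A'` and `B` with `(g-1)^i`, `(g-1)^j` trivial; `X` acts by "homomorphisms"
`A → B` trivial on `A'`; then `(g-1)^(i+j-1)` kills the action of `X`. -/
theorem hom_lemma (H A A' B X : Subgroup G) (i j : ℕ)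
    (hA : Inv H A) (hX : Inv H X)
    (hAX : ∀ a ∈ A, ∀ x ∈ X, a * x * a⁻¹ * x⁻¹ ∈ B)
    (hBA : ∀ b ∈ B, ∀ a ∈ A, a * b = b * a)
    (hBX : ∀ b ∈ B, ∀ x ∈ X, x * b = b * x)
    (hA'X : ∀ a ∈ A', ∀ x ∈ X, a * x * a⁻¹ * x⁻¹ = 1)
    (hAi : Cfsg.iterCommutator A H i ≤ A')
    (hBj : Cfsg.iterCommutator B H j = ⊥) (hi : 1 ≤ i) (hj : 1 ≤ j) :
    ∀ a ∈ A, ∀ w ∈ Cfsg.iterCommutator X H (i + j - 1), a * w * a⁻¹ * w⁻¹ = 1 := by
  have hAle : ∀ k, Cfsg.iterCommutator A H k ≤ A := fun k => iter_anti hA (Nat.zero_le k)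
  have hXle : ∀ N, Cfsg.iterCommutator X H N ≤ X := fun N => iter_anti hX (Nat.zero_le N)
  have key : ∀ N k c, c + i ≤ N + k + 1 → ∀ u ∈ Cfsg.iterCommutator A H k,
      ∀ y ∈ Cfsg.iterCommutator X H N,
        u * y * u⁻¹ * y⁻¹ ∈ Cfsg.iterCommutator B H c := by
    intro N
    induction N with
    | zero =>
      intro k c hc u hu y hy
      have hyX : y ∈ X := hy
      rcases Nat.eq_zero_or_pos c with h0 | hpos
      · rw [h0]; exact hAX u (hAle k hu) y hyX
      · have hik : i ≤ k := by omega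
        have hu' : u ∈ A' := hAi (iter_anti hA hik hu)
        rw [hA'X u hu' y hyX]
        exact Subgroup.one_mem _
    | succ N ih =>
      intro k c hc u hu y hy
      rcases Nat.eq_zero_or_pos c with h0 | hpos
      · rw [h0]; exact hAX u (hAle k hu) y (hXle (N + 1) hy)
      · obtain ⟨c', rfl⟩ : ∃ c', c = c' + 1 := ⟨c - 1, by omega⟩
        obtain ⟨D, hD⟩ : ∃ D : Subgroup G, ∀ w, w ∈ D ↔ (w ∈ X ∧
            ∀ u ∈ Cfsg.iterCommutator A H k,
              u * w * u⁻¹ * w⁻¹ ∈ Cfsg.iterCommutator B H (c' + 1)) := by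
          refine ⟨{ carrier := {w | w ∈ X ∧ ∀ u ∈ Cfsg.iterCommutator A H k,
                      u * w * u⁻¹ * w⁻¹ ∈ Cfsg.iterCommutator B H (c' + 1)}
                    mul_mem' := ?_
                    one_mem' := ?_
                    inv_mem' := ?_ }, fun w => Iff.rfl⟩
          · rintro w w' ⟨hw, hw2⟩ ⟨hw', hw2'⟩
            refine ⟨X.mul_mem hw hw', fun u hu => ?_⟩
            have huA := hAle k hu
            have e : u * (w * w') * u⁻¹ * (w * w')⁻¹ =
                (u * w * u⁻¹ * w⁻¹) * (w * (u * w' * u⁻¹ * w'⁻¹) * w⁻¹) := by group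
            have e2 : w * (u * w' * u⁻¹ * w'⁻¹) * w⁻¹ = u * w' * u⁻¹ * w'⁻¹ := by
              rw [hBX _ (hAX u huA w' hw') w hw]; group
            rw [e, e2]
            exact Subgroup.mul_mem _ (hw2 u hu) (hw2' u hu)
          · refine ⟨X.one_mem, fun u hu => ?_⟩
            have e : u * 1 * u⁻¹ * (1 : G)⁻¹ = 1 := by group
            rw [e]; exact Subgroup.one_mem _
          · rintro w ⟨hw, hw2⟩
            refine ⟨X.inv_mem hw, fun u hu => ?_⟩
            have huA := hAle k hu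
            have e : u * w⁻¹ * u⁻¹ * w⁻¹⁻¹ = w⁻¹ * (u * w * u⁻¹ * w⁻¹)⁻¹ * w := by group
            have hb := hBX _ (hAX u huA w hw) w hw
            have e2 : w⁻¹ * (u * w * u⁻¹ * w⁻¹)⁻¹ * w = (u * w * u⁻¹ * w⁻¹)⁻¹ := by
              obtain ⟨b, hbdef⟩ : ∃ b, b = u * w * u⁻¹ * w⁻¹ := ⟨_, rfl⟩
              rw [← hbdef] at hb ⊢
              calc w⁻¹ * b⁻¹ * w = w⁻¹ * b⁻¹ * (w * b) * b⁻¹ := by group
                _ = w⁻¹ * b⁻¹ * (b * w) * b⁻¹ := by rw [hb]
                _ = b⁻¹ := by group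
            rw [e, e2]
            exact Subgroup.inv_mem _ (hw2 u hu)
        have hle : Cfsg.iterCommutator X H (N + 1) ≤ D := by
          show ⁅Cfsg.iterCommutator X H N, H⁆ ≤ D
          apply comm_le
          intro y' hy' h hh
          rw [hD]
          have hy'X : y' ∈ X := hXle N hy'
          have hzX : h * y'⁻¹ * h⁻¹ ∈ X := hX h hh _ (X.inv_mem hy'X)
          refine ⟨?_, ?_⟩
          · have e : y' * h * y'⁻¹ * h⁻¹ = y' * (h * y'⁻¹ * h⁻¹) := by group
            rw [e]; exact X.mul_mem hy'X hzX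
          · intro u hu
            have huA := hAle k hu
            have hvIt : h⁻¹ * u * h ∈ Cfsg.iterCommutator A H k := by
              have h5 := iter_inv hA k h⁻¹ (H.inv_mem hh) u hu
              rwa [inv_inv] at h5
            have hvA := hAle k hvIt
            have htIt : (h⁻¹ * u * h)⁻¹ * u ∈ Cfsg.iterCommutator A H (k + 1) := by
              have h6 : u⁻¹ * h⁻¹ * u⁻¹⁻¹ * h⁻¹⁻¹ ∈ ⁅Cfsg.iterCommutator A H k, H⁆ :=
                comm_mem (Subgroup.inv_mem _ hu) (H.inv_mem hh)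
              have e : (h⁻¹ * u * h)⁻¹ * u = (u⁻¹ * h⁻¹ * u⁻¹⁻¹ * h⁻¹⁻¹)⁻¹ := by group
              rw [e]
              exact Subgroup.inv_mem _ h6
            have htA := hAle (k + 1) htIt
            have hβ : (h⁻¹ * u * h) * y' * (h⁻¹ * u * h)⁻¹ * y'⁻¹ ∈
                Cfsg.iterCommutator B H c' :=
              ih k c' (by omega) _ hvIt y' hy'
            have hct : ((h⁻¹ * u * h)⁻¹ * u) * y' * ((h⁻¹ * u * h)⁻¹ * u)⁻¹ * y'⁻¹ ∈
                Cfsg.iterCommutator B H (c' + 1) :=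
              ih (k + 1) (c' + 1) (by omega) _ htIt y' hy'
            have hform := step_formula u y' h (h⁻¹ * u * h) ((h⁻¹ * u * h)⁻¹ * u) _ _ _
              rfl rfl rfl rfl rfl
              (hBX _ (hAX u huA _ hzX) y' hy'X)
              (hBX _ (hAX _ hvA y' hy'X) y' hy'X)
              (hBA _ (hAX _ htA y' hy'X) _ hvA)
            rw [hform]
            have hcm : ((h⁻¹ * u * h) * y' * (h⁻¹ * u * h)⁻¹ * y'⁻¹) * h *
                ((h⁻¹ * u * h) * y' * (h⁻¹ * u * h)⁻¹ * y'⁻¹)⁻¹ * h⁻¹ ∈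
                  Cfsg.iterCommutator B H (c' + 1) := comm_mem hβ hh
            exact Subgroup.mul_mem _ hct hcm
        exact ((hD y).mp (hle hy)).2 u hu
  intro a ha w hw
  have h1 := key (i + j - 1) 0 j (by omega) a ha w hw
  rw [hBj] at h1
  exact Subgroup.mem_bot.mp h1

/-- The Hom-lemma modulo a normal subgroup `B'`. -/
theorem hom_lemma_mod (H A A' B B' X : Subgroup G) (hB' : B'.Normal) (i j : ℕ)
    (hA : Inv H A) (hX : Inv H X)
    (hAX : ∀ a ∈ A, ∀ x ∈ X, a * x * a⁻¹ * x⁻¹ ∈ B)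
    (hBA : ∀ b ∈ B, ∀ a ∈ A, a * b * a⁻¹ * b⁻¹ ∈ B')
    (hBX : ∀ b ∈ B, ∀ x ∈ X, x * b * x⁻¹ * b⁻¹ ∈ B')
    (hA'X : ∀ a ∈ A', ∀ x ∈ X, a * x * a⁻¹ * x⁻¹ ∈ B')
    (hAi : Cfsg.iterCommutator A H i ≤ A')
    (hBj : Cfsg.iterCommutator B H j ≤ B') (hi : 1 ≤ i) (hj : 1 ≤ j) :
    ∀ a ∈ A, ∀ w ∈ Cfsg.iterCommutator X H (i + j - 1), a * w * a⁻¹ * w⁻¹ ∈ B' := by
  have := hB'
  obtain ⟨π, hπ⟩ : ∃ π : G →* G ⧸ B', π = QuotientGroup.mk' B' := ⟨_, rfl⟩
  have hker : ∀ z : G, π z = 1 ↔ z ∈ B' := by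
    intro z; rw [hπ]; exact QuotientGroup.eq_one_iff z
  have hcomm_eq : ∀ a b : G, π (a * b * a⁻¹ * b⁻¹) = π a * π b * (π a)⁻¹ * (π b)⁻¹ := by
    intro a b; simp only [map_mul, map_inv]
  have hcomm : ∀ a b : G, a * b * a⁻¹ * b⁻¹ ∈ B' → π a * π b = π b * π a := by
    intro a b h
    have h1 : π a * π b * (π a)⁻¹ * (π b)⁻¹ = 1 := by
      rw [← hcomm_eq]; exact (hker _).mpr h
    calc π a * π b = (π a * π b * (π a)⁻¹ * (π b)⁻¹) * (π b * π a) := by group
      _ = π b * π a := by rw [h1, one_mul]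
  have iA : Inv (H.map π) (A.map π) := by
    rintro _ ⟨h, hh, rfl⟩ _ ⟨a, ha, rfl⟩
    exact ⟨h * a * h⁻¹, hA h hh a ha, by simp only [map_mul, map_inv]⟩
  have iX : Inv (H.map π) (X.map π) := by
    rintro _ ⟨h, hh, rfl⟩ _ ⟨x, hx, rfl⟩
    exact ⟨h * x * h⁻¹, hX h hh x hx, by simp only [map_mul, map_inv]⟩
  have h1 : ∀ a ∈ A.map π, ∀ x ∈ X.map π, a * x * a⁻¹ * x⁻¹ ∈ B.map π := by
    rintro _ ⟨a, ha, rfl⟩ _ ⟨x, hx, rfl⟩
    exact ⟨a * x * a⁻¹ * x⁻¹, hAX a ha x hx, hcomm_eq a x⟩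
  have h2 : ∀ b ∈ B.map π, ∀ a ∈ A.map π, a * b = b * a := by
    rintro _ ⟨b, hb, rfl⟩ _ ⟨a, ha, rfl⟩
    exact hcomm a b (hBA b hb a ha)
  have h3 : ∀ b ∈ B.map π, ∀ x ∈ X.map π, x * b = b * x := by
    rintro _ ⟨b, hb, rfl⟩ _ ⟨x, hx, rfl⟩
    exact hcomm x b (hBX b hb x hx)
  have h4 : ∀ a ∈ A'.map π, ∀ x ∈ X.map π, a * x * a⁻¹ * x⁻¹ = 1 := by
    rintro _ ⟨a, ha, rfl⟩ _ ⟨x, hx, rfl⟩
    rw [← hcomm_eq]
    exact (hker _).mpr (hA'X a ha x hx)
  have h5 : Cfsg.iterCommutator (A.map π) (H.map π) i ≤ A'.map π := by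
    rw [← iter_map]; exact Subgroup.map_mono hAi
  have h6 : Cfsg.iterCommutator (B.map π) (H.map π) j = ⊥ := by
    rw [← iter_map, Subgroup.map_eq_bot_iff]
    intro z hz
    exact MonoidHom.mem_ker.mpr ((hker z).mpr (hBj hz))
  have hmain := hom_lemma (H.map π) (A.map π) (A'.map π) (B.map π) (X.map π) i j
    iA iX h1 h2 h3 h4 h5 h6 hi hj
  intro a ha w hw
  have hw' : π w ∈ Cfsg.iterCommutator (X.map π) (H.map π) (i + j - 1) := by
    rw [← iter_map]; exact Subgroup.mem_map_of_mem π hw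
  have h7 := hmain (π a) (Subgroup.mem_map_of_mem π ha) (π w) hw'
  rw [← hcomm_eq] at h7
  exact (hker _).mp h7

end basics

section chief

variable {G : Type*} [Group G]

/-- the elements acting trivially on `T` modulo the normal subgroup `R` -/
def cmod (T R : Subgroup G) (hR : R.Normal) : Subgroup G where
  carrier := {x | ∀ t ∈ T, t * x * t⁻¹ * x⁻¹ ∈ R}
  mul_mem' := by
    intro x y hx hy
    have hx' : ∀ t ∈ T, t * x * t⁻¹ * x⁻¹ ∈ R := hx
    have hy' : ∀ t ∈ T, t * y * t⁻¹ * y⁻¹ ∈ R := hy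
    show ∀ t ∈ T, t * (x * y) * t⁻¹ * (x * y)⁻¹ ∈ R
    intro t ht
    have e : t * (x * y) * t⁻¹ * (x * y)⁻¹ =
        (t * x * t⁻¹ * x⁻¹) * (x * (t * y * t⁻¹ * y⁻¹) * x⁻¹) := by group
    rw [e]
    exact R.mul_mem (hx' t ht) (hR.conj_mem _ (hy' t ht) x)
  one_mem' := by
    show ∀ t ∈ T, t * 1 * t⁻¹ * (1 : G)⁻¹ ∈ R
    intro t ht
    have e : t * 1 * t⁻¹ * (1 : G)⁻¹ = 1 := by group
    rw [e]; exact R.one_mem
  inv_mem' := by
    intro x hx
    have hx' : ∀ t ∈ T, t * x * t⁻¹ * x⁻¹ ∈ R := hx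
    show ∀ t ∈ T, t * x⁻¹ * t⁻¹ * x⁻¹⁻¹ ∈ R
    intro t ht
    have e : t * x⁻¹ * t⁻¹ * x⁻¹⁻¹ = x⁻¹ * (t * x * t⁻¹ * x⁻¹)⁻¹ * x⁻¹⁻¹ := by group
    rw [e]
    exact hR.conj_mem _ (R.inv_mem (hx' t ht)) x⁻¹

theorem mem_cmod {T R : Subgroup G} {hR : R.Normal} {x : G} :
    x ∈ cmod T R hR ↔ ∀ t ∈ T, t * x * t⁻¹ * x⁻¹ ∈ R := Iff.rfl

theorem cmod_normal {T R : Subgroup G} (hT : T.Normal) (hR : R.Normal) :
    (cmod T R hR).Normal := by
  refine ⟨fun x hx g => ?_⟩
  have hx' : ∀ t ∈ T, t * x * t⁻¹ * x⁻¹ ∈ R := hx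
  show ∀ t ∈ T, t * (g * x * g⁻¹) * t⁻¹ * (g * x * g⁻¹)⁻¹ ∈ R
  intro t ht
  have e : t * (g * x * g⁻¹) * t⁻¹ * (g * x * g⁻¹)⁻¹ =
      g * ((g⁻¹ * t * g⁻¹⁻¹) * x * (g⁻¹ * t * g⁻¹⁻¹)⁻¹ * x⁻¹) * g⁻¹ := by group
  rw [e]
  exact hR.conj_mem _ (hx' _ (hT.conj_mem t ht g⁻¹)) g

theorem cmod_mono (T : Subgroup G) {R R' : Subgroup G} (h : R ≤ R') (hR : R.Normal)
    (hR' : R'.Normal) : cmod T R hR ≤ cmod T R' hR' := by
  intro x hx
  have hx' : ∀ t ∈ T, t * x * t⁻¹ * x⁻¹ ∈ R := hx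
  show ∀ t ∈ T, t * x * t⁻¹ * x⁻¹ ∈ R'
  exact fun t ht => h (hx' t ht)

theorem cmod_bot_left (R : Subgroup G) (hR : R.Normal) : cmod ⊥ R hR = ⊤ := by
  rw [eq_top_iff]
  intro x _
  show ∀ t ∈ (⊥ : Subgroup G), t * x * t⁻¹ * x⁻¹ ∈ R
  intro t ht
  rw [Subgroup.mem_bot.mp ht]
  have e : (1 : G) * x * 1⁻¹ * x⁻¹ = 1 := by group
  rw [e]; exact R.one_mem

/-- every chief factor inside `T` is killed by `k`-fold commutation with `H` -/
def UU (H : Subgroup G) (k : ℕ) (T : Subgroup G) : Prop :=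
  ∀ U V : Subgroup G, Cfsg.IsChiefFactor U V → U ≤ T → Cfsg.iterCommutator U H k ≤ V

theorem eq_bot_of_le_comm {K : Type*} [Group K] [Finite K] {p : ℕ} [Fact p.Prime]
    {P W : Subgroup K} (hP : IsPGroup p P) (hWP : W ≤ P) (hW : W ≤ ⁅W, P⁆) : W = ⊥ := by
  have hnil : Group.IsNilpotent ↥P := hP.isNilpotent
  obtain ⟨n, hn⟩ := (Subgroup.isNilpotent_iff_lowerCentralSeries P).1 hnil
  have key : ∀ k, W ≤ P.lowerCentralSeries k := by
    intro k
    induction k with
    | zero => exact hWP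
    | succ k ih =>
      rw [Subgroup.lowerCentralSeries_succ]
      exact le_trans hW (Subgroup.commutator_mono ih le_rfl)
  have h1 := key n
  rw [hn] at h1
  exact le_bot_iff.1 h1

theorem chief_central [Finite G] {p : ℕ} [Fact p.Prime] {P U V : Subgroup G}
    (hPn : P.Normal) (hP : IsPGroup p P) (hUV : Cfsg.IsChiefFactor U V) (hUP : U ≤ P) :
    ⁅U, P⁆ ≤ V := by
  obtain ⟨hVU, hUn, hVn, hch⟩ := hUV
  have := hPn
  have := hUn
  have := hVn
  have hN : (⁅U, P⁆ ⊔ V).Normal := inferInstance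
  rcases hch (⁅U, P⁆ ⊔ V) hN le_sup_right
    (sup_le (Subgroup.commutator_le_left U P) hVU.le) with h1 | h1
  · exact le_sup_left.trans h1.le
  · exfalso
    have hker : (QuotientGroup.mk' V).ker = V := QuotientGroup.ker_mk' V
    have hVb : V.map (QuotientGroup.mk' V) = ⊥ :=
      (Subgroup.map_eq_bot_iff _).mpr (le_of_eq hker.symm)
    have hU' : U.map (QuotientGroup.mk' V) = (⁅U, P⁆).map (QuotientGroup.mk' V) := by
      have h := congrArg (Subgroup.map (QuotientGroup.mk' V)) h1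
      rw [Subgroup.map_sup, hVb, sup_bot_eq] at h
      exact h.symm
    have hW : U.map (QuotientGroup.mk' V) ≤
        ⁅U.map (QuotientGroup.mk' V), P.map (QuotientGroup.mk' V)⁆ := by
      rw [← Subgroup.map_commutator]
      exact hU'.le
    have hbot := eq_bot_of_le_comm (hP.map (QuotientGroup.mk' V)) (Subgroup.map_mono hUP) hW
    have h5 := (Subgroup.map_eq_bot_iff _).mp hbot
    rw [hker] at h5
    exact (not_le_of_gt hVU) h5

theorem ext_U (H : Subgroup G) (k : ℕ) {S T : Subgroup G} (hSn : S.Normal)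
    (hS : UU H k S) (hT : Cfsg.iterCommutator T H k ≤ S) : UU H k T := by
  intro U V hUV hUT
  obtain ⟨hVU, hUn, hVn, hch⟩ := hUV
  by_cases hcase : U ⊓ S ≤ V
  · have h1 : Cfsg.iterCommutator U H k ≤ U := iter_le_of_normal hUn H k
    have h2 : Cfsg.iterCommutator U H k ≤ S := (iter_mono H hUT k).trans hT
    exact (le_inf h1 h2).trans hcase
  · haveI := hUn
    have := hVn
    have := hSn
    have hM : V ⊔ (U ⊓ S) = U := by
      rcases hch (V ⊔ (U ⊓ S)) inferInstance le_sup_left (sup_le hVU.le inf_le_left) with h | h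
      · exfalso
        apply hcase
        rw [← h]
        exact le_sup_right
      · exact h
    have hchief : Cfsg.IsChiefFactor (U ⊓ S) (V ⊓ S) := by
      refine ⟨lt_of_le_of_ne (inf_le_inf_right S hVU.le) ?_, inferInstance, inferInstance, ?_⟩
      · intro hEq
        apply hcase
        rw [← hEq]
        exact inf_le_left
      · intro N hNn hVN hNU
        have := hNn
        rcases hch (V ⊔ N) inferInstance le_sup_left
          (sup_le hVU.le (hNU.trans inf_le_left)) with h | h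
        · left
          have hNV : N ≤ V := by
            rw [← h]
            exact le_sup_right
          exact le_antisymm (le_inf hNV (hNU.trans inf_le_right)) hVN
        · right
          refine le_antisymm hNU ?_
          intro x hx
          obtain ⟨hxU, hxS⟩ := Subgroup.mem_inf.mp hx
          have hx' : x ∈ V ⊔ N := by
            rw [h]
            exact hxU
          rw [← SetLike.mem_coe, Subgroup.normal_mul] at hx'
          obtain ⟨v, hv, n, hn, rfl⟩ := Set.mem_mul.mp hx'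
          have hnS : n ∈ S := (Subgroup.mem_inf.mp (hNU hn)).2
          have hvS : v ∈ S := by
            have e : v = (v * n) * n⁻¹ := by group
            rw [e]
            exact S.mul_mem hxS (S.inv_mem hnS)
          exact N.mul_mem (hVN (Subgroup.mem_inf.mpr ⟨hv, hvS⟩)) hn
    have h3 := hS (U ⊓ S) (V ⊓ S) hchief inf_le_right
    have hker : (QuotientGroup.mk' V).ker = V := QuotientGroup.ker_mk' V
    have hVb : V.map (QuotientGroup.mk' V) = ⊥ :=
      (Subgroup.map_eq_bot_iff _).mpr (le_of_eq hker.symm)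
    have hUmap : U.map (QuotientGroup.mk' V) = (U ⊓ S).map (QuotientGroup.mk' V) := by
      have h := congrArg (Subgroup.map (QuotientGroup.mk' V)) hM
      rw [Subgroup.map_sup, hVb, bot_sup_eq] at h
      exact h.symm
    have h4 : (Cfsg.iterCommutator U H k).map (QuotientGroup.mk' V) = ⊥ := by
      rw [iter_map, hUmap, ← iter_map, eq_bot_iff, ← hVb]
      exact Subgroup.map_mono (h3.trans inf_le_left)
    have h5 := (Subgroup.map_eq_bot_iff _).mp h4
    rw [hker] at h5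
    exact h5

theorem chief_up [Finite G] (Pr : Subgroup G → Prop) (S₀ : Subgroup G)
    (hS₀ : S₀.Normal) (h0 : Pr S₀)
    (hstep : ∀ U V : Subgroup G, Cfsg.IsChiefFactor U V → S₀ ≤ V → Pr V → Pr U) :
    ∀ T : Subgroup G, T.Normal → S₀ ≤ T → Pr T := by
  have key : ∀ n : ℕ, ∀ T : Subgroup G, Nat.card T = n → T.Normal → S₀ ≤ T → Pr T := by
    intro n
    induction n using Nat.strong_induction_on with
    | _ n ih =>
      intro T hTn hT hST
      by_cases hEq : T = S₀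
      · rw [hEq]; exact h0
      · have hlt : S₀ < T := lt_of_le_of_ne hST (Ne.symm hEq)
        obtain ⟨S, hS, hmax⟩ := Set.exists_max_image
          {S : Subgroup G | S.Normal ∧ S₀ ≤ S ∧ S < T}
          (fun S : Subgroup G => Nat.card S) (Set.toFinite _) ⟨S₀, hS₀, le_rfl, hlt⟩
        obtain ⟨hSn, hS₀S, hST'⟩ := hS
        have hcard : Nat.card S < Nat.card T :=
          lt_of_not_ge (fun hge => hST'.ne (Subgroup.eq_of_le_of_card_ge hST'.le hge))
        have hPS : Pr S := ih (Nat.card S) (by rw [← hTn]; exact hcard) S rfl hSn hS₀S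
        refine hstep T S ⟨hST', hT, hSn, ?_⟩ hS₀S hPS
        intro N hNn hSN hNT
        by_cases hNT' : N = T
        · exact Or.inr hNT'
        · left
          have hN : N ∈ {S : Subgroup G | S.Normal ∧ S₀ ≤ S ∧ S < T} :=
            ⟨hNn, hS₀S.trans hSN, lt_of_le_of_ne hNT hNT'⟩
          exact (Subgroup.eq_of_le_of_card_ge hSN (hmax N hN)).symm
  intro T hT hST
  exact key (Nat.card T) T rfl hT hST

theorem chief_down [Finite G] (Pr : Subgroup G → Prop) (T₀ : Subgroup G)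
    (hT₀ : T₀.Normal) (h0 : Pr T₀)
    (hstep : ∀ U V : Subgroup G, Cfsg.IsChiefFactor U V → U ≤ T₀ → Pr U → Pr V) :
    ∀ S : Subgroup G, S.Normal → S ≤ T₀ → Pr S := by
  have key : ∀ n : ℕ, ∀ S : Subgroup G, Nat.card T₀ - Nat.card S = n → S.Normal →
      S ≤ T₀ → Pr S := by
    intro n
    induction n using Nat.strong_induction_on with
    | _ n ih =>
      intro S hSn hS hST
      by_cases hEq : S = T₀
      · rw [hEq]; exact h0
      · have hlt : S < T₀ := lt_of_le_of_ne hST hEq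
        obtain ⟨T, hT, hmin⟩ := Set.exists_min_image
          {T : Subgroup G | T.Normal ∧ T ≤ T₀ ∧ S < T}
          (fun T : Subgroup G => Nat.card T) (Set.toFinite _) ⟨T₀, hT₀, le_rfl, hlt⟩
        obtain ⟨hTn, hTT₀, hST'⟩ := hT
        have hcard : Nat.card S < Nat.card T :=
          lt_of_not_ge (fun hge => hST'.ne (Subgroup.eq_of_le_of_card_ge hST'.le hge))
        have hcard2 : Nat.card T ≤ Nat.card T₀ := Subgroup.card_le_of_le hTT₀
        have hPT : Pr T := ih (Nat.card T₀ - Nat.card T) (by omega) T rfl hTn hTT₀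
        refine hstep T S ⟨hST', hTn, hS, ?_⟩ hTT₀ hPT
        intro N hNn hSN hNT
        by_cases hNS : N = S
        · exact Or.inl hNS
        · right
          have hN : N ∈ {T : Subgroup G | T.Normal ∧ T ≤ T₀ ∧ S < T} :=
            ⟨hNn, hNT.trans hTT₀, lt_of_le_of_ne hSN (Ne.symm hNS)⟩
          exact Subgroup.eq_of_le_of_card_ge hNT (hmin N hN)
  intro S hS hST
  exact key (Nat.card T₀ - Nat.card S) S rfl hS hST

theorem main [Finite G] {p : ℕ} [Fact p.Prime] (P : Subgroup G) [hPn : P.Normal]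
    (hP : IsPGroup p ↥P) (Q : Subgroup G) (hQP : Q ≤ P)
    (hQchar : (Q.subgroupOf P).Characteristic)
    (hQ3 : ⁅P, Q⁆ ≤ Q ⊓ Subgroup.centralizer ((Q : Subgroup G) : Set G))
    (hQ4 : P ⊓ Subgroup.centralizer ((Q : Subgroup G) : Set G) =
      Q ⊓ Subgroup.centralizer ((Q : Subgroup G) : Set G))
    (g : G) (i j : ℕ) (hi : 1 ≤ i) (hj : 1 ≤ j)
    (hQi : ∀ U V : Subgroup G, Cfsg.IsChiefFactor U V → U ≤ Q →
      Cfsg.iterCommutator U (Subgroup.zpowers g) i ≤ V)
    (hZj : ∀ U V : Subgroup G, Cfsg.IsChiefFactor U V →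
      U ≤ Q ⊓ Subgroup.centralizer ((Q : Subgroup G) : Set G) →
      Cfsg.iterCommutator U (Subgroup.zpowers g) j ≤ V) :
    ∀ U V : Subgroup G, Cfsg.IsChiefFactor U V → U ≤ P →
      Cfsg.iterCommutator U (Subgroup.zpowers g) (i + j - 1) ≤ V := by
  obtain ⟨H, hH⟩ : ∃ H : Subgroup G, H = Subgroup.zpowers g := ⟨_, rfl⟩
  rw [← hH] at hQi hZj ⊢
  obtain ⟨Z, hZ⟩ : ∃ Z : Subgroup G,
      Z = Q ⊓ Subgroup.centralizer ((Q : Subgroup G) : Set G) := ⟨_, rfl⟩
  rw [← hZ] at hQ3 hQ4 hZj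
  have hQn : Q.Normal := by
    have := hQchar
    have h := ConjAct.normal_of_characteristic_of_normal (H := P) (K := Q.subgroupOf P)
    rwa [Subgroup.map_subgroupOf_eq_of_le hQP] at h
  have hbotn : (⊥ : Subgroup G).Normal := inferInstance
  have hc : Subgroup.centralizer ((Q : Subgroup G) : Set G) = cmod Q ⊥ hbotn := by
    ext x
    rw [Subgroup.mem_centralizer_iff, mem_cmod]
    constructor
    · intro h t ht
      have h1 : t * x = x * t := h t ht
      rw [Subgroup.mem_bot, h1]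
      group
    · intro h t ht
      have h1 : t * x * t⁻¹ * x⁻¹ = 1 := Subgroup.mem_bot.mp (h t ht)
      calc t * x = (t * x * t⁻¹ * x⁻¹) * (x * t) := by group
        _ = x * t := by rw [h1, one_mul]
  have hZeq : Z = P ⊓ cmod Q ⊥ hbotn := by
    rw [← hQ4, hc]
  have hZQ : Z ≤ Q := by
    rw [hZ]; exact inf_le_left
  have hZn : Z.Normal := by
    rw [hZeq]
    have := cmod_normal hQn hbotn
    exact inferInstance
  have hUj : UU H (i + j - 1) Z := by
    intro U V hUV hUZ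
    have hUn : U.Normal := hUV.2.1
    exact (iter_anti (inv_of_normal hUn H) (by omega : j ≤ i + j - 1)).trans (hZj U V hUV hUZ)
  have outer : ∀ T : Subgroup G, T.Normal → ⊥ ≤ T →
      ∀ hT : T.Normal, T ≤ Z → UU H (i + j - 1) (P ⊓ cmod Q T hT) := by
    refine chief_up (fun T => ∀ hT : T.Normal, T ≤ Z → UU H (i + j - 1) (P ⊓ cmod Q T hT))
      ⊥ hbotn ?_ ?_
    · intro hT _
      have e : P ⊓ cmod Q ⊥ hT = Z := hZeq.symm
      rw [e]; exact hUj
    · intro U V hUV _ hV hUn hUZ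
      have hVn : V.Normal := hUV.2.2.1
      have hVU : V ≤ U := hUV.1.le
      have hV' : UU H (i + j - 1) (P ⊓ cmod Q V hVn) := hV hVn (hVU.trans hUZ)
      have hcen : ⁅U, P⁆ ≤ V := chief_central hPn hP hUV ((hUZ.trans hZQ).trans hQP)
      have inner : ∀ S : Subgroup G, S.Normal → S ≤ Q →
          UU H (i + j - 1) (P ⊓ cmod Q U hUn ⊓ cmod S V hVn) := by
        refine chief_down (fun S => UU H (i + j - 1) (P ⊓ cmod Q U hUn ⊓ cmod S V hVn))
          Q hQn ?_ ?_
        · have e : P ⊓ cmod Q U hUn ⊓ cmod Q V hVn = P ⊓ cmod Q V hVn :=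
            le_antisymm (le_inf (inf_le_left.trans inf_le_left) inf_le_right)
              (le_inf (le_inf inf_le_left (inf_le_right.trans (cmod_mono Q hVU hVn hUn)))
                inf_le_right)
          show UU H (i + j - 1) (P ⊓ cmod Q U hUn ⊓ cmod Q V hVn)
          rw [e]; exact hV'
        · intro A A' hAA' hAQ hA
          show UU H (i + j - 1) (P ⊓ cmod Q U hUn ⊓ cmod A' V hVn)
          have hA0 : UU H (i + j - 1) (P ⊓ cmod Q U hUn ⊓ cmod A V hVn) := hA
          have hAn : A.Normal := hAA'.2.1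
          have hA'n : A'.Normal := hAA'.2.2.1
          have hc1 : (cmod Q U hUn).Normal := cmod_normal hQn hUn
          have hc2 : (cmod A V hVn).Normal := cmod_normal hAn hVn
          have hc3 : (cmod A' V hVn).Normal := cmod_normal hA'n hVn
          have hSn : (P ⊓ cmod Q U hUn ⊓ cmod A V hVn).Normal := by
            have := hc1
            have := hc2
            exact inferInstance
          have hXn : (P ⊓ cmod Q U hUn ⊓ cmod A' V hVn).Normal := by
            have := hc1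
            have := hc3
            exact inferInstance
          refine ext_U H (i + j - 1) hSn hA0 ?_
          obtain ⟨X, hX⟩ : ∃ X : Subgroup G, X = P ⊓ cmod Q U hUn ⊓ cmod A' V hVn :=
            ⟨_, rfl⟩
          rw [← hX] at hXn ⊢
          have hXP : ∀ x ∈ X, x ∈ P := by
            intro x hx
            rw [hX] at hx
            exact (Subgroup.mem_inf.mp (Subgroup.mem_inf.mp hx).1).1
          have hXQ : ∀ x ∈ X, ∀ t ∈ Q, t * x * t⁻¹ * x⁻¹ ∈ U := by
            intro x hx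
            rw [hX] at hx
            exact (Subgroup.mem_inf.mp (Subgroup.mem_inf.mp hx).1).2
          have hXA' : ∀ x ∈ X, ∀ t ∈ A', t * x * t⁻¹ * x⁻¹ ∈ V := by
            intro x hx
            rw [hX] at hx
            exact (Subgroup.mem_inf.mp hx).2
          have hiter : Cfsg.iterCommutator X H (i + j - 1) ≤ X := iter_le_of_normal hXn H _
          have hBA : ∀ b ∈ U, ∀ a ∈ A, a * b * a⁻¹ * b⁻¹ ∈ V := by
            intro b hb a ha
            have hbZ : b ∈ Q ⊓ Subgroup.centralizer ((Q : Subgroup G) : Set G) := by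
              rw [← hZ]; exact hUZ hb
            have hcm : a * b = b * a :=
              (Subgroup.mem_centralizer_iff.mp (Subgroup.mem_inf.mp hbZ).2) a (hAQ ha)
            have e : a * b * a⁻¹ * b⁻¹ = 1 := by rw [hcm]; group
            rw [e]; exact V.one_mem
          have hBX : ∀ b ∈ U, ∀ x ∈ X, x * b * x⁻¹ * b⁻¹ ∈ V := by
            intro b hb x hx
            have h1 : b * x * b⁻¹ * x⁻¹ ∈ V := hcen (comm_mem hb (hXP x hx))
            have e : x * b * x⁻¹ * b⁻¹ = (b * x * b⁻¹ * x⁻¹)⁻¹ := by group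
            rw [e]; exact V.inv_mem h1
          have hhom := hom_lemma_mod H A A' U V X hVn i j (inv_of_normal hAn H)
            (inv_of_normal hXn H) (fun a ha x hx => hXQ x hx a (hAQ ha)) hBA hBX
            (fun a ha x hx => hXA' x hx a ha) (hQi A A' hAA' hAQ) (hZj U V hUV hUZ) hi hj
          intro w hw
          refine Subgroup.mem_inf.mpr ⟨?_, ?_⟩
          · have hwX := hiter hw
            rw [hX] at hwX
            exact (Subgroup.mem_inf.mp hwX).1
          · show ∀ t ∈ A, t * w * t⁻¹ * w⁻¹ ∈ V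
            intro t ht
            exact hhom t ht w hw
      have h8 := inner ⊥ hbotn bot_le
      rw [cmod_bot_left V hVn, inf_top_eq] at h8
      exact h8
  have hfin := outer Z hZn bot_le hZn le_rfl
  have hPeq : P ⊓ cmod Q Z hZn = P := by
    refine inf_eq_left.mpr ?_
    intro x hx
    show ∀ t ∈ Q, t * x * t⁻¹ * x⁻¹ ∈ Z
    intro t ht
    have h1 : x * t * x⁻¹ * t⁻¹ ∈ Z := hQ3 (comm_mem hx ht)
    have e : t * x * t⁻¹ * x⁻¹ = (x * t * x⁻¹ * t⁻¹)⁻¹ := by group
    rw [e]; exact Z.inv_mem h1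
  rw [hPeq] at hfin
  exact hfin

end chief

end Cfsg.Agent.Helper2.CritChief
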