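import Mathlib.GroupTheory.OrderOfElement

set_option autoImplicit false

namespace Cfsg.Agent.Helper2

variable {G : Type*} [Group G]

theorem inv_sq_of_orderOf_two {x : G} (hx : orderOf x = 2) : x * x = 1 := by
  have := pow_orderOf_eq_one x
  rw [hx, pow_two] at this; exact this

theorem inv_eq_self_of_orderOf_two {x : G} (hx : orderOf x = 2) : x⁻¹ = x :=
  inv_eq_of_mul_eq_one_left (inv_sq_of_orderOf_two hx)

/-- `x * r^j = r^(-j) * x` for involutions `x`, `y` and `r = x * y`. -/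
theorem dih_semiconj {x y : G} (hx2 : x * x = 1) (hy2 : y * y = 1) (j : ℤ) :
    x * (x * y) ^ j = (x * y) ^ (-j) * x := by
  have hxinv : x⁻¹ = x := inv_eq_of_mul_eq_one_left hx2
  have hyinv : y⁻¹ = y := inv_eq_of_mul_eq_one_left hy2
  have hinv : (x * y)⁻¹ = y * x := by rw [mul_inv_rev, hxinv, hyinv]
  have hsc : SemiconjBy x (x * y) (x * y)⁻¹ := by
    unfold SemiconjBy; rw [hinv, ← mul_assoc, hx2, one_mul, mul_assoc, hx2, mul_one]
  have h1 := (hsc.zpow_right j).eq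
  rw [inv_zpow, ← zpow_neg] at h1
  exact h1

/-- Normal form of the elements of the dihedral group generated by two involutions. -/
theorem dih_closure {x y : G} (hx2 : x * x = 1) (hy2 : y * y = 1) (d : G)
    (hd : d ∈ Subgroup.closure ({x, y} : Set G)) :
    ∃ i : ℤ, d = (x * y) ^ i ∨ d = (x * y) ^ i * x := by
  have hxinv : x⁻¹ = x := inv_eq_of_mul_eq_one_left hx2
  have hyinv : y⁻¹ = y := inv_eq_of_mul_eq_one_left hy2
  have hinv : (x * y)⁻¹ = y * x := by rw [mul_inv_rev, hxinv, hyinv]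
  induction hd using Subgroup.closure_induction with
  | mem a ha =>
    simp only [Set.mem_insert_iff, Set.mem_singleton_iff] at ha
    rcases ha with h | h
    · exact ⟨0, Or.inr (by simp [h])⟩
    · refine ⟨-1, Or.inr ?_⟩
      rw [h, zpow_neg, zpow_one, mul_inv_rev, hxinv, hyinv, mul_assoc, hx2, mul_one]
  | one => exact ⟨0, Or.inl (by simp)⟩
  | mul a b _ _ iha ihb =>
    obtain ⟨i, hi | hi⟩ := iha <;> obtain ⟨j, hj | hj⟩ := ihb
    · exact ⟨i + j, Or.inl (by rw [hi, hj, zpow_add])⟩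
    · exact ⟨i + j, Or.inr (by rw [hi, hj, zpow_add, mul_assoc])⟩
    · refine ⟨i - j, Or.inr ?_⟩
      rw [hi, hj, mul_assoc, dih_semiconj hx2 hy2, ← mul_assoc, ← zpow_add, sub_eq_add_neg]
    · refine ⟨i - j, Or.inl ?_⟩
      rw [hi, hj, mul_assoc, ← mul_assoc x, dih_semiconj hx2 hy2, mul_assoc _ x x, hx2, mul_one,
        ← zpow_add, sub_eq_add_neg]
  | inv a _ iha =>
    obtain ⟨i, hi | hi⟩ := iha
    · exact ⟨-i, Or.inl (by rw [hi, zpow_neg])⟩
    · refine ⟨i, Or.inr ?_⟩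
      rw [hi, mul_inv_rev, hxinv, ← zpow_neg, dih_semiconj hx2 hy2, neg_neg]

/-- Conjugates of `x` in the dihedral group generated by involutions `x`, `y`. -/
theorem dih_conj {x y : G} (hx2 : x * x = 1) (hy2 : y * y = 1) (d : G)
    (hd : d ∈ Subgroup.closure ({x, y} : Set G)) :
    ∃ i : ℤ, d * x * d⁻¹ = (x * y) ^ (2 * i) * x := by
  have hxinv : x⁻¹ = x := inv_eq_of_mul_eq_one_left hx2
  obtain ⟨i, hi | hi⟩ := dih_closure hx2 hy2 d hd
  · refine ⟨i, ?_⟩
    rw [hi, ← zpow_neg, mul_assoc, dih_semiconj hx2 hy2, neg_neg, ← mul_assoc, ← zpow_add, two_mul]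
  · refine ⟨i, ?_⟩
    rw [hi, mul_inv_rev, hxinv, ← zpow_neg, mul_assoc _ x x, hx2, mul_one,
      dih_semiconj hx2 hy2, neg_neg, ← mul_assoc, ← zpow_add, two_mul]

theorem dih_y_eq {x y : G} (hx2 : x * x = 1) (hy2 : y * y = 1) :
    y = (x * y) ^ (-1 : ℤ) * x := by
  have hxinv : x⁻¹ = x := inv_eq_of_mul_eq_one_left hx2
  have hyinv : y⁻¹ = y := inv_eq_of_mul_eq_one_left hy2
  rw [zpow_neg, zpow_one, mul_inv_rev, hxinv, hyinv, mul_assoc, hx2, mul_one]

end Cfsg.Agent.Helper2
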