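import Mathlib

set_option autoImplicit false

namespace Cfsg.Agent.Helper2.ESD2

variable {p : ℕ} [Fact p.Prime] {V : Type*} [AddCommGroup V] [Module (ZMod p) V] [Finite V]

theorem lagr_or_irr (B : V →ₗ[ZMod p] V →ₗ[ZMod p] ZMod p) (halt : ∀ v, B v v = 0)
    (hnd : ∀ u, (∀ v, B u v = 0) → u = 0) (x : V ≃ₗ[ZMod p] V)
    (hx : ∀ u v, B (x u) (x v) = B u v)
    (hmaschke : ∀ L M : Submodule (ZMod p) V, L ≤ M → (∀ v ∈ L, x v ∈ L) →
      (∀ v ∈ M, x v ∈ M) →
      ∃ C : Submodule (ZMod p) V, C ≤ M ∧ (∀ v ∈ C, x v ∈ C) ∧ L ⊓ C = ⊥ ∧ L ⊔ C = M) :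
    (∃ L : Submodule (ZMod p) V, (∀ v ∈ L, x v ∈ L) ∧ Nat.card L * Nat.card L = Nat.card V) ∨
    (∃ W : Submodule (ZMod p) V, (∀ w ∈ W, x w ∈ W) ∧ W ≠ ⊥ ∧
      (∀ U : Submodule (ZMod p) V, U ≤ W → (∀ u ∈ U, x u ∈ U) → U = ⊥ ∨ U = W) ∧
      (∀ u ∈ W, (∀ v ∈ W, B u v = 0) → u = 0)) := by
  classical
  have hskew : ∀ u v, B u v = - B v u := by
    intro u v
    have h := halt (u + v)
    simp only [map_add, LinearMap.add_apply, halt, zero_add, add_zero] at h
    linear_combination h
  have hB : LinearMap.BilinForm.Nondegenerate B :=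
    ⟨fun u hu => hnd u hu, fun v hv => hnd v (fun w => by rw [hskew v w, hv w, neg_zero])⟩
  have hsymm : ∀ L : Submodule (ZMod p) V, (∀ v ∈ L, x v ∈ L) → ∀ v ∈ L, x.symm v ∈ L := by
    intro L hL v hv
    have hinj : Function.Injective (fun w : L => (⟨x w, hL w w.2⟩ : L)) := by
      intro a b hab
      apply Subtype.ext
      have h2 : x (a : V) = x (b : V) := congrArg Subtype.val hab
      exact x.injective h2
    have hsurj := Finite.surjective_of_injective hinj
    obtain ⟨w, hw⟩ := hsurj ⟨v, hv⟩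
    have hxw : x (w : V) = v := congrArg Subtype.val hw
    rw [← hxw, LinearEquiv.symm_apply_apply]
    exact w.2
  have hperp : ∀ L : Submodule (ZMod p) V, (∀ v ∈ L, x v ∈ L) →
      ∀ v ∈ LinearMap.BilinForm.orthogonal B L, x v ∈ LinearMap.BilinForm.orthogonal B L := by
    intro L hL v hv
    rw [LinearMap.BilinForm.mem_orthogonal_iff] at hv ⊢
    intro u hu
    have h1 := hv (x.symm u) (hsymm L hL u hu)
    have h2 := hx (x.symm u) v
    rw [LinearEquiv.apply_symm_apply] at h2
    rw [h2]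
    exact h1
  have hex : ∃ k : ℕ, ∃ L : Submodule (ZMod p) V,
      ((∀ v ∈ L, x v ∈ L) ∧ ∀ u ∈ L, ∀ v ∈ L, B u v = 0) ∧
      Module.finrank (ZMod p) L + k = Module.finrank (ZMod p) V := by
    refine ⟨Module.finrank (ZMod p) V, ⊥, ⟨?_, ?_⟩, ?_⟩
    · intro v hv
      rw [Submodule.mem_bot] at hv ⊢
      rw [hv, map_zero]
    · intro u hu v _
      rw [Submodule.mem_bot] at hu
      rw [hu, map_zero, LinearMap.zero_apply]
    · simp
  obtain ⟨L, ⟨hLinv, hLiso⟩, hLk⟩ := Nat.find_spec hex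
  have hLmax : ∀ L' : Submodule (ZMod p) V, (∀ v ∈ L', x v ∈ L') →
      (∀ u ∈ L', ∀ v ∈ L', B u v = 0) →
      Module.finrank (ZMod p) L' ≤ Module.finrank (ZMod p) L := by
    intro L' h1 h2
    have hle := Submodule.finrank_le L'
    have hmin := Nat.find_min' hex ⟨L', ⟨h1, h2⟩, (by omega :
      Module.finrank (ZMod p) L' + (Module.finrank (ZMod p) V - Module.finrank (ZMod p) L') =
        Module.finrank (ZMod p) V)⟩
    omega
  obtain ⟨M, hMdef⟩ : ∃ M : Submodule (ZMod p) V, M = LinearMap.BilinForm.orthogonal B L :=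
    ⟨_, rfl⟩
  have hLM : L ≤ M := by
    intro v hv
    rw [hMdef, LinearMap.BilinForm.mem_orthogonal_iff]
    intro u hu
    exact hLiso u hu v hv
  have hMinv : ∀ v ∈ M, x v ∈ M := by
    rw [hMdef]; exact hperp L hLinv
  have hMrank : Module.finrank (ZMod p) M =
      Module.finrank (ZMod p) V - Module.finrank (ZMod p) L := by
    rw [hMdef]; exact LinearMap.BilinForm.finrank_orthogonal hB L
  have hLle : Module.finrank (ZMod p) L ≤ Module.finrank (ZMod p) M :=
    Submodule.finrank_mono hLM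
  have hLV : Module.finrank (ZMod p) L ≤ Module.finrank (ZMod p) V := Submodule.finrank_le L
  by_cases hcase : Module.finrank (ZMod p) M = Module.finrank (ZMod p) L
  · left
    refine ⟨L, hLinv, ?_⟩
    have h2 : Module.finrank (ZMod p) L + Module.finrank (ZMod p) L =
        Module.finrank (ZMod p) V := by omega
    rw [Module.natCard_eq_pow_finrank (K := ZMod p) (V := L),
      Module.natCard_eq_pow_finrank (K := ZMod p) (V := V), ← pow_add, h2]
  · right
    obtain ⟨C, hCM, hCinv, hLC, hLCM⟩ := hmaschke L M hLM hLinv hMinv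
    have hCne : C ≠ ⊥ := by
      intro hC
      rw [hC, sup_bot_eq] at hLCM
      exact hcase (by rw [← hLCM])
    have hexW : ∃ k : ℕ, ∃ W : Submodule (ZMod p) V,
        (W ≤ C ∧ (∀ w ∈ W, x w ∈ W) ∧ W ≠ ⊥) ∧ Module.finrank (ZMod p) W = k :=
      ⟨_, C, ⟨le_refl C, hCinv, hCne⟩, rfl⟩
    obtain ⟨W, ⟨hWC, hWinv, hWne⟩, hWk⟩ := Nat.find_spec hexW
    have hWmin : ∀ U : Submodule (ZMod p) V, U ≤ W → (∀ u ∈ U, x u ∈ U) →
        U = ⊥ ∨ U = W := by
      intro U hUW hUinv
      by_cases hU : U = ⊥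
      · exact Or.inl hU
      · right
        have hmin := Nat.find_min' hexW ⟨U, ⟨hUW.trans hWC, hUinv, hU⟩, rfl⟩
        rw [← hWk] at hmin
        exact Submodule.eq_of_le_of_finrank_le hUW hmin
    refine ⟨W, hWinv, hWne, hWmin, ?_⟩
    have hWperp := hperp W hWinv
    have hRinv : ∀ u ∈ W ⊓ LinearMap.BilinForm.orthogonal B W,
        x u ∈ W ⊓ LinearMap.BilinForm.orthogonal B W := by
      intro u hu
      rw [Submodule.mem_inf] at hu ⊢
      exact ⟨hWinv u hu.1, hWperp u hu.2⟩
    rcases hWmin _ inf_le_left hRinv with hR | hR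
    · intro u hu huv
      have hmem : u ∈ W ⊓ LinearMap.BilinForm.orthogonal B W := by
        rw [Submodule.mem_inf, LinearMap.BilinForm.mem_orthogonal_iff]
        refine ⟨hu, fun n hn => ?_⟩
        rw [hskew n u, huv n hn, neg_zero]
      rw [hR, Submodule.mem_bot] at hmem
      exact hmem
    · exfalso
      have hWiso : ∀ u ∈ W, ∀ v ∈ W, B u v = 0 := by
        intro u hu v hv
        have hv' : v ∈ W ⊓ LinearMap.BilinForm.orthogonal B W := by rw [hR]; exact hv
        rw [Submodule.mem_inf, LinearMap.BilinForm.mem_orthogonal_iff] at hv'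
        exact hv'.2 u hu
      have hWM : W ≤ M := hWC.trans hCM
      have hLWinv : ∀ v ∈ L ⊔ W, x v ∈ L ⊔ W := by
        intro v hv
        obtain ⟨l, hl, w, hw, rfl⟩ := Submodule.mem_sup.mp hv
        rw [map_add]
        exact Submodule.add_mem_sup (hLinv l hl) (hWinv w hw)
      have hLWiso : ∀ u ∈ L ⊔ W, ∀ v ∈ L ⊔ W, B u v = 0 := by
        intro u hu v hv
        obtain ⟨l, hl, w, hw, rfl⟩ := Submodule.mem_sup.mp hu
        obtain ⟨l', hl', w', hw', rfl⟩ := Submodule.mem_sup.mp hv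
        have e1 : B l l' = 0 := hLiso l hl l' hl'
        have e2 : B l w' = 0 := by
          have hw'M := hWM hw'
          rw [hMdef, LinearMap.BilinForm.mem_orthogonal_iff] at hw'M
          exact hw'M l hl
        have e3 : B w l' = 0 := by
          have hwM := hWM hw
          rw [hMdef, LinearMap.BilinForm.mem_orthogonal_iff] at hwM
          rw [hskew w l', hwM l' hl', neg_zero]
        have e4 : B w w' = 0 := hWiso w hw w' hw'
        simp only [map_add, LinearMap.add_apply, e1, e2, e3, e4, add_zero]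
      have hmax := hLmax (L ⊔ W) hLWinv hLWiso
      have hinf : L ⊓ W = ⊥ := by
        apply le_bot_iff.mp
        rw [← hLC]
        exact inf_le_inf_left L hWC
      have hdim := Submodule.finrank_sup_add_finrank_inf_eq L W
      have hb0 : Module.finrank (ZMod p) ↥(⊥ : Submodule (ZMod p) V) = 0 := by simp
      rw [hinf, hb0, add_zero] at hdim
      have hWpos : Module.finrank (ZMod p) W ≠ 0 :=
        fun h => hWne (Submodule.finrank_eq_zero.mp h)
      omega

end Cfsg.Agent.Helper2.ESD2
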