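import Mathlib
import Cfsg.Prelude.Def_CaseTheorems
import Cfsg.Agent.Helper14.Conj
import Cfsg.Agent.Helper9.KleinSub

set_option autoImplicit false

namespace Cfsg.Agent.Helper2.FourConn

theorem kf_iff {X : Type*} [Group X] (V : Subgroup X) :
    IsKleinFour ↥V ↔ Nat.card ↥V = 4 ∧ ∀ x ∈ V, x ^ 2 = 1 := by
  constructor
  · intro h
    refine ⟨h.card_four, fun x hx => ?_⟩
    have h1 := Monoid.pow_exponent_eq_one (⟨x, hx⟩ : ↥V)
    rw [h.exponent_two] at h1
    exact congrArg Subtype.val h1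
  · rintro ⟨h4, h2⟩
    have hdvd : Monoid.exponent ↥V ∣ 2 :=
      Monoid.exponent_dvd_of_forall_pow_eq_one (fun g => Subtype.ext (h2 g g.2))
    refine ⟨h4, ?_⟩
    rcases (Nat.dvd_prime Nat.prime_two).mp hdvd with h1 | h1
    · exfalso
      have hs : Subsingleton ↥V := Monoid.exp_eq_one_iff.mp h1
      have h5 : Nat.card ↥V = 1 := Nat.card_eq_one_iff_unique.mpr ⟨hs, ⟨1⟩⟩
      omega
    · exact h1

theorem comm_of_sq {X : Type*} [Group X] (V : Subgroup X) (h : ∀ x ∈ V, x ^ 2 = 1) :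
    ∀ x ∈ V, ∀ y ∈ V, x * y = y * x := by
  intro x hx y hy
  have h1 : x * x = 1 := by rw [← pow_two]; exact h x hx
  have h2 : y * y = 1 := by rw [← pow_two]; exact h y hy
  have h3 : (x * y) * (x * y) = 1 := by rw [← pow_two]; exact h _ (V.mul_mem hx hy)
  calc x * y = x * ((x * y) * (x * y)) * y := by rw [h3, mul_one]
    _ = (x * x) * (y * x) * (y * y) := by group
    _ = y * x := by rw [h1, h2, one_mul, mul_one]

theorem kf_conj {G : Type*} [Group G] (V : Subgroup G) (g : G) (hV : IsKleinFour ↥V) :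
    IsKleinFour ↥(V.map (MulAut.conj g).toMonoidHom) := by
  obtain ⟨h4, h2⟩ := (kf_iff V).mp hV
  refine (kf_iff _).mpr ⟨?_, ?_⟩
  · rw [Subgroup.card_map_of_injective (MulAut.conj g).injective]
    exact h4
  · rintro x ⟨y, hy, rfl⟩
    show ((MulAut.conj g).toMonoidHom y) ^ 2 = 1
    rw [← map_pow, h2 y hy, map_one]

theorem kf_map_subtype {G : Type*} [Group G] (Q : Subgroup G) (A : Subgroup ↥Q)
    (hA : IsKleinFour ↥A) : IsKleinFour ↥(A.map Q.subtype) := by
  obtain ⟨h4, h2⟩ := (kf_iff A).mp hA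
  refine (kf_iff _).mpr ⟨?_, ?_⟩
  · rw [Subgroup.card_map_of_injective Q.subtype_injective]
    exact h4
  · rintro x ⟨a, ha, rfl⟩
    exact congrArg Subtype.val (h2 a ha)

theorem kf_subgroupOf {G : Type*} [Group G] (Q V : Subgroup G) (hVQ : V ≤ Q)
    (hV : IsKleinFour ↥V) : IsKleinFour ↥(V.subgroupOf Q) := by
  obtain ⟨h4, h2⟩ := (kf_iff V).mp hV
  refine (kf_iff _).mpr ⟨?_, fun a ha => Subtype.ext (h2 _ (Subgroup.mem_subgroupOf.mp ha))⟩
  rw [Nat.card_congr (Subgroup.subgroupOfEquivOfLe hVQ).toEquiv]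
  exact h4

theorem not_rank_of_kf {G : Type*} [Group G] (Q V : Subgroup G) (hVQ : V ≤ Q)
    (hV : IsKleinFour ↥V) : ¬ Cfsg.PRankLE 2 1 ↥Q := by
  obtain ⟨h4, h2⟩ := (kf_iff V).mp hV
  intro h
  have hc := comm_of_sq V h2
  have h5 := h (V.subgroupOf Q)
    ⟨⟨fun a b => Subtype.ext (Subtype.ext
      (hc ((a : ↥Q) : G) (Subgroup.mem_subgroupOf.mp a.2) ((b : ↥Q) : G)
        (Subgroup.mem_subgroupOf.mp b.2)))⟩⟩
    (fun a ha => Subtype.ext (h2 _ (Subgroup.mem_subgroupOf.mp ha)))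
  have h6 : Nat.card ↥(V.subgroupOf Q) = Nat.card ↥V :=
    Nat.card_congr (Subgroup.subgroupOfEquivOfLe hVQ).toEquiv
  rw [h6, h4] at h5
  norm_num at h5

theorem exists_kf {X : Type*} [Group X] [Finite X] (h : ¬ Cfsg.PRankLE 2 1 X) :
    ∃ V : Subgroup X, IsKleinFour ↥V := by
  have h' : ∃ A : Subgroup X, IsMulCommutative ↥A ∧ (∀ a ∈ A, a ^ 2 = 1) ∧
      ¬ Nat.card ↥A ≤ 2 ^ 1 := by
    by_contra hcon
    apply h
    intro A hAc hA2
    by_contra hcard
    exact hcon ⟨A, hAc, hA2, hcard⟩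
  obtain ⟨A, hAc, hA2, hcard⟩ := h'
  have hcomm : ∀ a ∈ A, ∀ b ∈ A, a * b = b * a := fun a ha b hb =>
    congrArg Subtype.val (hAc.is_comm.comm ⟨a, ha⟩ ⟨b, hb⟩)
  rcases Subgroup.bot_or_exists_ne_one A with h0 | ⟨a, ha, ha1⟩
  · exfalso
    apply hcard
    rw [h0, Subgroup.card_bot]
    norm_num
  · have hex : ∃ b ∈ A, b ≠ 1 ∧ b ≠ a := by
      by_contra hcon
      apply hcard
      have hle : A ≤ Subgroup.zpowers a := by
        intro b hb
        by_cases hb1 : b = 1
        · rw [hb1]; exact Subgroup.one_mem _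
        · by_cases hba : b = a
          · rw [hba]; exact Subgroup.mem_zpowers a
          · exact absurd ⟨b, hb, hb1, hba⟩ hcon
      calc Nat.card ↥A ≤ Nat.card ↥(Subgroup.zpowers a) := Subgroup.card_le_of_le hle
        _ = orderOf a := Nat.card_zpowers a
        _ ≤ 2 := orderOf_le_of_pow_eq_one (by norm_num) (hA2 a ha)
        _ = 2 ^ 1 := by norm_num
    obtain ⟨b, hb, hb1, hba⟩ := hex
    have haa : a * a = 1 := by rw [← pow_two]; exact hA2 a ha
    have hbb : b * b = 1 := by rw [← pow_two]; exact hA2 b hb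
    exact ⟨Helper9.kfour a b haa hbb (hcomm a ha b hb),
      Helper9.isKleinFour_kfour a b haa hbb (hcomm a ha b hb) ha1 hb1 (fun e => hba e.symm)⟩

/-- the commuting relation on four-subgroups -/
def R {G : Type*} [Group G] (A B : Subgroup G) : Prop :=
  IsKleinFour ↥A ∧ IsKleinFour ↥B ∧ ∀ a ∈ A, ∀ b ∈ B, a * b = b * a

theorem R_symm {G : Type*} [Group G] {A B : Subgroup G} (h : R A B) : R B A := by
  obtain ⟨hA, hB, hAB⟩ := h
  exact ⟨hB, hA, fun b hb a ha => (hAB a ha b hb).symm⟩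

theorem rtg_symm {G : Type*} [Group G] {A B : Subgroup G} (h : Relation.ReflTransGen R A B) :
    Relation.ReflTransGen R B A := by
  induction h with
  | refl => exact Relation.ReflTransGen.refl
  | tail _ hbc ih => exact Relation.ReflTransGen.head (R_symm hbc) ih

theorem R_conj {G : Type*} [Group G] (g : G) {A B : Subgroup G} (h : R A B) :
    R (A.map (MulAut.conj g).toMonoidHom) (B.map (MulAut.conj g).toMonoidHom) := by
  obtain ⟨hA, hB, hAB⟩ := h
  refine ⟨kf_conj A g hA, kf_conj B g hB, ?_⟩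
  rintro x ⟨a, ha, rfl⟩ y ⟨b, hb, rfl⟩
  show (MulAut.conj g).toMonoidHom a * (MulAut.conj g).toMonoidHom b
    = (MulAut.conj g).toMonoidHom b * (MulAut.conj g).toMonoidHom a
  rw [← map_mul, ← map_mul, hAB a ha b hb]

theorem rtg_conj {G : Type*} [Group G] (g : G) {A B : Subgroup G}
    (h : Relation.ReflTransGen R A B) :
    Relation.ReflTransGen R (A.map (MulAut.conj g).toMonoidHom)
      (B.map (MulAut.conj g).toMonoidHom) := by
  induction h with
  | refl => exact Relation.ReflTransGen.refl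
  | tail _ hbc ih => exact ih.tail (R_conj g hbc)

theorem transfer {G : Type*} [Group G] (S : Subgroup G) (hS : Cfsg.IsFourConnected ↥S)
    (V W : Subgroup G) (hVS : V ≤ S) (hWS : W ≤ S) (hV : IsKleinFour ↥V)
    (hW : IsKleinFour ↥W) : Relation.ReflTransGen R V W := by
  have hpath : Relation.ReflTransGen (R (G := ↥S)) (V.subgroupOf S) (W.subgroupOf S) :=
    hS _ _ (kf_subgroupOf S V hVS hV) (kf_subgroupOf S W hWS hW)
  have hstep : ∀ A B : Subgroup ↥S, R A B → R (A.map S.subtype) (B.map S.subtype) := by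
    intro A B h
    obtain ⟨hA, hB, hAB⟩ := h
    refine ⟨kf_map_subtype S A hA, kf_map_subtype S B hB, ?_⟩
    rintro x ⟨a, ha, rfl⟩ y ⟨b, hb, rfl⟩
    exact congrArg Subtype.val (hAB a ha b hb)
  have hgenl : ∀ A B : Subgroup ↥S, Relation.ReflTransGen R A B →
      Relation.ReflTransGen R (A.map S.subtype) (B.map S.subtype) := by
    intro A B hAB
    induction hAB with
    | refl => exact Relation.ReflTransGen.refl
    | tail _ hbc ih => exact ih.tail (hstep _ _ hbc)
  have hlift : Relation.ReflTransGen R ((V.subgroupOf S).map S.subtype)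
      ((W.subgroupOf S).map S.subtype) := hgenl _ _ hpath
  rwa [Subgroup.map_subgroupOf_eq_of_le hVS, Subgroup.map_subgroupOf_eq_of_le hWS] at hlift

/-- elements moving `U` inside its connected component -/
def Kc {G : Type*} [Group G] (U : Subgroup G) : Subgroup G where
  carrier := {g | Relation.ReflTransGen R U (U.map (MulAut.conj g).toMonoidHom)}
  mul_mem' := by
    intro g h hg hh
    have hg' : Relation.ReflTransGen R U (U.map (MulAut.conj g).toMonoidHom) := hg
    have hh' : Relation.ReflTransGen R U (U.map (MulAut.conj h).toMonoidHom) := hh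
    have h1 := rtg_conj g hh'
    rw [Helper14.map_conj_map_conj] at h1
    exact hg'.trans h1
  one_mem' := by
    have e : U.map (MulAut.conj (1 : G)).toMonoidHom = U := Helper14.map_conj_one U
    show Relation.ReflTransGen R U (U.map (MulAut.conj (1 : G)).toMonoidHom)
    rewrite [e]
    exact Relation.ReflTransGen.refl
  inv_mem' := by
    intro g hg
    have hg' : Relation.ReflTransGen R U (U.map (MulAut.conj g).toMonoidHom) := hg
    have h1 := rtg_conj g⁻¹ hg'
    rw [Helper14.map_conj_inv_map_conj] at h1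
    exact rtg_symm h1

theorem mem_Kc {G : Type*} [Group G] (U : Subgroup G) (g : G) :
    g ∈ Kc U ↔ Relation.ReflTransGen R U (U.map (MulAut.conj g).toMonoidHom) := Iff.rfl

theorem main {G : Type*} [Group G] [Finite G] (h2 : ¬ Cfsg.PRankLE 2 1 G)
    (S : Sylow 2 G) (hS : Cfsg.IsFourConnected (S : Subgroup G)) :
    ¬ Cfsg.IsFourConnected G ↔
      (⨆ Q : {Q : Subgroup G // Q ≤ (S : Subgroup G) ∧ ¬ Cfsg.PRankLE 2 1 Q},
          Subgroup.normalizer ((Q : Subgroup G) : Set G)) ≠ ⊤ := by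
  obtain ⟨H, hH⟩ : ∃ H : Subgroup G, H =
      ⨆ Q : {Q : Subgroup G // Q ≤ (S : Subgroup G) ∧ ¬ Cfsg.PRankLE 2 1 Q},
        Subgroup.normalizer ((Q : Subgroup G) : Set G) := ⟨_, rfl⟩
  rw [← hH]
  have hgen : ∀ Q V : Subgroup G, Q ≤ (S : Subgroup G) → V ≤ Q → IsKleinFour ↥V →
      Subgroup.normalizer (Q : Set G) ≤ H := by
    intro Q V hQS hVQ hV
    rw [hH]
    exact le_iSup (fun Q : {Q : Subgroup G // Q ≤ (S : Subgroup G) ∧ ¬ Cfsg.PRankLE 2 1 Q} =>
      Subgroup.normalizer ((Q : Subgroup G) : Set G)) ⟨Q, hQS, not_rank_of_kf Q V hVQ hV⟩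
  have kf2 : ∀ V : Subgroup G, IsKleinFour ↥V → IsPGroup 2 ↥V := by
    intro V hV
    exact IsPGroup.of_card (n := 2) (by rw [hV.card_four]; norm_num)
  obtain ⟨U, hUS, hU⟩ : ∃ U : Subgroup G, U ≤ (S : Subgroup G) ∧ IsKleinFour ↥U := by
    obtain ⟨U', hU'⟩ := exists_kf h2
    obtain ⟨g, hg⟩ := Helper14.exists_le_sylow_conj S U' (kf2 U' hU')
    refine ⟨U'.map (MulAut.conj g⁻¹).toMonoidHom, ?_, kf_conj U' g⁻¹ hU'⟩
    exact (Helper14.map_conj_le_iff U' (S : Subgroup G) g⁻¹).mpr (by rw [inv_inv]; exact hg)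
  have hSH : (S : Subgroup G) ≤ H := Subgroup.le_normalizer.trans (hgen _ U le_rfl hUS hU)
  have hnorm : ∀ T V : Subgroup G, IsPGroup 2 ↥T → T ≤ H → V ≤ T → IsKleinFour ↥V →
      Subgroup.normalizer (T : Set G) ≤ H := by
    intro T V hT2 hTH hVT hV
    obtain ⟨S₁, hS₁⟩ := Helper14.exists_sylow_sub_ge H T hTH hT2
    obtain ⟨m, hmH, hm⟩ := Helper14.sylow_sub_conj H (S.subtype hSH) S₁
    have hS0 : ((S.subtype hSH : Sylow 2 ↥H) : Subgroup ↥H).map H.subtype = (S : Subgroup G) := by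
      rw [Sylow.coe_subtype]
      exact Subgroup.map_subgroupOf_eq_of_le hSH
    rw [hS0] at hm
    rw [hm] at hS₁
    have hT' : T.map (MulAut.conj m⁻¹).toMonoidHom ≤ (S : Subgroup G) :=
      (Helper14.map_conj_le_iff T (S : Subgroup G) m⁻¹).mpr (by rw [inv_inv]; exact hS₁)
    have hV' : V.map (MulAut.conj m⁻¹).toMonoidHom ≤ T.map (MulAut.conj m⁻¹).toMonoidHom :=
      Subgroup.map_mono hVT
    have hN := hgen _ _ hT' hV' (kf_conj V m⁻¹ hV)
    rw [Helper14.normalizer_map_conj] at hN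
    intro n hn
    have h1 : m⁻¹ * n * m⁻¹⁻¹ ∈ H := hN (Helper14.conj_mem_map_conj _ m⁻¹ hn)
    have h3 : m * (m⁻¹ * n * m⁻¹⁻¹) * m⁻¹ ∈ H := H.mul_mem (H.mul_mem hmH h1) (H.inv_mem hmH)
    rwa [show m * (m⁻¹ * n * m⁻¹⁻¹) * m⁻¹ = n by group] at h3
  have hUH : U ≤ H := hUS.trans hSH
  have dir1 : Cfsg.IsFourConnected G → H = ⊤ := by
    intro hconn
    have hstep : ∀ A B : Subgroup G, R A B → A ≤ H → B ≤ H := by
      intro A B hAB hA b hb
      obtain ⟨hAk, hBk, hcomm⟩ := hAB
      apply hnorm A A (kf2 A hAk) hA le_rfl hAk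
      apply Subgroup.centralizer_le_normalizer
      rw [Subgroup.mem_centralizer_iff]
      intro a ha
      exact hcomm a ha b hb
    have hall : ∀ B : Subgroup G, Relation.ReflTransGen R U B → B ≤ H := by
      intro B hB
      induction hB with
      | refl => exact hUH
      | tail _ hbc ih => exact hstep _ _ hbc ih
    have hL : Subgroup.normalClosure (U : Set G) ≤ H := by
      show Subgroup.closure (Group.conjugatesOfSet (U : Set G)) ≤ H
      rw [Subgroup.closure_le]
      intro x hx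
      obtain ⟨u, hu, hconj⟩ := Group.mem_conjugatesOfSet_iff.mp hx
      obtain ⟨c, hc⟩ := isConj_iff.mp hconj
      have h1 := hall _ (hconn U (U.map (MulAut.conj c).toMonoidHom) hU (kf_conj U c hU))
      rw [← hc]
      exact h1 (Helper14.conj_mem_map_conj U c hu)
    have hUL : U ≤ Subgroup.normalClosure (U : Set G) := Subgroup.le_normalClosure
    obtain ⟨P, hP⟩ := Helper14.exists_sylow_sub_ge (Subgroup.normalClosure (U : Set G)) U hUL
      (kf2 U hU)
    have hfr := Sylow.normalizer_sup_eq_top P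
    have hTH : (P : Subgroup ↥(Subgroup.normalClosure (U : Set G))).map
        (Subgroup.normalClosure (U : Set G)).subtype ≤ H :=
      (Subgroup.map_subtype_le _).trans hL
    have hN := hnorm _ U (Helper14.sylow_sub_isPGroup _ P) hTH hP hU
    rw [eq_top_iff, ← hfr]
    exact sup_le hN hL
  have dir2 : H = ⊤ → Cfsg.IsFourConnected G := by
    intro hHtop
    have hHK : H ≤ Kc U := by
      rw [hH]
      apply iSup_le
      rintro ⟨Q, hQS, hQr⟩ n hn
      obtain ⟨V₀, hV₀⟩ := exists_kf hQr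
      have hVk : IsKleinFour ↥(V₀.map Q.subtype) := kf_map_subtype Q V₀ hV₀
      have hVQ : V₀.map Q.subtype ≤ Q := Subgroup.map_subtype_le _
      have hVS : V₀.map Q.subtype ≤ (S : Subgroup G) := hVQ.trans hQS
      have hVnS : (V₀.map Q.subtype).map (MulAut.conj n).toMonoidHom ≤ (S : Subgroup G) := by
        intro x hx
        apply hQS
        have hq : n⁻¹ * x * n ∈ Q := hVQ ((Helper14.mem_map_conj _ n x).mp hx)
        have h3 := (Subgroup.mem_normalizer_iff.mp hn (n⁻¹ * x * n)).mp hq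
        rwa [show n * (n⁻¹ * x * n) * n⁻¹ = x by group] at h3
      have p1 := transfer (S : Subgroup G) hS U _ hUS hVS hU hVk
      have p2 := transfer (S : Subgroup G) hS U _ hUS hVnS hU (kf_conj _ n hVk)
      have p3 := rtg_conj n p1
      exact (mem_Kc U n).mpr (p2.trans (rtg_symm p3))
    have hK : ∀ g : G, Relation.ReflTransGen R U (U.map (MulAut.conj g).toMonoidHom) := by
      intro g
      have hg : g ∈ H := by rw [hHtop]; exact Subgroup.mem_top g
      exact (mem_Kc U g).mp (hHK hg)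
    have toU : ∀ W : Subgroup G, IsKleinFour ↥W → Relation.ReflTransGen R U W := by
      intro W hW
      obtain ⟨g, hg⟩ := Helper14.exists_le_sylow_conj S W (kf2 W hW)
      have hW' : W.map (MulAut.conj g⁻¹).toMonoidHom ≤ (S : Subgroup G) :=
        (Helper14.map_conj_le_iff W (S : Subgroup G) g⁻¹).mpr (by rw [inv_inv]; exact hg)
      have q1 := transfer (S : Subgroup G) hS U _ hUS hW' hU (kf_conj W g⁻¹ hW)
      have q2 := rtg_conj g q1
      rw [Helper14.map_conj_map_conj_inv] at q2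
      exact (hK g).trans q2
    intro W W' hW hW'
    exact (rtg_symm (toU W hW)).trans (toU W' hW')
  constructor
  · intro hnc hHtop
    exact hnc (dir2 hHtop)
  · intro hne hconn
    exact hne (dir1 hconn)

end Cfsg.Agent.Helper2.FourConn
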