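import Mathlib
import Cfsg.Agent.Helper2.SLCard

set_option autoImplicit false

namespace Cfsg.Agent.Helper2.GL2Syl

open Matrix
open scoped Pointwise

variable {F : Type*} [Field F]

theorem ext2 {A B : Matrix (Fin 2) (Fin 2) F} (h00 : A 0 0 = B 0 0) (h01 : A 0 1 = B 0 1)
    (h10 : A 1 0 = B 1 0) (h11 : A 1 1 = B 1 1) : A = B := by
  rw [Matrix.eta_fin_two A, Matrix.eta_fin_two B, h00, h01, h10, h11]

theorem mul_apply2 (A B : Matrix (Fin 2) (Fin 2) F) (i j : Fin 2) :
    (A * B) i j = A i 0 * B 0 j + A i 1 * B 1 j := by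
  rw [Matrix.mul_apply, Fin.sum_univ_two]

def uMat (t : F) : Matrix (Fin 2) (Fin 2) F := !![1, t; 0, 1]

theorem uMat_00 (t : F) : uMat t 0 0 = 1 := rfl
theorem uMat_01 (t : F) : uMat t 0 1 = t := rfl
theorem uMat_10 (t : F) : uMat t 1 0 = 0 := rfl
theorem uMat_11 (t : F) : uMat t 1 1 = 1 := rfl

theorem uMat_zero : uMat (0 : F) = 1 := Matrix.one_fin_two.symm

theorem uMat_mul (s t : F) : uMat s * uMat t = uMat (s + t) := by
  apply ext2 <;> rw [mul_apply2] <;> simp only [uMat_00, uMat_01, uMat_10, uMat_11] <;> ring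

def uGL (t : F) : GL (Fin 2) F :=
  ⟨uMat t, uMat (-t), by rw [uMat_mul, add_neg_cancel, uMat_zero],
    by rw [uMat_mul, neg_add_cancel, uMat_zero]⟩

theorem uGL_val (t : F) : (uGL t).1 = uMat t := rfl

theorem uGL_add (s t : F) : uGL (s + t) = uGL s * uGL t := by
  apply Units.ext
  rw [Units.val_mul, uGL_val, uGL_val, uGL_val, uMat_mul]

theorem uGL_zero : uGL (0 : F) = 1 := by
  apply Units.ext
  rw [uGL_val, uMat_zero, Units.val_one]

theorem uGL_injective : Function.Injective (uGL : F → GL (Fin 2) F) := by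
  intro s t h
  have := congrArg (fun g : GL (Fin 2) F => g.1 0 1) h
  simpa [uGL_val, uMat_01] using this

def uHom : Multiplicative F →* GL (Fin 2) F where
  toFun t := uGL (Multiplicative.toAdd t)
  map_one' := uGL_zero
  map_mul' s t := uGL_add _ _

/-- the upper unitriangular subgroup -/
def U : Subgroup (GL (Fin 2) F) := (uHom (F := F)).range

theorem mem_U {g : GL (Fin 2) F} : g ∈ (U : Subgroup (GL (Fin 2) F)) ↔ ∃ t : F, uGL t = g := by
  constructor
  · rintro ⟨t, rfl⟩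
    exact ⟨Multiplicative.toAdd t, rfl⟩
  · rintro ⟨t, rfl⟩
    exact ⟨Multiplicative.ofAdd t, rfl⟩

theorem card_U [Fintype F] : Nat.card (U : Subgroup (GL (Fin 2) F)) = Fintype.card F := by
  have hinj : Function.Injective (uHom (F := F)) := by
    intro s t h
    have h' : Multiplicative.toAdd s = Multiplicative.toAdd t :=
      uGL_injective (F := F)
        (show uGL (Multiplicative.toAdd s) = uGL (Multiplicative.toAdd t) from h)
    exact h'
  rw [← Nat.card_eq_fintype_card]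
  exact (Nat.card_congr (MonoidHom.ofInjective hinj).toEquiv).symm.trans
    (Nat.card_congr Multiplicative.toAdd)

theorem key (k : GL (Fin 2) F) (s t : F) (h : uGL t * k = k * uGL s) (hst : t ≠ 0 ∨ s ≠ 0) :
    k.1 1 0 = 0 := by
  have hm : uMat t * k.1 = k.1 * uMat s := by
    have := congrArg Units.val h
    rwa [Units.val_mul, Units.val_mul, uGL_val, uGL_val] at this
  have h00 := congrFun (congrFun hm 0) 0
  have h11 := congrFun (congrFun hm 1) 1
  rw [mul_apply2, mul_apply2] at h00 h11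
  simp only [uMat_00, uMat_01, uMat_10, uMat_11] at h00 h11
  rcases hst with ht | hs
  · have : t * k.1 1 0 = 0 := by linear_combination h00
    exact (mul_eq_zero.1 this).resolve_left ht
  · have : k.1 1 0 * s = 0 := by linear_combination -h11
    exact (mul_eq_zero.1 this).resolve_right hs

theorem borel_conj (g : GL (Fin 2) F) (hg : g.1 1 0 = 0) (t s : F)
    (hs : s * g.1 1 1 = g.1 0 0 * t) : g * uGL t = uGL s * g := by
  apply Units.ext
  rw [Units.val_mul, Units.val_mul, uGL_val, uGL_val]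
  apply ext2 <;> rw [mul_apply2, mul_apply2] <;>
    simp only [uMat_00, uMat_01, uMat_10, uMat_11, hg]
  · ring
  · linear_combination -hs
  · ring
  · ring

theorem diag_ne (g : GL (Fin 2) F) (hg : g.1 1 0 = 0) : g.1 0 0 ≠ 0 ∧ g.1 1 1 ≠ 0 := by
  have hdet : g.1.det ≠ 0 := ((Matrix.isUnit_iff_isUnit_det _).1 g.isUnit).ne_zero
  rw [Matrix.det_fin_two, hg, mul_zero, sub_zero] at hdet
  exact ⟨left_ne_zero_of_mul hdet, right_ne_zero_of_mul hdet⟩

theorem borel_mem_normalizer (g : GL (Fin 2) F) (hg : g.1 1 0 = 0) :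
    g ∈ Subgroup.normalizer ((U : Subgroup (GL (Fin 2) F)) : Set (GL (Fin 2) F)) := by
  obtain ⟨ha, hd⟩ := diag_ne g hg
  rw [Subgroup.mem_normalizer_iff]
  intro h
  constructor
  · intro hh
    obtain ⟨t, rfl⟩ := mem_U.1 hh
    rw [mem_U]
    refine ⟨g.1 0 0 * t * (g.1 1 1)⁻¹, ?_⟩
    rw [eq_mul_inv_iff_mul_eq]
    exact (borel_conj g hg t _ (by rw [mul_assoc, inv_mul_cancel₀ hd, mul_one])).symm
  · intro hh
    obtain ⟨s, hs⟩ := mem_U.1 hh
    rw [mem_U]
    refine ⟨(g.1 0 0)⁻¹ * s * g.1 1 1, ?_⟩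
    have h1 := borel_conj g hg ((g.1 0 0)⁻¹ * s * g.1 1 1) s
      (by rw [mul_assoc, mul_inv_cancel_left₀ ha])
    rw [hs] at h1
    calc uGL ((g.1 0 0)⁻¹ * s * g.1 1 1)
        = g⁻¹ * (g * uGL ((g.1 0 0)⁻¹ * s * g.1 1 1)) := by group
      _ = g⁻¹ * (g * h * g⁻¹ * g) := by rw [h1]
      _ = h := by group

theorem normalizer_sub (g : GL (Fin 2) F)
    (hg : g ∈ Subgroup.normalizer ((U : Subgroup (GL (Fin 2) F)) : Set (GL (Fin 2) F))) :
    g.1 1 0 = 0 := by
  have h1 : g * uGL 1 * g⁻¹ ∈ (U : Subgroup (GL (Fin 2) F)) :=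
    (Subgroup.mem_normalizer_iff.1 hg (uGL 1)).1 (mem_U.2 ⟨1, rfl⟩)
  obtain ⟨s, hs⟩ := mem_U.1 h1
  have h2 : uGL s * g = g * uGL 1 := by rw [hs]; group
  exact key g 1 s h2 (Or.inr one_ne_zero)

noncomputable def mkGL (A : Matrix (Fin 2) (Fin 2) F) (h : A.det ≠ 0) : GL (Fin 2) F :=
  Matrix.GeneralLinearGroup.mkOfDetNeZero A h

theorem mkGL_val (A : Matrix (Fin 2) (Fin 2) F) (h : A.det ≠ 0) : (mkGL A h).1 = A := rfl

noncomputable def borelEquiv : {g : GL (Fin 2) F // g.1 1 0 = 0} ≃ Fˣ × Fˣ × F where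
  toFun g := (Units.mk0 (g.1.1 0 0) (diag_ne g.1 g.2).1,
    Units.mk0 (g.1.1 1 1) (diag_ne g.1 g.2).2, g.1.1 0 1)
  invFun x := ⟨mkGL !![(x.1 : F), x.2.2; 0, (x.2.1 : F)] (by
      rw [Matrix.det_fin_two_of, mul_zero, sub_zero]
      exact mul_ne_zero x.1.ne_zero x.2.1.ne_zero), rfl⟩
  left_inv g := by
    apply Subtype.ext
    apply Units.ext
    apply ext2
    · rfl
    · rfl
    · exact g.2.symm
    · rfl
  right_inv x := Prod.ext (Units.ext rfl) (Prod.ext (Units.ext rfl) rfl)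

theorem card_borel [Fintype F] :
    Nat.card {g : GL (Fin 2) F // g.1 1 0 = 0}
      = (Fintype.card F - 1) * ((Fintype.card F - 1) * Fintype.card F) := by
  rw [Nat.card_congr borelEquiv, Nat.card_prod, Nat.card_prod, Nat.card_units,
    Nat.card_eq_fintype_card]

theorem card_normalizer_U [Fintype F] :
    Nat.card (Subgroup.normalizer ((U : Subgroup (GL (Fin 2) F)) : Set (GL (Fin 2) F)))
      = (Fintype.card F - 1) * ((Fintype.card F - 1) * Fintype.card F) := by
  rw [← card_borel]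
  exact Nat.card_congr (Equiv.subtypeEquivRight
    (fun g => ⟨normalizer_sub g, borel_mem_normalizer g⟩))

theorem mem_cent_iff (t : F) (ht : t ≠ 0) (x : GL (Fin 2) F) :
    x ∈ Subgroup.centralizer ({uGL t} : Set (GL (Fin 2) F)) ↔
      (x.1 1 0 = 0 ∧ x.1 0 0 = x.1 1 1) := by
  rw [Subgroup.mem_centralizer_iff]
  simp only [Set.mem_singleton_iff, forall_eq]
  constructor
  · intro h
    have h10 := key x t t h (Or.inl ht)
    refine ⟨h10, ?_⟩
    have hm : uMat t * x.1 = x.1 * uMat t := by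
      have := congrArg Units.val h
      rwa [Units.val_mul, Units.val_mul, uGL_val] at this
    have h01 := congrFun (congrFun hm 0) 1
    rw [mul_apply2, mul_apply2] at h01
    simp only [uMat_00, uMat_01, uMat_11] at h01
    have : t * (x.1 0 0 - x.1 1 1) = 0 := by linear_combination -h01
    rcases mul_eq_zero.1 this with h' | h'
    · exact absurd h' ht
    · exact sub_eq_zero.1 h'
  · rintro ⟨h10, h00⟩
    exact (borel_conj x h10 t t (by rw [h00, mul_comm])).symm

noncomputable def centEquiv :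
    {x : GL (Fin 2) F // x.1 1 0 = 0 ∧ x.1 0 0 = x.1 1 1} ≃ Fˣ × F where
  toFun x := (Units.mk0 (x.1.1 0 0) (diag_ne x.1 x.2.1).1, x.1.1 0 1)
  invFun y := ⟨mkGL !![(y.1 : F), y.2; 0, (y.1 : F)] (by
      rw [Matrix.det_fin_two_of, mul_zero, sub_zero]
      exact mul_ne_zero y.1.ne_zero y.1.ne_zero), ⟨rfl, rfl⟩⟩
  left_inv x := by
    apply Subtype.ext
    apply Units.ext
    apply ext2
    · rfl
    · rfl
    · exact x.2.1.symm
    · exact x.2.2
  right_inv y := Prod.ext (Units.ext rfl) rfl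

theorem card_cent [Fintype F] (t : F) (ht : t ≠ 0) :
    Nat.card (Subgroup.centralizer ({uGL t} : Set (GL (Fin 2) F)))
      = Fintype.card F * (Fintype.card F - 1) := by
  rw [Nat.card_congr ((Equiv.subtypeEquivRight (mem_cent_iff t ht)).trans centEquiv),
    Nat.card_prod, Nat.card_units, Nat.card_eq_fintype_card, mul_comm]

theorem card_cent_conj {G : Type*} [Group G] (g u : G) :
    Nat.card (Subgroup.centralizer ({g * u * g⁻¹} : Set G))
      = Nat.card (Subgroup.centralizer ({u} : Set G)) := by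
  apply Nat.card_congr
  refine ((MulAut.conj g).toEquiv.subtypeEquiv ?_).symm
  intro y
  show y ∈ Subgroup.centralizer {u} ↔ g * y * g⁻¹ ∈ Subgroup.centralizer {g * u * g⁻¹}
  rw [Subgroup.mem_centralizer_iff, Subgroup.mem_centralizer_iff]
  simp only [Set.mem_singleton_iff, forall_eq]
  constructor
  · intro h
    calc g * u * g⁻¹ * (g * y * g⁻¹) = g * (u * y) * g⁻¹ := by group
      _ = g * (y * u) * g⁻¹ := by rw [h]
      _ = g * y * g⁻¹ * (g * u * g⁻¹) := by group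
  · intro h
    calc u * y = g⁻¹ * (g * u * g⁻¹ * (g * y * g⁻¹)) * g := by group
      _ = g⁻¹ * (g * y * g⁻¹ * (g * u * g⁻¹)) * g := by rw [h]
      _ = y * u := by group

/-- the unitriangular subgroup as a Sylow subgroup -/
noncomputable def USyl [Fintype F] (p : ℕ) [Fact p.Prime] [CharP F p] :
    Sylow p (GL (Fin 2) F) :=
  Sylow.ofCard (U : Subgroup (GL (Fin 2) F)) (by
    obtain ⟨P⟩ : Nonempty (Sylow p (GL (Fin 2) F)) := inferInstance
    rw [card_U, ← P.card_eq_multiplicity, Cfsg.Agent.Helper2.SLCard.card_sylow_GL (p := p) (P := P)]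
    norm_num)

theorem sylow_conj [Fintype F] (p : ℕ) [Fact p.Prime] [CharP F p]
    (P : Sylow p (GL (Fin 2) F)) :
    ∃ g : GL (Fin 2) F, ∀ x, x ∈ (P : Subgroup (GL (Fin 2) F)) ↔
      g⁻¹ * x * g ∈ (U : Subgroup (GL (Fin 2) F)) := by
  obtain ⟨g, hg⟩ := MulAction.exists_smul_eq (GL (Fin 2) F) (USyl p : Sylow p (GL (Fin 2) F)) P
  refine ⟨g, fun x => ?_⟩
  have hx : x ∈ (P : Subgroup (GL (Fin 2) F)) ↔
      x ∈ MulAut.conj g • (U : Subgroup (GL (Fin 2) F)) := by
    rw [← hg]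
    exact Iff.rfl
  rw [hx, Subgroup.mem_pointwise_smul_iff_inv_smul_mem, MulAut.smul_def, MulAut.conj_inv_apply]

theorem card_GL2 [Fintype F] (r : ℕ) (hr : Fintype.card F = r + 2) :
    Nat.card (GL (Fin 2) F) = (r + 1) * (r + 3) * ((r + 1) * (r + 2)) := by
  rw [Matrix.card_GL_field, Fin.prod_univ_two, hr]
  have e2 : (r + 2) ^ 2 - (r + 2) ^ ((0 : Fin 2) : ℕ) = (r + 1) * (r + 3) := by
    have : (r + 2) ^ 2 = (r + 1) * (r + 3) + 1 := by ring
    rw [this, Fin.val_zero, pow_zero]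
    omega
  have e3 : (r + 2) ^ 2 - (r + 2) ^ ((1 : Fin 2) : ℕ) = (r + 1) * (r + 2) := by
    have : (r + 2) ^ 2 = (r + 1) * (r + 2) + (r + 2) := by ring
    rw [this, Fin.val_one, pow_one]
    omega
  rw [e2, e3]

theorem card_sylow [Fintype F] (p : ℕ) [Fact p.Prime] [CharP F p] :
    Nat.card (Sylow p (GL (Fin 2) F)) = Fintype.card F + 1 := by
  obtain ⟨r, hr⟩ : ∃ r, Fintype.card F = r + 2 :=
    ⟨Fintype.card F - 2, by have := Fintype.one_lt_card (α := F); omega⟩
  have h1 : Nat.card (Sylow p (GL (Fin 2) F))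
      = (Subgroup.normalizer ((U : Subgroup (GL (Fin 2) F)) : Set (GL (Fin 2) F))).index :=
    Sylow.card_eq_index_normalizer (USyl p)
  have h2 := Subgroup.card_mul_index
    (Subgroup.normalizer ((U : Subgroup (GL (Fin 2) F)) : Set (GL (Fin 2) F)))
  rw [card_normalizer_U, card_GL2 r hr, hr, ← h1] at h2
  have e1 : r + 2 - 1 = r + 1 := by omega
  rw [e1] at h2
  have h3 : (r + 1) * ((r + 1) * (r + 2)) * Nat.card (Sylow p (GL (Fin 2) F))
      = (r + 1) * ((r + 1) * (r + 2)) * (r + 3) := by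
    rw [h2]; ring
  rw [hr]
  exact Nat.eq_of_mul_eq_mul_left (by positivity) h3

theorem card_normalizer [Fintype F] (p : ℕ) [Fact p.Prime] [CharP F p]
    (P : Sylow p (GL (Fin 2) F)) :
    Nat.card (Subgroup.normalizer ((P : Subgroup (GL (Fin 2) F)) : Set (GL (Fin 2) F)))
      = Fintype.card F * (Fintype.card F - 1) ^ 2 := by
  obtain ⟨r, hr⟩ : ∃ r, Fintype.card F = r + 2 :=
    ⟨Fintype.card F - 2, by have := Fintype.one_lt_card (α := F); omega⟩
  have h1 : Nat.card (Sylow p (GL (Fin 2) F))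
      = (Subgroup.normalizer ((P : Subgroup (GL (Fin 2) F)) : Set (GL (Fin 2) F))).index :=
    Sylow.card_eq_index_normalizer P
  have h2 := Subgroup.card_mul_index
    (Subgroup.normalizer ((P : Subgroup (GL (Fin 2) F)) : Set (GL (Fin 2) F)))
  rw [← h1, card_sylow p, card_GL2 r hr, hr] at h2
  have e1 : r + 2 - 1 = r + 1 := by omega
  rw [hr, e1]
  have h3 : Nat.card (Subgroup.normalizer ((P : Subgroup (GL (Fin 2) F)) : Set (GL (Fin 2) F)))
      * (r + 2 + 1) = (r + 2) * (r + 1) ^ 2 * (r + 2 + 1) := by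
    rw [h2]; ring
  exact Nat.eq_of_mul_eq_mul_right (by positivity) h3

theorem inf_eq_bot [Fintype F] (p : ℕ) [Fact p.Prime] [CharP F p]
    (P Q : Sylow p (GL (Fin 2) F)) (h : P ≠ Q) :
    (P : Subgroup (GL (Fin 2) F)) ⊓ (Q : Subgroup (GL (Fin 2) F)) = ⊥ := by
  obtain ⟨g, hg⟩ := sylow_conj p P
  obtain ⟨k, hk⟩ := sylow_conj p Q
  rw [Subgroup.eq_bot_iff_forall]
  intro x hx
  rw [Subgroup.mem_inf] at hx
  by_contra hx1
  apply h
  obtain ⟨t, ht⟩ := mem_U.1 ((hg x).1 hx.1)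
  obtain ⟨s, hs⟩ := mem_U.1 ((hk x).1 hx.2)
  have ht0 : t ≠ 0 := by
    intro h0
    rw [h0, uGL_zero] at ht
    apply hx1
    calc x = g * (g⁻¹ * x * g) * g⁻¹ := by group
      _ = 1 := by rw [← ht]; group
  have hc : uGL t * (g⁻¹ * k) = (g⁻¹ * k) * uGL s := by
    rw [ht, hs]; group
  have h10 := key (g⁻¹ * k) s t hc (Or.inl ht0)
  have hn := borel_mem_normalizer (g⁻¹ * k) h10
  apply Sylow.ext
  apply Subgroup.ext
  intro y
  rw [hg y, hk y, Subgroup.mem_normalizer_iff.1 hn (k⁻¹ * y * k)]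
  have e : g⁻¹ * k * (k⁻¹ * y * k) * (g⁻¹ * k)⁻¹ = g⁻¹ * y * g := by group
  rw [e]

end Cfsg.Agent.Helper2.GL2Syl
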