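import Mathlib
import Cfsg.Prelude.Def_Classical
import Cfsg.Prelude.Def_LieClassical
import Cfsg.Agent.Helper2.SpEmbed

/-!
# Embedding groups of isometries of a quadratic form into an explicit orthogonal group

Generic transport along a linear equivalence, facts on the quadratic extension of finite
fields, and the hyperbolic `F`-structure of the hermitian norm form on `K^(2k)`.
-/

set_option autoImplicit false

namespace Cfsg.Agent.Helper2

namespace OrthEmbed

open Matrix

theorem orth_embed {F : Type*} [Field F] {V : Type*} [AddCommGroup V] [Module F V]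
    {ι : Type} [Fintype ι] [DecidableEq ι] (e : V ≃ₗ[F] (ι → F)) (Qs : (ι → F) → F) (Q : V → F)
    (hQ : ∀ x : V, Q x = Qs (e x))
    {G : Type*} [Group G] (ρ : G →* Module.End F V) (hρ : Function.Injective ρ)
    (hiso : ∀ g x, Q (ρ g x) = Q x) :
    ∃ φ : G →* ↥(Cfsg.isometryGroup F Qs), Function.Injective φ := by
  let A : G → Matrix ι ι F := fun g =>
    LinearMap.toMatrix' (e.toLinearMap ∘ₗ ρ g ∘ₗ e.symm.toLinearMap)
  have hA : ∀ g u, A g *ᵥ u = e (ρ g (e.symm u)) := by
    intro g u
    rw [← Matrix.toLin'_apply, Matrix.toLin'_toMatrix']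
    rfl
  have hext : ∀ M N : Matrix ι ι F, (∀ u, M *ᵥ u = N *ᵥ u) → M = N := by
    intro M N h
    apply Matrix.toLin'.injective
    apply LinearMap.ext
    intro u
    rw [Matrix.toLin'_apply, Matrix.toLin'_apply]
    exact h u
  let φ₀ : G →* Matrix ι ι F :=
    { toFun := A
      map_one' := by
        apply hext
        intro u
        rw [hA, map_one, Matrix.one_mulVec]
        exact LinearEquiv.apply_symm_apply e u
      map_mul' := fun g h => by
        apply hext
        intro u
        rw [hA, ← Matrix.mulVec_mulVec, hA, hA, map_mul, LinearEquiv.symm_apply_apply]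
        rfl }
  have hmem : ∀ g, φ₀.toHomUnits g ∈ Cfsg.isometryGroup F Qs := by
    intro g u v
    show Qs (A g *ᵥ u) = Qs u
    rw [hA, ← hQ, hiso, hQ, LinearEquiv.apply_symm_apply]
  refine ⟨φ₀.toHomUnits.codRestrict (Cfsg.isometryGroup F Qs) hmem, fun g h hgh => ?_⟩
  have h1 : A g = A h := congrArg (fun t : ↥(Cfsg.isometryGroup F Qs) =>
    ((t : Matrix.GeneralLinearGroup ι F) : Matrix ι ι F)) hgh
  apply hρ
  apply LinearMap.ext
  intro x
  have h2 := hA g (e x)
  rw [h1, hA, LinearEquiv.symm_apply_apply] at h2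
  exact (e.injective h2).symm

theorem orth_embed' {F : Type*} [Field F] {V : Type*} [AddCommGroup V] [Module F V]
    [FiniteDimensional F V] {ι : Type} [Fintype ι] [DecidableEq ι]
    (L : (ι → F) →ₗ[F] V) (hL : Function.Injective L)
    (hdim : Module.finrank F V = Fintype.card ι)
    (Qs : (ι → F) → F) (Q : V → F) (hQ : ∀ w, Q (L w) = Qs w)
    {G : Type*} [Group G] (ρ : G →* Module.End F V) (hρ : Function.Injective ρ)
    (hiso : ∀ g x, Q (ρ g x) = Q x) :
    ∃ φ : G →* ↥(Cfsg.isometryGroup F Qs), Function.Injective φ := by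
  have hfr : Module.finrank F (ι → F) = Module.finrank F V := by
    rw [hdim, Module.finrank_fintype_fun_eq_card]
  have hsurj : Function.Surjective L :=
    (LinearMap.injective_iff_surjective_of_finrank_eq_finrank hfr).1 hL
  let e' : (ι → F) ≃ₗ[F] V := LinearEquiv.ofBijective L ⟨hL, hsurj⟩
  refine orth_embed e'.symm Qs Q (fun x => ?_) ρ hρ hiso
  have h := hQ (e'.symm x)
  have h2 : L (e'.symm x) = x := e'.apply_symm_apply x
  rw [h2] at h
  exact h

theorem exists_dual_family {F X : Type*} [Field F] [AddCommGroup X] [Module F X]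
    [FiniteDimensional F X] {n : ℕ} (β : Module.Basis (Fin n) F X) (T : X →ₗ[F] X →ₗ[F] F)
    (hT : ∀ y : X, y ≠ 0 → ∃ x, T x y ≠ 0) :
    ∃ γ : Fin n → X, ∀ i l, T (β i) (γ l) = if i = l then 1 else 0 := by
  classical
  let Φ : X →ₗ[F] (Fin n → F) := LinearMap.pi (fun i => T (β i))
  have hΦ : ∀ y i, Φ y i = T (β i) y := fun y i => rfl
  have hinj : Function.Injective Φ := by
    rw [← LinearMap.ker_eq_bot, LinearMap.ker_eq_bot']
    intro y hy
    by_contra hne
    obtain ⟨x, hx⟩ := hT y hne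
    apply hx
    rw [← β.sum_repr x]
    simp only [map_sum, map_smul, LinearMap.sum_apply, LinearMap.smul_apply]
    apply Finset.sum_eq_zero
    intro i _
    rw [← hΦ, hy, Pi.zero_apply, smul_zero]
  have hfr : Module.finrank F X = Module.finrank F (Fin n → F) := by
    rw [Module.finrank_eq_card_basis β, Fintype.card_fin, Module.finrank_fin_fun]
  have hsurj : Function.Surjective Φ :=
    (LinearMap.injective_iff_surjective_of_finrank_eq_finrank hfr).1 hinj
  choose γ hγ using fun l : Fin n => hsurj (Pi.single l 1)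
  refine ⟨γ, fun i l => ?_⟩
  rw [← hΦ, hγ, Pi.single_apply]

section Field

variable {K F : Type*} [Field K] [Fintype K] [Field F] [Fintype F] [Algebra F K] {q : ℕ}

theorem pow_q_q (hK : Fintype.card K = q ^ 2) (x : K) : (x ^ q) ^ q = x := by
  rw [← pow_mul, ← sq, ← hK]
  exact FiniteField.pow_card x

theorem add_pow_q (hK : Fintype.card K = q ^ 2) (x y : K) : (x + y) ^ q = x ^ q + y ^ q := by
  obtain ⟨p, hp⟩ := CharP.exists K
  obtain ⟨n, hpr, hn⟩ := FiniteField.card K p
  haveI : Fact p.Prime := ⟨hpr⟩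
  have h1 : q ∣ p ^ (n : ℕ) := by
    rw [← hn, hK]
    exact dvd_pow_self q two_ne_zero
  obtain ⟨k, -, hk⟩ := (Nat.dvd_prime_pow hpr).1 h1
  rw [hk]
  exact add_pow_char_pow x y p k

theorem algebraMap_pow_q (hF : Fintype.card F = q) (c : F) :
    algebraMap F K c ^ q = algebraMap F K c := by
  rw [← map_pow, ← hF, FiniteField.pow_card]

theorem smul_pow_q (hF : Fintype.card F = q) (c : F) (x : K) : (c • x) ^ q = c • x ^ q := by
  rw [Algebra.smul_def c x, mul_pow, algebraMap_pow_q hF, ← Algebra.smul_def]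

theorem exists_norm (hK : Fintype.card K = q ^ 2) (hF : Fintype.card F = q) (c : F) :
    ∃ x : K, x ^ (q + 1) = algebraMap F K c := by
  have hq : 1 < q := SpEmbed.one_lt_q hF
  obtain ⟨x, hx⟩ := FiniteField.norm_surjective F K c
  refine ⟨x, ?_⟩
  have h := FiniteField.algebraMap_norm_eq_pow (K := F) (K' := K) (x := x)
  rw [hx, Nat.card_eq_fintype_card, Nat.card_eq_fintype_card, hK, hF] at h
  obtain ⟨r, rfl⟩ := Nat.exists_eq_add_of_le' hq
  have e1 : (r + 2) ^ 2 - 1 = (r + 3) * (r + 1) := by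
    have : (r + 2) ^ 2 = (r + 3) * (r + 1) + 1 := by ring
    omega
  have e2 : r + 2 - 1 = r + 1 := by omega
  rw [e1, e2, Nat.mul_div_cancel _ (Nat.succ_pos r)] at h
  exact h.symm

theorem exists_trace_one (hq : 1 < q) (hK : Fintype.card K = q ^ 2) : ∃ z : K, z + z ^ q = 1 := by
  have hw : ∃ w : K, w + w ^ q ≠ 0 := by
    by_cases h2 : (1 : K) + 1 = 0
    · obtain ⟨x₀, hx₀⟩ := SpEmbed.exists_not_fixed hq hK
      refine ⟨x₀, fun h => hx₀ ?_⟩
      have h3 : x₀ ^ q = - x₀ := by linear_combination h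
      have h4 : - x₀ = x₀ := by linear_combination (-x₀) * h2
      rw [h3, h4]
    · exact ⟨1, by rw [one_pow]; exact h2⟩
  obtain ⟨w, hw⟩ := hw
  refine ⟨w / (w + w ^ q), ?_⟩
  rw [div_pow, add_pow_q hK, pow_q_q hK, add_comm (w ^ q) w, ← add_div, div_self hw]

theorem exists_lam : ∃ lam : K →ₗ[F] F, lam 1 = 1 := by
  obtain ⟨f, hf, -⟩ := Submodule.exists_dual_map_eq_bot_of_notMem
    (R := F) (M := K) (p := ⊥) (x := (1 : K)) (by
      rw [Submodule.mem_bot]; exact one_ne_zero) inferInstance
  refine ⟨(f 1)⁻¹ • f, ?_⟩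
  rw [LinearMap.smul_apply, smul_eq_mul, inv_mul_cancel₀ hf]

/-- The hermitian norm form on `K^ι` (with `ι` split in two halves), composed with a functional
`lam` with `lam 1 = 1`, is hyperbolic over `F`: an explicit injective coordinate map. -/
theorem exists_hyp (hK : Fintype.card K = q ^ 2) (hF : Fintype.card F = q)
    {J ι : Type} [Fintype J] [Fintype ι] (s : J ⊕ J ≃ ι) (n : ℕ)
    (hn : Module.finrank F (J → K) = n) (lam : K →ₗ[F] F) (hlam : lam 1 = 1) :
    ∃ L : (Fin n ⊕ Fin n → F) →ₗ[F] (ι → K), Function.Injective L ∧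
      ∀ w, lam (∑ i, L w i * L w i ^ q) = Cfsg.quadFormPlus n F w := by
  classical
  have hq : 1 < q := SpEmbed.one_lt_q hF
  haveI : Module.Finite F K := Module.Finite.of_finite
  obtain ⟨ε, hε0⟩ := exists_norm hK hF (-1 : F)
  have hε : ε * ε ^ q = -1 := by
    rw [← pow_succ', hε0, map_neg, map_one]
  obtain ⟨x₀, hx₀⟩ := SpEmbed.exists_not_fixed hq hK
  have hx₀0 : x₀ ≠ 0 := by
    intro h
    apply hx₀
    rw [h, zero_pow (by omega)]
  have hx₀q : x₀ ^ q ≠ 0 := pow_ne_zero q hx₀0
  have hεne : ε ≠ 0 := by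
    intro h
    rw [h, zero_mul] at hε
    exact one_ne_zero (α := K) (by linear_combination hε)
  obtain ⟨ε', hε'def⟩ : ∃ ε' : K, ε' = ε * (x₀ ^ q / x₀) := ⟨_, rfl⟩
  have hε'q : ε' ^ q = ε ^ q * (x₀ / x₀ ^ q) := by
    rw [hε'def, mul_pow, div_pow, pow_q_q hK]
  have hε' : ε' * ε' ^ q = -1 := by
    calc ε' * ε' ^ q = (ε * (x₀ ^ q / x₀)) * (ε ^ q * (x₀ / x₀ ^ q)) := by rw [hε'q, hε'def]
      _ = (ε * ε ^ q) * ((x₀ ^ q / x₀) * (x₀ / x₀ ^ q)) := by ring
      _ = -1 := by
        rw [hε, div_mul_div_comm, mul_comm (x₀ ^ q) x₀, div_self (mul_ne_zero hx₀0 hx₀q),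
          mul_one]
  have hne : ε ≠ ε' := by
    intro h
    apply hx₀
    have h1 : ε * (x₀ ^ q / x₀) = ε * 1 := by rw [mul_one, ← hε'def, ← h]
    have h2 := mul_left_cancel₀ hεne h1
    exact (div_eq_one_iff_eq hx₀0).1 h2
  obtain ⟨δ, hδ⟩ : ∃ δ : K, δ = 1 + ε * ε' ^ q := ⟨_, rfl⟩
  have hδq : δ ^ q = 1 + ε ^ q * ε' := by
    rw [hδ, add_pow_q hK, one_pow, mul_pow, pow_q_q hK]
  have hδ0 : δ ≠ 0 := by
    intro h
    have h0 : 1 + ε * ε' ^ q = 0 := by rw [← hδ]; exact h
    have h1 : ε ^ q = ε' ^ q := by linear_combination (ε ^ q) * h0 - (ε' ^ q) * hε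
    have h2 : (ε ^ q) ^ q = (ε' ^ q) ^ q := by rw [h1]
    rw [pow_q_q hK, pow_q_q hK] at h2
    exact hne h2
  obtain ⟨z₁, hz₁⟩ := exists_trace_one (K := K) hq hK
  -- the pairing
  let T : (J → K) →ₗ[F] (J → K) →ₗ[F] F :=
    LinearMap.mk₂ F (fun x y => lam (∑ j, (δ * x j * y j ^ q + (δ * x j * y j ^ q) ^ q)))
      (fun x x' y => by
        rw [← map_add, ← Finset.sum_add_distrib]
        congr 1
        apply Finset.sum_congr rfl
        intro j _
        rw [Pi.add_apply, mul_add, add_mul, add_pow_q hK]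
        ring)
      (fun c x y => by
        rw [← map_smul, Finset.smul_sum]
        congr 1
        apply Finset.sum_congr rfl
        intro j _
        have e1 : δ * (c • x) j * y j ^ q = c • (δ * x j * y j ^ q) := by
          rw [Pi.smul_apply, mul_smul_comm, smul_mul_assoc]
        rw [e1, smul_pow_q hF, smul_add])
      (fun x y y' => by
        rw [← map_add, ← Finset.sum_add_distrib]
        congr 1
        apply Finset.sum_congr rfl
        intro j _
        rw [Pi.add_apply, add_pow_q hK, mul_add, add_pow_q hK]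
        ring)
      (fun c x y => by
        rw [← map_smul, Finset.smul_sum]
        congr 1
        apply Finset.sum_congr rfl
        intro j _
        have e1 : δ * x j * (c • y) j ^ q = c • (δ * x j * y j ^ q) := by
          rw [Pi.smul_apply, smul_pow_q hF, mul_smul_comm]
        rw [e1, smul_pow_q hF, smul_add])
  have hTapp : ∀ x y, T x y = lam (∑ j, (δ * x j * y j ^ q + (δ * x j * y j ^ q) ^ q)) :=
    fun x y => rfl
  have hT : ∀ y : J → K, y ≠ 0 → ∃ x, T x y ≠ 0 := by
    intro y hy
    obtain ⟨j, hj⟩ := Function.ne_iff.1 hy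
    have hj' : y j ≠ 0 := hj
    have hyq : y j ^ q ≠ 0 := pow_ne_zero q hj'
    refine ⟨Pi.single j (z₁ / (δ * y j ^ q)), ?_⟩
    have e : T (Pi.single j (z₁ / (δ * y j ^ q))) y = 1 := by
      rw [hTapp, Finset.sum_eq_single j (fun j' _ hj' => by
        rw [Pi.single_eq_of_ne hj', mul_zero, zero_mul, zero_pow (by omega), add_zero])
        (fun h => absurd (Finset.mem_univ j) h), Pi.single_eq_same]
      have e2 : δ * (z₁ / (δ * y j ^ q)) * y j ^ q = z₁ := by field_simp
      rw [e2, hz₁, hlam]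
    rw [e]
    exact one_ne_zero
  let β : Module.Basis (Fin n) F (J → K) := Module.finBasisOfFinrankEq F (J → K) hn
  obtain ⟨γ, hγ⟩ := exists_dual_family β T hT
  -- the two embeddings of `K^J`
  let P : K → ((J → K) →ₗ[F] (ι → K)) := fun η =>
    { toFun := fun x i => Sum.elim x (fun j => η * x j) (s.symm i)
      map_add' := fun x x' => by
        funext i
        show Sum.elim (x + x') (fun j => η * (x + x') j) (s.symm i)
          = Sum.elim x (fun j => η * x j) (s.symm i) + Sum.elim x' (fun j => η * x' j) (s.symm i)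
        rcases s.symm i with j | j
        · rfl
        · show η * (x + x') j = η * x j + η * x' j
          rw [Pi.add_apply, mul_add]
      map_smul' := fun c x => by
        funext i
        show Sum.elim (c • x) (fun j => η * (c • x) j) (s.symm i)
          = c • Sum.elim x (fun j => η * x j) (s.symm i)
        rcases s.symm i with j | j
        · rfl
        · show η * (c • x) j = c • (η * x j)
          rw [Pi.smul_apply, mul_smul_comm] }
  have hP1 : ∀ (η : K) (x : J → K) (j : J), P η x (s (Sum.inl j)) = x j := by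
    intro η x j
    show Sum.elim x (fun j => η * x j) (s.symm (s (Sum.inl j))) = x j
    rw [Equiv.symm_apply_apply]
    rfl
  have hP2 : ∀ (η : K) (x : J → K) (j : J), P η x (s (Sum.inr j)) = η * x j := by
    intro η x j
    show Sum.elim x (fun j => η * x j) (s.symm (s (Sum.inr j))) = η * x j
    rw [Equiv.symm_apply_apply]
    rfl
  have hterm : ∀ a b : K, (a + b) * (a + b) ^ q + (ε * a + ε' * b) * (ε * a + ε' * b) ^ q
      = δ * a * b ^ q + (δ * a * b ^ q) ^ q := by
    intro a b
    rw [add_pow_q hK a b, add_pow_q hK (ε * a) (ε' * b), mul_pow ε a, mul_pow ε' b,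
      mul_pow (δ * a) (b ^ q), mul_pow δ a, pow_q_q hK b, hδq, hδ]
    linear_combination (a * a ^ q) * hε + (b * b ^ q) * hε'
  have hkey : ∀ x y : J → K, ∑ i, (P ε x + P ε' y) i * (P ε x + P ε' y) i ^ q
      = ∑ j, (δ * x j * y j ^ q + (δ * x j * y j ^ q) ^ q) := by
    intro x y
    refine ((Equiv.sum_comp s
      (fun i => (P ε x + P ε' y) i * (P ε x + P ε' y) i ^ q)).symm).trans ?_
    rw [Fintype.sum_sum_type, ← Finset.sum_add_distrib]
    apply Finset.sum_congr rfl
    intro j _
    show (P ε x + P ε' y) (s (Sum.inl j)) * (P ε x + P ε' y) (s (Sum.inl j)) ^ q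
      + (P ε x + P ε' y) (s (Sum.inr j)) * (P ε x + P ε' y) (s (Sum.inr j)) ^ q = _
    rw [Pi.add_apply, Pi.add_apply, hP1, hP1, hP2, hP2]
    exact hterm (x j) (y j)
  let A₁ : (Fin n ⊕ Fin n → F) →ₗ[F] (J → K) :=
    (Fintype.linearCombination F β).comp (LinearMap.funLeft F F Sum.inl)
  let A₂ : (Fin n ⊕ Fin n → F) →ₗ[F] (J → K) :=
    (Fintype.linearCombination F γ).comp (LinearMap.funLeft F F Sum.inr)
  have hA₁ : ∀ w, A₁ w = ∑ a, w (Sum.inl a) • β a := by
    intro w
    show Fintype.linearCombination F β (LinearMap.funLeft F F Sum.inl w) = _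
    rw [Fintype.linearCombination_apply]
    rfl
  have hA₂ : ∀ w, A₂ w = ∑ a, w (Sum.inr a) • γ a := by
    intro w
    show Fintype.linearCombination F γ (LinearMap.funLeft F F Sum.inr w) = _
    rw [Fintype.linearCombination_apply]
    rfl
  let L : (Fin n ⊕ Fin n → F) →ₗ[F] (ι → K) := (P ε).comp A₁ + (P ε').comp A₂
  have hL : ∀ w, L w = P ε (A₁ w) + P ε' (A₂ w) := fun w => rfl
  have hTβγ : ∀ (c d : Fin n → F), T (∑ a, c a • β a) (∑ a, d a • γ a) = ∑ a, c a * d a := by
    intro c d
    simp only [map_sum, map_smul, LinearMap.sum_apply, LinearMap.smul_apply, hγ, smul_eq_mul,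
      mul_ite, mul_one, mul_zero, Finset.sum_ite_eq', Finset.mem_univ, if_true]
    exact Finset.sum_congr rfl (fun a _ => mul_comm _ _)
  refine ⟨L, ?_, ?_⟩
  · intro w w' hww
    have h0 : L (w - w') = 0 := by rw [map_sub, hww, sub_self]
    suffices hz : ∀ v, L v = 0 → v = 0 from sub_eq_zero.1 (hz _ h0)
    intro v hv
    have hx : ∀ j, A₁ v j + A₂ v j = 0 := by
      intro j
      have h1 := congrFun hv (s (Sum.inl j))
      rw [hL, Pi.add_apply, hP1, hP1] at h1
      exact h1
    have hy : ∀ j, ε * A₁ v j + ε' * A₂ v j = 0 := by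
      intro j
      have h1 := congrFun hv (s (Sum.inr j))
      rw [hL, Pi.add_apply, hP2, hP2] at h1
      exact h1
    have hA1 : A₁ v = 0 := by
      funext j
      have h3 : (ε - ε') * A₁ v j = 0 := by linear_combination hy j - ε' * hx j
      rcases mul_eq_zero.1 h3 with h | h
      · exact absurd (sub_eq_zero.1 h) hne
      · exact h
    have hA2 : A₂ v = 0 := by
      funext j
      have h1 := hx j
      rw [hA1, Pi.zero_apply, zero_add] at h1
      exact h1
    have hl : ∀ a, v (Sum.inl a) = 0 := by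
      intro a
      have h4 : ∑ a, v (Sum.inl a) • β a = 0 := by rw [← hA₁]; exact hA1
      exact Fintype.linearIndependent_iff.1 β.linearIndependent (fun a => v (Sum.inl a)) h4 a
    have hr : ∀ b, v (Sum.inr b) = 0 := by
      intro b
      have h4 : ∑ a, v (Sum.inr a) • γ a = 0 := by rw [← hA₂]; exact hA2
      have h5 : T (β b) (∑ a, v (Sum.inr a) • γ a) = v (Sum.inr b) := by
        simp only [map_sum, map_smul, hγ, smul_eq_mul, mul_ite, mul_one, mul_zero,
          Finset.sum_ite_eq, Finset.mem_univ, if_true]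
      rw [h4, map_zero] at h5
      exact h5.symm
    funext i
    rcases i with a | b
    · exact hl a
    · exact hr b
  · intro w
    rw [hL, hkey, ← hTapp, hA₁, hA₂, hTβγ]
    rfl

/-- The natural `F`-linear representation of `GU_m(K)` on `K^m`. -/
theorem gu_rep (m : ℕ) : ∃ ρ : ↥(Cfsg.GU m K q) →* Module.End F (Fin m → K),
    Function.Injective ρ ∧ ∀ (g : ↥(Cfsg.GU m K q)) (x : Fin m → K),
      ρ g x = ((g : Matrix.GeneralLinearGroup (Fin m) K) : Matrix (Fin m) (Fin m) K) *ᵥ x := by
  let ρ : ↥(Cfsg.GU m K q) →* Module.End F (Fin m → K) :=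
    { toFun := fun g =>
        (Matrix.toLin' (((g : Matrix.GeneralLinearGroup (Fin m) K)) :
          Matrix (Fin m) (Fin m) K)).restrictScalars F
      map_one' := by
        apply LinearMap.ext
        intro x
        show Matrix.toLin' ((((1 : ↥(Cfsg.GU m K q)) : Matrix.GeneralLinearGroup (Fin m) K)) :
          Matrix (Fin m) (Fin m) K) x = x
        rw [Matrix.toLin'_apply]
        exact Matrix.one_mulVec x
      map_mul' := fun g h => by
        apply LinearMap.ext
        intro x
        show Matrix.toLin' ((((g * h : ↥(Cfsg.GU m K q)) : Matrix.GeneralLinearGroup (Fin m) K)) :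
            Matrix (Fin m) (Fin m) K) x
          = Matrix.toLin' (((g : Matrix.GeneralLinearGroup (Fin m) K)) : Matrix (Fin m) (Fin m) K)
              (Matrix.toLin' (((h : Matrix.GeneralLinearGroup (Fin m) K)) :
                Matrix (Fin m) (Fin m) K) x)
        rw [Matrix.toLin'_apply, Matrix.toLin'_apply, Matrix.toLin'_apply, Matrix.mulVec_mulVec]
        rfl }
  refine ⟨ρ, ?_, fun g x => rfl⟩
  intro g h hgh
  apply Subtype.ext
  apply Units.ext
  apply Matrix.toLin'.injective
  apply LinearMap.ext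
  intro x
  exact congrArg (fun t : Module.End F (Fin m → K) => t x) hgh

theorem fixed_mem_range (hq : 1 < q) (hF : Fintype.card F = q) (x : K) (hx : x ^ q = x) :
    ∃ c : F, algebraMap F K c = x := by
  classical
  by_contra hcon
  have hx' : x ∉ Finset.univ.image (algebraMap F K) := by
    intro h
    obtain ⟨c, -, hc⟩ := Finset.mem_image.1 h
    exact hcon ⟨c, hc⟩
  have h1 := Polynomial.card_le_degree_of_subset_roots (R := K)
    (p := Polynomial.X ^ q - Polynomial.X)
    (Z := insert x (Finset.univ.image (algebraMap F K))) (fun y hy => by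
      rw [Polynomial.mem_roots (FiniteField.X_pow_card_sub_X_ne_zero K hq)]
      show Polynomial.eval y (Polynomial.X ^ q - Polynomial.X) = 0
      rw [Polynomial.eval_sub, Polynomial.eval_pow, Polynomial.eval_X]
      have hy' : y ∈ insert x (Finset.univ.image (algebraMap F K)) := hy
      rcases Finset.mem_insert.1 hy' with h | h
      · rw [h, hx, sub_self]
      · obtain ⟨c, -, hc⟩ := Finset.mem_image.1 h
        rw [← hc, algebraMap_pow_q hF, sub_self])
  rw [FiniteField.X_pow_card_sub_X_natDegree_eq K hq, Finset.card_insert_of_notMem hx',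
    Finset.card_image_of_injective _ (algebraMap F K).injective, Finset.card_univ, hF] at h1
  omega

/-- A root in `K` of an anisotropic binary quadratic form over `F`, with its trace and norm. -/
theorem exists_omega (hK : Fintype.card K = q ^ 2) (hF : Fintype.card F = q) (a b : F)
    (hab : ∀ z₁ z₂ : F, z₁ ^ 2 + a * z₁ * z₂ + b * z₂ ^ 2 = 0 → z₁ = 0 ∧ z₂ = 0) :
    ∃ ω : K, ω + ω ^ q = algebraMap F K a ∧ ω * ω ^ q = algebraMap F K b := by
  classical
  have hq : 1 < q := SpEmbed.one_lt_q hF
  haveI : Module.Finite F K := Module.Finite.of_finite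
  let p : Polynomial F :=
    Polynomial.C 1 * Polynomial.X ^ 2 + Polynomial.C (-a) * Polynomial.X + Polynomial.C b
  have hdeg : p.natDegree = 2 := Polynomial.natDegree_quadratic one_ne_zero
  have hp0 : p ≠ 0 := fun h => by
    rw [h, Polynomial.natDegree_zero] at hdeg
    exact absurd hdeg (by norm_num)
  have hev : ∀ r : F, Polynomial.eval r p = 1 * r ^ 2 + (-a) * r + b := by
    intro r
    show Polynomial.eval r (Polynomial.C 1 * Polynomial.X ^ 2 + Polynomial.C (-a) * Polynomial.X
      + Polynomial.C b) = _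
    simp only [Polynomial.eval_add, Polynomial.eval_mul, Polynomial.eval_C, Polynomial.eval_pow,
      Polynomial.eval_X]
  have haev : ∀ x : K, Polynomial.aeval x p
      = algebraMap F K 1 * x ^ 2 + algebraMap F K (-a) * x + algebraMap F K b := by
    intro x
    show Polynomial.aeval x (Polynomial.C 1 * Polynomial.X ^ 2 + Polynomial.C (-a) * Polynomial.X
      + Polynomial.C b) = _
    simp only [map_add, map_mul, Polynomial.aeval_C, map_pow, Polynomial.aeval_X]
  have hroot : ∀ r : F, ¬ p.IsRoot r := by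
    intro r hr
    have h1 : 1 * r ^ 2 + (-a) * r + b = 0 := by
      rw [← hev]
      exact hr
    have h2 := hab r (-1) (by linear_combination h1)
    exact absurd h2.2 (neg_ne_zero.2 one_ne_zero)
  have hirr : Irreducible p :=
    Polynomial.irreducible_of_degree_le_three_of_not_isRoot (by rw [hdeg]; decide) hroot
  haveI : Fact (Irreducible p) := ⟨hirr⟩
  have hfr : Module.finrank F (AdjoinRoot p) = 2 := by
    rw [(AdjoinRoot.powerBasis hp0).finrank, AdjoinRoot.powerBasis_dim, hdeg]
  have hfrK : Module.finrank F K = 2 := SpEmbed.finrank_two hK hF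
  obtain ⟨φ⟩ := FiniteField.nonempty_algHom_of_finrank_dvd (F := F) (K := AdjoinRoot p) (L := K)
    (by rw [hfr, hfrK])
  obtain ⟨ω, hωdef⟩ : ∃ ω : K, ω = φ (AdjoinRoot.root p) := ⟨_, rfl⟩
  have hω : ω ^ 2 + algebraMap F K b = algebraMap F K a * ω := by
    have h1 : Polynomial.aeval (AdjoinRoot.root p) p = 0 := by
      rw [AdjoinRoot.aeval_eq, AdjoinRoot.mk_self]
    have h2 : Polynomial.aeval ω p = 0 := by
      rw [hωdef, Polynomial.aeval_algHom_apply, h1, map_zero]
    rw [haev, map_one, map_neg] at h2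
    linear_combination h2
  have hω' : (ω ^ q) ^ 2 + algebraMap F K b = algebraMap F K a * ω ^ q := by
    have h2 : (ω ^ 2 + algebraMap F K b) ^ q = (algebraMap F K a * ω) ^ q := by rw [hω]
    rw [add_pow_q hK, mul_pow, algebraMap_pow_q hF, algebraMap_pow_q hF, ← pow_mul,
      mul_comm 2 q, pow_mul] at h2
    exact h2
  have hfac : (ω ^ q - ω) * (ω ^ q + ω - algebraMap F K a) = 0 := by
    linear_combination hω' - hω
  rcases mul_eq_zero.1 hfac with h | h
  · exfalso
    have hfix : ω ^ q = ω := sub_eq_zero.1 h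
    obtain ⟨r, hr⟩ := fixed_mem_range hq hF ω hfix
    have h1 : algebraMap F K (r ^ 2 + a * r * (-1) + b * (-1) ^ 2) = 0 := by
      simp only [map_add, map_mul, map_pow, map_neg, map_one, hr]
      linear_combination hω
    have h2 := hab r (-1) ((algebraMap F K).injective (by rw [h1, map_zero]))
    exact absurd h2.2 (neg_ne_zero.2 one_ne_zero)
  · exact ⟨ω, by linear_combination h, by linear_combination ω * h - hω⟩

/-- Minus-type structure: hyperbolic part plus the norm form of `K` in the basis `1, ω`. -/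
theorem exists_minus (hK : Fintype.card K = q ^ 2) (hF : Fintype.card F = q)
    {J ι : Type} [Fintype J] [Fintype ι] (t : (J ⊕ J) ⊕ Fin 1 ≃ ι) (n : ℕ)
    (hn : Module.finrank F (J → K) = n) (lam : K →ₗ[F] F) (hlam : lam 1 = 1) (a b : F)
    (hab : ∀ z₁ z₂ : F, z₁ ^ 2 + a * z₁ * z₂ + b * z₂ ^ 2 = 0 → z₁ = 0 ∧ z₂ = 0) :
    ∃ L : (((Fin n ⊕ Fin n) ⊕ Fin 2) → F) →ₗ[F] (ι → K), Function.Injective L ∧
      ∀ w, lam (∑ i, L w i * L w i ^ q) = Cfsg.quadFormMinus n F a b w := by
  classical
  obtain ⟨L₀, hinj₀, hQ₀⟩ := exists_hyp hK hF (Equiv.refl (J ⊕ J)) n hn lam hlam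
  obtain ⟨ω, hω1, hω2⟩ := exists_omega hK hF a b hab
  let R : (Fin 2 → F) →ₗ[F] K :=
    (LinearMap.proj (0 : Fin 2)).smulRight (1 : K) + (LinearMap.proj (1 : Fin 2)).smulRight ω
  have hN : ∀ z : Fin 2 → F, R z * R z ^ q
      = algebraMap F K (z 0 ^ 2 + a * z 0 * z 1 + b * z 1 ^ 2) := by
    intro z
    have e1 : R z = algebraMap F K (z 0) + algebraMap F K (z 1) * ω := by
      show z 0 • (1 : K) + z 1 • ω = _
      rw [Algebra.smul_def, Algebra.smul_def, mul_one]
    rw [e1, add_pow_q hK, mul_pow, algebraMap_pow_q hF, algebraMap_pow_q hF]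
    simp only [map_add, map_mul, map_pow]
    linear_combination (algebraMap F K (z 0) * algebraMap F K (z 1)) * hω1
      + (algebraMap F K (z 1)) ^ 2 * hω2
  let A₁ : (((Fin n ⊕ Fin n) ⊕ Fin 2) → F) →ₗ[F] (J ⊕ J → K) :=
    L₀.comp (LinearMap.funLeft F F Sum.inl)
  let A₂ : (((Fin n ⊕ Fin n) ⊕ Fin 2) → F) →ₗ[F] K := R.comp (LinearMap.funLeft F F Sum.inr)
  let L : (((Fin n ⊕ Fin n) ⊕ Fin 2) → F) →ₗ[F] (ι → K) :=
    { toFun := fun w i => Sum.elim (A₁ w) (fun _ : Fin 1 => A₂ w) (t.symm i)
      map_add' := fun w w' => by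
        funext i
        show Sum.elim (A₁ (w + w')) (fun _ : Fin 1 => A₂ (w + w')) (t.symm i)
          = Sum.elim (A₁ w) (fun _ : Fin 1 => A₂ w) (t.symm i)
            + Sum.elim (A₁ w') (fun _ : Fin 1 => A₂ w') (t.symm i)
        rw [map_add, map_add]
        rcases t.symm i with y | u
        · rfl
        · rfl
      map_smul' := fun c w => by
        funext i
        show Sum.elim (A₁ (c • w)) (fun _ : Fin 1 => A₂ (c • w)) (t.symm i)
          = c • Sum.elim (A₁ w) (fun _ : Fin 1 => A₂ w) (t.symm i)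
        rw [map_smul, map_smul]
        rcases t.symm i with y | u
        · rfl
        · rfl }
  have hL1 : ∀ w y, L w (t (Sum.inl y)) = A₁ w y := by
    intro w y
    show Sum.elim (A₁ w) (fun _ : Fin 1 => A₂ w) (t.symm (t (Sum.inl y))) = _
    rw [Equiv.symm_apply_apply]
    rfl
  have hL2 : ∀ w u, L w (t (Sum.inr u)) = A₂ w := by
    intro w u
    show Sum.elim (A₁ w) (fun _ : Fin 1 => A₂ w) (t.symm (t (Sum.inr u))) = _
    rw [Equiv.symm_apply_apply]
    rfl
  have hsum : ∀ w, ∑ i, L w i * L w i ^ q = ∑ y, A₁ w y * A₁ w y ^ q + A₂ w * A₂ w ^ q := by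
    intro w
    refine ((Equiv.sum_comp t (fun i => L w i * L w i ^ q)).symm).trans ?_
    rw [Fintype.sum_sum_type, Fin.sum_univ_one]
    simp only [hL1, hL2]
  refine ⟨L, ?_, ?_⟩
  · intro w w' hww
    have h0 : L (w - w') = 0 := by rw [map_sub, hww, sub_self]
    suffices hz : ∀ v, L v = 0 → v = 0 from sub_eq_zero.1 (hz _ h0)
    intro v hv
    have h1 : A₁ v = 0 := by
      funext y
      have h := congrFun hv (t (Sum.inl y))
      rw [hL1] at h
      exact h
    have h2 : A₂ v = 0 := by
      have h := congrFun hv (t (Sum.inr 0))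
      rw [hL2] at h
      exact h
    have h3 : LinearMap.funLeft F F Sum.inl v = 0 := hinj₀ (by rw [map_zero]; exact h1)
    have h4 : v (Sum.inr 0) = 0 ∧ v (Sum.inr 1) = 0 := by
      apply hab
      apply (algebraMap F K).injective
      rw [map_zero]
      have h5 := hN (LinearMap.funLeft F F Sum.inr v)
      have h6 : R (LinearMap.funLeft F F Sum.inr v) = 0 := h2
      rw [h6, zero_mul] at h5
      exact h5.symm
    funext i
    rcases i with i | i
    · exact congrFun h3 i
    · fin_cases i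
      · exact h4.1
      · exact h4.2
  · intro w
    rw [hsum, map_add]
    have e1 : lam (∑ y, A₁ w y * A₁ w y ^ q)
        = Cfsg.quadFormPlus n F (LinearMap.funLeft F F Sum.inl w) := hQ₀ _
    have e2 : lam (A₂ w * A₂ w ^ q)
        = w (Sum.inr 0) ^ 2 + a * w (Sum.inr 0) * w (Sum.inr 1) + b * w (Sum.inr 1) ^ 2 := by
      have h5 := hN (LinearMap.funLeft F F Sum.inr w)
      show lam (R (LinearMap.funLeft F F Sum.inr w) * R (LinearMap.funLeft F F Sum.inr w) ^ q) = _
      rw [h5, Algebra.algebraMap_eq_smul_one, map_smul, hlam, smul_eq_mul, mul_one]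
      rfl
    rw [e1, e2]
    rfl

end Field

end OrthEmbed

end Cfsg.Agent.Helper2
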