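import Mathlib
import Cfsg.Prelude.Def_Classical
import Cfsg.Agent.Helper2.OrthEmbed

/-!
# Base change of the minus-type quadratic form to the quadratic extension

An isometry of `quadFormMinus n F a c` stays an isometry after extending scalars to `K`, where
the form becomes hyperbolic; hence `O^-_{2n+2}(F)` embeds in `O^+_{2n+2}(K)`.
-/

set_option autoImplicit false

namespace Cfsg.Agent.Helper2

namespace OrthBase

open Matrix

theorem alt_sum_zero {R ι : Type*} [CommRing R] [Fintype ι] (v : ι → R) (ν : ι → ι → R)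
    (h1 : ∀ i, ν i i = 0) (h2 : ∀ i j, ν i j + ν j i = 0) :
    ∑ i, ∑ j, v i * (v j * ν i j) = 0 := by
  classical
  let r := Fintype.equivFin ι
  let U : ι → ι → R := fun i j => if r i < r j then v i * (v j * ν i j) else 0
  have key : ∀ i j, v i * (v j * ν i j) = U i j - U j i := by
    intro i j
    rcases lt_trichotomy (r i) (r j) with h | h | h
    · show _ = (if r i < r j then v i * (v j * ν i j) else 0)
        - (if r j < r i then v j * (v i * ν j i) else 0)
      rw [if_pos h, if_neg (not_lt_of_gt h), sub_zero]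
    · have hij : i = j := r.injective h
      subst hij
      show _ = (if r i < r i then v i * (v i * ν i i) else 0)
        - (if r i < r i then v i * (v i * ν i i) else 0)
      rw [sub_self, h1, mul_zero, mul_zero]
    · show _ = (if r i < r j then v i * (v j * ν i j) else 0)
        - (if r j < r i then v j * (v i * ν j i) else 0)
      rw [if_neg (not_lt_of_gt h), if_pos h, zero_sub]
      linear_combination (v i * v j) * h2 i j
  have e1 : ∑ i, ∑ j, v i * (v j * ν i j) = ∑ i, ∑ j, (U i j - U j i) :=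
    Finset.sum_congr rfl (fun i _ => Finset.sum_congr rfl (fun j _ => key i j))
  rw [e1]
  simp only [Finset.sum_sub_distrib]
  rw [sub_eq_zero]
  exact Finset.sum_comm

/-- A bilinear form whose diagonal is the minus-type quadratic form. -/
noncomputable def bm (R : Type*) [Field R] (n : ℕ) (a c : R) :
    LinearMap.BilinForm R ((Fin n ⊕ Fin n) ⊕ Fin 2 → R) :=
  LinearMap.mk₂ R (fun u w => (∑ i : Fin n, u (Sum.inl (Sum.inl i)) * w (Sum.inl (Sum.inr i)))
      + (u (Sum.inr 0) * w (Sum.inr 0) + a * u (Sum.inr 0) * w (Sum.inr 1)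
        + c * u (Sum.inr 1) * w (Sum.inr 1)))
    (fun u u' w => by
      simp only [Pi.add_apply, add_mul, mul_add, Finset.sum_add_distrib]
      ring)
    (fun r u w => by
      simp only [Pi.smul_apply, smul_eq_mul]
      rw [mul_add, Finset.mul_sum]
      congr 1
      · exact Finset.sum_congr rfl (fun i _ => by ring)
      · ring)
    (fun u w w' => by
      simp only [Pi.add_apply, mul_add, Finset.sum_add_distrib]
      ring)
    (fun r u w => by
      simp only [Pi.smul_apply, smul_eq_mul]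
      rw [mul_add, Finset.mul_sum]
      congr 1
      · exact Finset.sum_congr rfl (fun i _ => by ring)
      · ring)

theorem bm_self {R : Type*} [Field R] (n : ℕ) (a c : R) (u : (Fin n ⊕ Fin n) ⊕ Fin 2 → R) :
    bm R n a c u u = Cfsg.quadFormMinus n R a c u := by
  show (∑ i : Fin n, u (Sum.inl (Sum.inl i)) * u (Sum.inl (Sum.inr i)))
      + (u (Sum.inr 0) * u (Sum.inr 0) + a * u (Sum.inr 0) * u (Sum.inr 1)
        + c * u (Sum.inr 1) * u (Sum.inr 1))
    = (∑ i : Fin n, u (Sum.inl (Sum.inl i)) * u (Sum.inl (Sum.inr i)))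
      + (u (Sum.inr 0) ^ 2 + a * u (Sum.inr 0) * u (Sum.inr 1) + c * u (Sum.inr 1) ^ 2)
  ring

theorem bm_map {F K : Type*} [Field F] [Field K] [Algebra F K] (n : ℕ) (a c : F)
    (u w : (Fin n ⊕ Fin n) ⊕ Fin 2 → F) :
    bm K n (algebraMap F K a) (algebraMap F K c) (fun k => algebraMap F K (u k))
      (fun k => algebraMap F K (w k)) = algebraMap F K (bm F n a c u w) := by
  show (∑ i : Fin n, algebraMap F K (u (Sum.inl (Sum.inl i)))
        * algebraMap F K (w (Sum.inl (Sum.inr i))))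
      + (algebraMap F K (u (Sum.inr 0)) * algebraMap F K (w (Sum.inr 0))
        + algebraMap F K a * algebraMap F K (u (Sum.inr 0)) * algebraMap F K (w (Sum.inr 1))
        + algebraMap F K c * algebraMap F K (u (Sum.inr 1)) * algebraMap F K (w (Sum.inr 1)))
    = algebraMap F K ((∑ i : Fin n, u (Sum.inl (Sum.inl i)) * w (Sum.inl (Sum.inr i)))
      + (u (Sum.inr 0) * w (Sum.inr 0) + a * u (Sum.inr 0) * w (Sum.inr 1)
        + c * u (Sum.inr 1) * w (Sum.inr 1)))
  simp only [map_add, map_sum, map_mul]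

theorem minus_base_change {F K : Type*} [Field F] [Field K] [Algebra F K] (n : ℕ) (a c : F)
    (g : Matrix ((Fin n ⊕ Fin n) ⊕ Fin 2) ((Fin n ⊕ Fin n) ⊕ Fin 2) F)
    (hg : ∀ u, Cfsg.quadFormMinus n F a c (g *ᵥ u) = Cfsg.quadFormMinus n F a c u)
    (v : (Fin n ⊕ Fin n) ⊕ Fin 2 → K) :
    Cfsg.quadFormMinus n K (algebraMap F K a) (algebraMap F K c) (g.map (algebraMap F K) *ᵥ v)
      = Cfsg.quadFormMinus n K (algebraMap F K a) (algebraMap F K c) v := by
  classical
  obtain ⟨BK, hBK⟩ : ∃ B, B = bm K n (algebraMap F K a) (algebraMap F K c) := ⟨_, rfl⟩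
  obtain ⟨BF, hBF⟩ : ∃ B, B = bm F n a c := ⟨_, rfl⟩
  let e' : ((Fin n ⊕ Fin n) ⊕ Fin 2) → ((Fin n ⊕ Fin n) ⊕ Fin 2 → F) := fun i => Pi.single i 1
  let gk : ((Fin n ⊕ Fin n) ⊕ Fin 2) → ((Fin n ⊕ Fin n) ⊕ Fin 2 → F) := fun i => g *ᵥ e' i
  let x : ((Fin n ⊕ Fin n) ⊕ Fin 2) → ((Fin n ⊕ Fin n) ⊕ Fin 2 → K) :=
    fun i k => algebraMap F K (gk i k)
  let y : ((Fin n ⊕ Fin n) ⊕ Fin 2) → ((Fin n ⊕ Fin n) ⊕ Fin 2 → K) :=
    fun i k => algebraMap F K (e' i k)
  have hv : v = ∑ i, v i • y i := by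
    funext k
    rw [Finset.sum_apply]
    show v k = ∑ i, v i * algebraMap F K ((Pi.single i 1 : (Fin n ⊕ Fin n) ⊕ Fin 2 → F) k)
    simp only [Pi.single_apply, apply_ite (algebraMap F K), map_one, map_zero, mul_ite, mul_one,
      mul_zero, Finset.sum_ite_eq, Finset.mem_univ, if_true]
  have hgv : g.map (algebraMap F K) *ᵥ v = ∑ i, v i • x i := by
    funext k
    rw [Finset.sum_apply]
    show ∑ j, (g.map (algebraMap F K)) k j * v j
      = ∑ i, v i * algebraMap F K ((g *ᵥ (Pi.single i 1 : (Fin n ⊕ Fin n) ⊕ Fin 2 → F)) k)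
    apply Finset.sum_congr rfl
    intro j _
    rw [Matrix.mulVec_single_one]
    show algebraMap F K (g k j) * v j = v j * algebraMap F K (g k j)
    ring
  have hexp : ∀ (z : ((Fin n ⊕ Fin n) ⊕ Fin 2) → ((Fin n ⊕ Fin n) ⊕ Fin 2 → K)),
      BK (∑ i, v i • z i) (∑ j, v j • z j) = ∑ i, ∑ j, v i * (v j * BK (z i) (z j)) := by
    intro z
    rw [map_sum BK, LinearMap.sum_apply]
    apply Finset.sum_congr rfl
    intro i _
    rw [map_smul BK, LinearMap.smul_apply, map_sum (BK (z i)), Finset.smul_sum]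
    apply Finset.sum_congr rfl
    intro j _
    rw [map_smul (BK (z i)), smul_eq_mul, smul_eq_mul]
  have hQ1 := hexp x
  rw [← hgv, hBK, bm_self, ← hBK] at hQ1
  have hQ2 := hexp y
  rw [← hv, hBK, bm_self, ← hBK] at hQ2
  have hBx : ∀ i j, BK (x i) (x j) = algebraMap F K (BF (gk i) (gk j)) := by
    intro i j
    rw [hBK, hBF]
    exact bm_map n a c (gk i) (gk j)
  have hBy : ∀ i j, BK (y i) (y j) = algebraMap F K (BF (e' i) (e' j)) := by
    intro i j
    rw [hBK, hBF]
    exact bm_map n a c (e' i) (e' j)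
  have hQF : ∀ u, BF u u = Cfsg.quadFormMinus n F a c u := by
    intro u
    rw [hBF]
    exact bm_self n a c u
  have hn1 : ∀ i, BF (gk i) (gk i) = BF (e' i) (e' i) := by
    intro i
    rw [hQF, hQF]
    exact hg (e' i)
  have hpol : ∀ p r, BF p r + BF r p = BF (p + r) (p + r) - BF p p - BF r r := by
    intro p r
    simp only [map_add, LinearMap.add_apply]
    ring
  have hn2 : ∀ i j, BF (gk i) (gk j) + BF (gk j) (gk i)
      = BF (e' i) (e' j) + BF (e' j) (e' i) := by
    intro i j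
    have h1 : gk i + gk j = g *ᵥ (e' i + e' j) := (Matrix.mulVec_add g (e' i) (e' j)).symm
    have h2 : BF (gk i + gk j) (gk i + gk j) = BF (e' i + e' j) (e' i + e' j) := by
      rw [h1, hQF, hQF, hg]
    rw [hpol, hpol, hn1, hn1, h2]
  have hz := alt_sum_zero v (fun i j => BK (x i) (x j) - BK (y i) (y j))
    (fun i => by
      show BK (x i) (x i) - BK (y i) (y i) = 0
      rw [hBx, hBy, hn1, sub_self])
    (fun i j => by
      show BK (x i) (x j) - BK (y i) (y j) + (BK (x j) (x i) - BK (y j) (y i)) = 0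
      rw [hBx, hBy, hBx, hBy]
      have h := congrArg (algebraMap F K) (hn2 i j)
      rw [map_add, map_add] at h
      linear_combination h)
  rw [hQ1, hQ2, ← sub_eq_zero, ← Finset.sum_sub_distrib]
  refine (Finset.sum_congr rfl (fun i _ => ?_)).trans hz
  rw [← Finset.sum_sub_distrib]
  apply Finset.sum_congr rfl
  intro j _
  ring

/-- `O^-_{2n+2}(F)` embeds in `O^+_{2n+2}(K)` for the quadratic extension `K` of `F`. -/
theorem main {F K : Type*} [Field F] [Fintype F] [Field K] [Fintype K] [Algebra F K] {q : ℕ}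
    (hF : Fintype.card F = q) (hK : Fintype.card K = q ^ 2) (n : ℕ) (a c : F)
    (hac : ∀ z₁ z₂ : F, z₁ ^ 2 + a * z₁ * z₂ + c * z₂ ^ 2 = 0 → z₁ = 0 ∧ z₂ = 0) :
    ∃ φ : ↥(Cfsg.isometryGroup F (Cfsg.quadFormMinus n F a c)) →*
      ↥(Cfsg.isometryGroup K (Cfsg.quadFormPlus (n + 1) K)), Function.Injective φ := by
  classical
  have hq : 1 < q := SpEmbed.one_lt_q hF
  obtain ⟨ω, hω1, hω2⟩ := OrthEmbed.exists_omega hK hF a c hac
  have hd0 : ω - ω ^ q ≠ 0 := by
    intro h
    have hfix : ω ^ q = ω := (sub_eq_zero.1 h).symm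
    obtain ⟨r, hr⟩ := OrthEmbed.fixed_mem_range hq hF ω hfix
    have h1 : algebraMap F K (r ^ 2 + a * r * (-1) + c * (-1) ^ 2) = 0 := by
      simp only [map_add, map_mul, map_pow, map_neg, map_one, hr]
      rw [← hω1, ← hω2, hfix]
      ring
    have h2 := hac r (-1) ((algebraMap F K).injective (by rw [h1, map_zero]))
    exact absurd h2.2 (neg_ne_zero.2 one_ne_zero)
  obtain ⟨ω', hω'⟩ : ∃ ω' : K, ω' = ω ^ q := ⟨_, rfl⟩
  rw [← hω'] at hω1 hω2 hd0
  let f₀ : (Fin (n + 1) ⊕ Fin (n + 1) → K) →ₗ[K] K :=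
    (ω - ω')⁻¹ • (ω • (LinearMap.proj (Sum.inr (Fin.last n)) :
        (Fin (n + 1) ⊕ Fin (n + 1) → K) →ₗ[K] K)
      - ω' • (LinearMap.proj (Sum.inl (Fin.last n)) :
        (Fin (n + 1) ⊕ Fin (n + 1) → K) →ₗ[K] K))
  let f₁ : (Fin (n + 1) ⊕ Fin (n + 1) → K) →ₗ[K] K :=
    (ω - ω')⁻¹ • ((LinearMap.proj (Sum.inl (Fin.last n)) :
        (Fin (n + 1) ⊕ Fin (n + 1) → K) →ₗ[K] K)
      - (LinearMap.proj (Sum.inr (Fin.last n)) :
        (Fin (n + 1) ⊕ Fin (n + 1) → K) →ₗ[K] K))
  let L : (Fin (n + 1) ⊕ Fin (n + 1) → K) →ₗ[K] ((Fin n ⊕ Fin n) ⊕ Fin 2 → K) :=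
    LinearMap.pi (Sum.elim
      (Sum.elim
        (fun i : Fin n => (LinearMap.proj (Sum.inl i.castSucc) :
          (Fin (n + 1) ⊕ Fin (n + 1) → K) →ₗ[K] K))
        (fun i : Fin n => (LinearMap.proj (Sum.inr i.castSucc) :
          (Fin (n + 1) ⊕ Fin (n + 1) → K) →ₗ[K] K)))
      (fun j : Fin 2 => if j = 0 then f₀ else f₁))
  have hLa : ∀ w (i : Fin n), L w (Sum.inl (Sum.inl i)) = w (Sum.inl i.castSucc) :=
    fun w i => rfl
  have hLb : ∀ w (i : Fin n), L w (Sum.inl (Sum.inr i)) = w (Sum.inr i.castSucc) :=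
    fun w i => rfl
  have hL0 : ∀ w, L w (Sum.inr 0)
      = (ω - ω')⁻¹ * (ω * w (Sum.inr (Fin.last n)) - ω' * w (Sum.inl (Fin.last n))) := by
    intro w
    show (if (0 : Fin 2) = 0 then f₀ else f₁) w = _
    rw [if_pos rfl]
    rfl
  have hL1 : ∀ w, L w (Sum.inr 1)
      = (ω - ω')⁻¹ * (w (Sum.inl (Fin.last n)) - w (Sum.inr (Fin.last n))) := by
    intro w
    show (if (1 : Fin 2) = 0 then f₀ else f₁) w = _
    rw [if_neg (by decide)]
    rfl
  have hLinj : Function.Injective L := by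
    rw [injective_iff_map_eq_zero]
    intro w hw
    have h0 := congrFun hw (Sum.inr 0)
    have h1 := congrFun hw (Sum.inr 1)
    rw [hL0, Pi.zero_apply] at h0
    rw [hL1, Pi.zero_apply] at h1
    have e0 : ω * w (Sum.inr (Fin.last n)) - ω' * w (Sum.inl (Fin.last n)) = 0 := by
      rcases mul_eq_zero.1 h0 with h | h
      · exact absurd h (inv_ne_zero hd0)
      · exact h
    have e1 : w (Sum.inl (Fin.last n)) - w (Sum.inr (Fin.last n)) = 0 := by
      rcases mul_eq_zero.1 h1 with h | h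
      · exact absurd h (inv_ne_zero hd0)
      · exact h
    have hX : w (Sum.inl (Fin.last n)) = 0 := by
      have h2 : (ω - ω') * w (Sum.inl (Fin.last n)) = 0 := by linear_combination e0 + ω * e1
      rcases mul_eq_zero.1 h2 with h | h
      · exact absurd h hd0
      · exact h
    have hY : w (Sum.inr (Fin.last n)) = 0 := by linear_combination hX - e1
    funext idx
    rcases idx with i | i
    · rcases Fin.eq_castSucc_or_eq_last i with ⟨j, rfl⟩ | rfl
      · have h := congrFun hw (Sum.inl (Sum.inl j))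
        rw [hLa] at h
        exact h
      · exact hX
    · rcases Fin.eq_castSucc_or_eq_last i with ⟨j, rfl⟩ | rfl
      · have h := congrFun hw (Sum.inl (Sum.inr j))
        rw [hLb] at h
        exact h
      · exact hY
  have hLQ : ∀ w, Cfsg.quadFormMinus n K (algebraMap F K a) (algebraMap F K c) (L w)
      = Cfsg.quadFormPlus (n + 1) K w := by
    intro w
    have e1 : (∑ i : Fin n, L w (Sum.inl (Sum.inl i)) * L w (Sum.inl (Sum.inr i)))
        = ∑ i : Fin n, w (Sum.inl i.castSucc) * w (Sum.inr i.castSucc) := rfl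
    have e2 : L w (Sum.inr 0) ^ 2 + algebraMap F K a * L w (Sum.inr 0) * L w (Sum.inr 1)
        + algebraMap F K c * L w (Sum.inr 1) ^ 2
        = w (Sum.inl (Fin.last n)) * w (Sum.inr (Fin.last n)) := by
      rw [hL0, hL1, ← hω1, ← hω2]
      field_simp
      ring
    show (∑ i : Fin n, L w (Sum.inl (Sum.inl i)) * L w (Sum.inl (Sum.inr i)))
        + (L w (Sum.inr 0) ^ 2 + algebraMap F K a * L w (Sum.inr 0) * L w (Sum.inr 1)
          + algebraMap F K c * L w (Sum.inr 1) ^ 2)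
      = ∑ i : Fin (n + 1), w (Sum.inl i) * w (Sum.inr i)
    rw [Fin.sum_univ_castSucc, e1, e2]
  let ρ : ↥(Cfsg.isometryGroup F (Cfsg.quadFormMinus n F a c)) →*
      Module.End K ((Fin n ⊕ Fin n) ⊕ Fin 2 → K) :=
    { toFun := fun g => Matrix.toLin'
        (((g : Matrix.GeneralLinearGroup ((Fin n ⊕ Fin n) ⊕ Fin 2) F) :
          Matrix ((Fin n ⊕ Fin n) ⊕ Fin 2) ((Fin n ⊕ Fin n) ⊕ Fin 2) F).map (algebraMap F K))
      map_one' := by
        show Matrix.toLin' ((1 : Matrix ((Fin n ⊕ Fin n) ⊕ Fin 2) ((Fin n ⊕ Fin n) ⊕ Fin 2)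
          F).map (algebraMap F K)) = 1
        rw [Matrix.map_one _ (map_zero _) (map_one _), Matrix.toLin'_one]
        rfl
      map_mul' := fun g h => by
        show Matrix.toLin'
            ((((g : Matrix.GeneralLinearGroup ((Fin n ⊕ Fin n) ⊕ Fin 2) F) :
              Matrix ((Fin n ⊕ Fin n) ⊕ Fin 2) ((Fin n ⊕ Fin n) ⊕ Fin 2) F)
            * ((h : Matrix.GeneralLinearGroup ((Fin n ⊕ Fin n) ⊕ Fin 2) F) :
              Matrix ((Fin n ⊕ Fin n) ⊕ Fin 2) ((Fin n ⊕ Fin n) ⊕ Fin 2) F)).map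
                (algebraMap F K))
          = Matrix.toLin'
              (((g : Matrix.GeneralLinearGroup ((Fin n ⊕ Fin n) ⊕ Fin 2) F) :
                Matrix ((Fin n ⊕ Fin n) ⊕ Fin 2) ((Fin n ⊕ Fin n) ⊕ Fin 2) F).map
                  (algebraMap F K))
            * Matrix.toLin'
              (((h : Matrix.GeneralLinearGroup ((Fin n ⊕ Fin n) ⊕ Fin 2) F) :
                Matrix ((Fin n ⊕ Fin n) ⊕ Fin 2) ((Fin n ⊕ Fin n) ⊕ Fin 2) F).map
                  (algebraMap F K))
        rw [Matrix.map_mul, Matrix.toLin'_mul]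
        rfl }
  have hρ : Function.Injective ρ := by
    intro g h hgh
    apply Subtype.ext
    apply Units.ext
    have h1 : ((g : Matrix.GeneralLinearGroup ((Fin n ⊕ Fin n) ⊕ Fin 2) F) :
          Matrix ((Fin n ⊕ Fin n) ⊕ Fin 2) ((Fin n ⊕ Fin n) ⊕ Fin 2) F).map (algebraMap F K)
        = ((h : Matrix.GeneralLinearGroup ((Fin n ⊕ Fin n) ⊕ Fin 2) F) :
          Matrix ((Fin n ⊕ Fin n) ⊕ Fin 2) ((Fin n ⊕ Fin n) ⊕ Fin 2) F).map (algebraMap F K) :=
      Matrix.toLin'.injective hgh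
    exact Matrix.ext (fun i j => (algebraMap F K).injective (congrFun (congrFun h1 i) j))
  have hiso : ∀ (g : ↥(Cfsg.isometryGroup F (Cfsg.quadFormMinus n F a c)))
      (v : (Fin n ⊕ Fin n) ⊕ Fin 2 → K),
      Cfsg.quadFormMinus n K (algebraMap F K a) (algebraMap F K c) (ρ g v)
        = Cfsg.quadFormMinus n K (algebraMap F K a) (algebraMap F K c) v := by
    intro g v
    exact minus_base_change n a c _ (fun u => g.2 u u) v
  have hdim : Module.finrank K ((Fin n ⊕ Fin n) ⊕ Fin 2 → K)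
      = Fintype.card (Fin (n + 1) ⊕ Fin (n + 1)) := by
    rw [Module.finrank_fintype_fun_eq_card]
    simp only [Fintype.card_sum, Fintype.card_fin]
    omega
  exact OrthEmbed.orth_embed' L hLinj hdim (Cfsg.quadFormPlus (n + 1) K)
    (fun v => Cfsg.quadFormMinus n K (algebraMap F K a) (algebraMap F K c) v) hLQ ρ hρ hiso

end OrthBase

end Cfsg.Agent.Helper2
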