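import Mathlib
import Cfsg.Prelude.Def_GeometricClasses
import Cfsg.Agent.Helper2.Parab

/-!
# Coordinate subspaces, the reverse-transpose automorphism of `GL_n`, pull-backs of subspaces
-/

set_option autoImplicit false

namespace Cfsg.Agent.Helper2

namespace Parab

open Matrix

variable {F : Type*} [Field F]

/-- The span of the first `k` coordinate vectors. -/
def Wk (F : Type*) [Field F] (n k : ℕ) : Submodule F (Fin n → F) where
  carrier := {v : Fin n → F | ∀ i : Fin n, k ≤ (i : ℕ) → v i = 0}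
  add_mem' := by
    intro a b ha hb i hi
    show a i + b i = 0
    rw [ha i hi, hb i hi, add_zero]
  zero_mem' := by
    intro i _
    rfl
  smul_mem' := by
    intro c a ha i hi
    show c * a i = 0
    rw [ha i hi, mul_zero]

theorem coe_Wk (n k : ℕ) : ((Wk F n k : Submodule F (Fin n → F)) : Set (Fin n → F))
    = {v : Fin n → F | ∀ i : Fin n, k ≤ (i : ℕ) → v i = 0} := rfl

theorem mem_Wk (n k : ℕ) (v : Fin n → F) :
    v ∈ Wk F n k ↔ ∀ i : Fin n, k ≤ (i : ℕ) → v i = 0 := Iff.rfl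

theorem single_mem_Wk (n k : ℕ) (j : Fin n) (hj : (j : ℕ) < k) (a : F) :
    (Pi.single j a : Fin n → F) ∈ Wk F n k := by
  intro i hi
  have hij : i ≠ j := by
    intro h
    rw [h] at hi
    omega
  exact Pi.single_eq_of_ne hij _

theorem single_not_mem_Wk (n k : ℕ) (j : Fin n) (hj : k ≤ (j : ℕ)) :
    (Pi.single j 1 : Fin n → F) ∉ Wk F n k := by
  intro h
  have h1 : (Pi.single j 1 : Fin n → F) j = 0 := h j hj
  rw [Pi.single_eq_same] at h1
  exact one_ne_zero h1

theorem Wk_ne_top (n k : ℕ) (hkn : k < n) : Wk F n k ≠ ⊤ := by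
  intro h
  apply single_not_mem_Wk (F := F) n k ⟨k, hkn⟩ (le_refl k)
  rw [h]
  exact Submodule.mem_top

theorem Wk_ne_bot (n k : ℕ) (hk0 : 0 < k) (hkn : k < n) : Wk F n k ≠ ⊥ := by
  intro h
  have h1 : (Pi.single (⟨0, by omega⟩ : Fin n) 1 : Fin n → F) ∈ Wk F n k :=
    single_mem_Wk n k _ hk0 1
  rw [h, Submodule.mem_bot] at h1
  have h2 := congrFun h1 ⟨0, by omega⟩
  rw [Pi.single_eq_same] at h2
  exact one_ne_zero h2

theorem Wk_ssubset (n a b : ℕ) (hab : a < b) (hbn : b ≤ n) :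
    (Wk F n a : Set (Fin n → F)) ⊂ (Wk F n b : Set (Fin n → F)) := by
  rw [Set.ssubset_def]
  refine ⟨fun v hv i hi => hv i (by omega), ?_⟩
  intro hsub
  exact single_not_mem_Wk (F := F) n a ⟨a, by omega⟩ (le_refl a)
    (hsub (single_mem_Wk n b ⟨a, by omega⟩ hab 1))

/-! ### Reverse transpose -/

/-- Transpose followed by reversal of the order of the indices. -/
def revTmat {n : ℕ} (A : Matrix (Fin n) (Fin n) F) : Matrix (Fin n) (Fin n) F :=
  (A.transpose).submatrix Fin.revPerm Fin.revPerm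

omit [Field F] in
theorem revTmat_apply {n : ℕ} (A : Matrix (Fin n) (Fin n) F) (i j : Fin n) :
    revTmat A i j = A (Fin.rev j) (Fin.rev i) := rfl

theorem revTmat_mul {n : ℕ} (A B : Matrix (Fin n) (Fin n) F) :
    revTmat A * revTmat B = revTmat (B * A) := by
  unfold revTmat
  rw [Matrix.submatrix_mul_equiv, ← Matrix.transpose_mul]

theorem revTmat_one {n : ℕ} : revTmat (1 : Matrix (Fin n) (Fin n) F) = 1 := by
  unfold revTmat
  rw [Matrix.transpose_one, Matrix.submatrix_one_equiv]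

theorem revTmat_revTmat {n : ℕ} (A : Matrix (Fin n) (Fin n) F) : revTmat (revTmat A) = A := by
  ext i j
  rw [revTmat_apply, revTmat_apply, Fin.rev_rev, Fin.rev_rev]

/-- The automorphism `A ↦ rev (A⁻¹)ᵀ rev` of `GL_n`. -/
def revT {n : ℕ} (A : Matrix.GeneralLinearGroup (Fin n) F) : Matrix.GeneralLinearGroup (Fin n) F :=
  ⟨revTmat ((A⁻¹ : Matrix.GeneralLinearGroup (Fin n) F) : Matrix (Fin n) (Fin n) F),
    revTmat (A : Matrix (Fin n) (Fin n) F),
    by rw [revTmat_mul, Units.mul_inv, revTmat_one],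
    by rw [revTmat_mul, Units.inv_mul, revTmat_one]⟩

theorem revT_val {n : ℕ} (A : Matrix.GeneralLinearGroup (Fin n) F) :
    ((revT A : Matrix.GeneralLinearGroup (Fin n) F) : Matrix (Fin n) (Fin n) F)
      = revTmat ((A⁻¹ : Matrix.GeneralLinearGroup (Fin n) F) : Matrix (Fin n) (Fin n) F) := rfl

theorem revT_inv_val {n : ℕ} (A : Matrix.GeneralLinearGroup (Fin n) F) :
    (((revT A)⁻¹ : Matrix.GeneralLinearGroup (Fin n) F) : Matrix (Fin n) (Fin n) F)
      = revTmat (A : Matrix (Fin n) (Fin n) F) := rfl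

theorem revT_mul {n : ℕ} (A B : Matrix.GeneralLinearGroup (Fin n) F) :
    revT (A * B) = revT A * revT B := by
  apply Units.ext
  rw [Units.val_mul, revT_val, revT_val, revT_val, revTmat_mul, _root_.mul_inv_rev, Units.val_mul]

theorem revT_revT {n : ℕ} (A : Matrix.GeneralLinearGroup (Fin n) F) : revT (revT A) = A := by
  apply Units.ext
  rw [revT_val, revT_inv_val, revTmat_revTmat]

theorem entry_zero_of_stab {n k : ℕ} (A : Matrix.GeneralLinearGroup (Fin n) F)
    (hA : A ∈ Cfsg.stabilizing (Cfsg.glToMat (Fin n) F) (Wk F n k : Set (Fin n → F)))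
    (i j : Fin n) (hi : k ≤ (i : ℕ)) (hj : (j : ℕ) < k) :
    (A : Matrix (Fin n) (Fin n) F) i j = 0 := by
  have h1 := ((mem_stab_iff _ A).1 hA (Pi.single j 1)).1 (single_mem_Wk n k j hj 1)
  have h2 : ((A : Matrix (Fin n) (Fin n) F) *ᵥ Pi.single j 1) i = 0 := h1 i hi
  rw [Matrix.mulVec_single_one] at h2
  exact h2

theorem maps_of_entry_zero {n k : ℕ} (A : Matrix (Fin n) (Fin n) F)
    (hA : ∀ i j : Fin n, k ≤ (i : ℕ) → (j : ℕ) < k → A i j = 0)
    (v : Fin n → F) (hv : v ∈ Wk F n k) : A *ᵥ v ∈ Wk F n k := by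
  intro i hi
  show ∑ j, A i j * v j = 0
  apply Finset.sum_eq_zero
  intro j _
  by_cases hj : (j : ℕ) < k
  · rw [hA i j hi hj, zero_mul]
  · rw [hv j (not_lt.1 hj), mul_zero]

theorem revT_mem {n : ℕ} (k : ℕ) (A : Matrix.GeneralLinearGroup (Fin n) F)
    (hA : A ∈ Cfsg.stabilizing (Cfsg.glToMat (Fin n) F) (Wk F n k : Set (Fin n → F))) :
    revT A ∈ Cfsg.stabilizing (Cfsg.glToMat (Fin n) F) (Wk F n (n - k) : Set (Fin n → F)) := by
  have hA' := Subgroup.inv_mem _ hA
  have e1 : ∀ i j : Fin n, n - k ≤ (i : ℕ) → (j : ℕ) < n - k →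
      revTmat ((A⁻¹ : Matrix.GeneralLinearGroup (Fin n) F) : Matrix (Fin n) (Fin n) F) i j = 0 := by
    intro i j hi hj
    have := i.isLt
    have := j.isLt
    rw [revTmat_apply]
    apply entry_zero_of_stab _ hA'
    · rw [Fin.val_rev]; omega
    · rw [Fin.val_rev]; omega
  have e2 : ∀ i j : Fin n, n - k ≤ (i : ℕ) → (j : ℕ) < n - k →
      revTmat (A : Matrix (Fin n) (Fin n) F) i j = 0 := by
    intro i j hi hj
    have := i.isLt
    have := j.isLt
    rw [revTmat_apply]
    apply entry_zero_of_stab _ hA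
    · rw [Fin.val_rev]; omega
    · rw [Fin.val_rev]; omega
  apply stab_of_maps
  · intro w hw
    rw [revT_val]
    exact maps_of_entry_zero _ e1 w hw
  · intro w hw
    rw [revT_inv_val]
    exact maps_of_entry_zero _ e2 w hw

/-- The stabilisers of the coordinate subspaces of dimensions `k` and `n - k` are isomorphic. -/
def stabEquiv (F : Type*) [Field F] (n k : ℕ) (hkn : k ≤ n) :
    ↥(Cfsg.stabilizing (Cfsg.glToMat (Fin n) F) (Wk F n k : Set (Fin n → F))) ≃*
      ↥(Cfsg.stabilizing (Cfsg.glToMat (Fin n) F) (Wk F n (n - k) : Set (Fin n → F))) where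
  toFun a := ⟨revT a.1, revT_mem k a.1 a.2⟩
  invFun b := ⟨revT b.1, by
    have h := revT_mem (n - k) b.1 b.2
    rw [Nat.sub_sub_self hkn] at h
    exact h⟩
  left_inv a := Subtype.ext (revT_revT _)
  right_inv b := Subtype.ext (revT_revT _)
  map_mul' a b := Subtype.ext (revT_mul _ _)

/-! ### Pull-backs -/

variable {ι : Type} [Fintype ι] [DecidableEq ι]

/-- `g⁻¹ W`. -/
def pull (g : Matrix.GeneralLinearGroup ι F) (W : Submodule F (ι → F)) : Submodule F (ι → F) :=
  W.comap (Matrix.toLin' (g : Matrix ι ι F))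

theorem mem_pull (g : Matrix.GeneralLinearGroup ι F) (W : Submodule F (ι → F)) (v : ι → F) :
    v ∈ pull g W ↔ (g : Matrix ι ι F) *ᵥ v ∈ W := by
  unfold pull
  rw [Submodule.mem_comap, Matrix.toLin'_apply]

theorem stab_pull (g h : Matrix.GeneralLinearGroup ι F) (W : Submodule F (ι → F)) :
    h ∈ Cfsg.stabilizing (Cfsg.glToMat ι F) (pull g W : Set (ι → F)) ↔
      g * h * g⁻¹ ∈ Cfsg.stabilizing (Cfsg.glToMat ι F) (W : Set (ι → F)) := by
  rw [mem_stab_iff, mem_stab_iff]
  constructor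
  · intro H v
    have h1 : (((g⁻¹ : Matrix.GeneralLinearGroup ι F) : Matrix ι ι F) *ᵥ v ∈ pull g W ↔
        (h : Matrix ι ι F) *ᵥ (((g⁻¹ : Matrix.GeneralLinearGroup ι F) : Matrix ι ι F) *ᵥ v)
          ∈ pull g W) := H _
    rw [mem_pull, mem_pull, mulVec_inv_mulVec] at h1
    rw [Units.val_mul, Units.val_mul, ← Matrix.mulVec_mulVec, ← Matrix.mulVec_mulVec]
    exact h1
  · intro H v
    have h1 := H ((g : Matrix ι ι F) *ᵥ v)
    rw [Units.val_mul, Units.val_mul, ← Matrix.mulVec_mulVec, ← Matrix.mulVec_mulVec,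
      inv_mulVec_mulVec] at h1
    show v ∈ pull g W ↔ (h : Matrix ι ι F) *ᵥ v ∈ pull g W
    rw [mem_pull, mem_pull]
    exact h1

/-- The stabilisers of coordinate subspaces of different dimensions `k ≠ n - k` are not conjugate. -/
theorem not_conj [Finite F] (n k : ℕ) (hk0 : 0 < k) (hkn : k < n) (h2 : 2 * k ≠ n)
    (g : Matrix.GeneralLinearGroup (Fin n) F) :
    (Cfsg.stabilizing (Cfsg.glToMat (Fin n) F) (Wk F n k : Set (Fin n → F))).map
      (MulAut.conj g).toMonoidHom ≠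
    Cfsg.stabilizing (Cfsg.glToMat (Fin n) F) (Wk F n (n - k) : Set (Fin n → F)) := by
  intro hmap
  have e1 : Cfsg.stabilizing (Cfsg.glToMat (Fin n) F) (Wk F n k : Set (Fin n → F)) ≤
      Cfsg.stabilizing (Cfsg.glToMat (Fin n) F) (pull g (Wk F n (n - k)) : Set (Fin n → F)) := by
    intro h hh
    rw [stab_pull, ← hmap]
    exact Subgroup.mem_map.2 ⟨h, hh, rfl⟩
  have e2 : Cfsg.stabilizing (Cfsg.glToMat (Fin n) F) (pull g (Wk F n (n - k)) : Set (Fin n → F))
      ≤ Cfsg.stabilizing (Cfsg.glToMat (Fin n) F) (Wk F n k : Set (Fin n → F)) := by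
    intro h hh
    rw [stab_pull, ← hmap] at hh
    obtain ⟨h₀, hh₀, he⟩ := Subgroup.mem_map.1 hh
    have he' : g * h₀ * g⁻¹ = g * h * g⁻¹ := he
    have h3 : h₀ = h := mul_left_cancel (mul_right_cancel he')
    rw [← h3]
    exact hh₀
  have hp1 : pull g (Wk F n (n - k)) ≠ ⊤ := by
    intro ht
    have h3 : ((g⁻¹ : Matrix.GeneralLinearGroup (Fin n) F) : Matrix (Fin n) (Fin n) F) *ᵥ
        (Pi.single (⟨n - k, by omega⟩ : Fin n) 1 : Fin n → F) ∈ pull g (Wk F n (n - k)) := by
      rw [ht]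
      exact Submodule.mem_top
    rw [mem_pull, mulVec_inv_mulVec] at h3
    exact single_not_mem_Wk (F := F) n (n - k) ⟨n - k, by omega⟩ (le_refl _) h3
  have heq : pull g (Wk F n (n - k)) = Wk F n k :=
    le_antisymm (le_of_stab_le (Wk F n k) _ hp1 e1)
      (le_of_stab_le _ (Wk F n k) (Wk_ne_top n k hkn) e2)
  have himg : (fun v : Fin n → F => (g : Matrix (Fin n) (Fin n) F) *ᵥ v) ''
      (Wk F n k : Set (Fin n → F)) = (Wk F n (n - k) : Set (Fin n → F)) := by
    ext w
    constructor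
    · rintro ⟨v, hv, rfl⟩
      have hv' : v ∈ pull g (Wk F n (n - k)) := by
        rw [heq]
        exact hv
      exact (mem_pull g _ v).1 hv'
    · intro hw
      refine ⟨((g⁻¹ : Matrix.GeneralLinearGroup (Fin n) F) : Matrix (Fin n) (Fin n) F) *ᵥ w, ?_,
        mulVec_inv_mulVec g w⟩
      have hv' : ((g⁻¹ : Matrix.GeneralLinearGroup (Fin n) F) : Matrix (Fin n) (Fin n) F) *ᵥ w
          ∈ pull g (Wk F n (n - k)) := by
        rw [mem_pull, mulVec_inv_mulVec]
        exact hw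
      rw [heq] at hv'
      exact hv'
  have hcard : Set.ncard (Wk F n k : Set (Fin n → F))
      = Set.ncard (Wk F n (n - k) : Set (Fin n → F)) := by
    rw [← himg]
    exact (Set.ncard_image_of_injective _ (fun a b hab => gl_mulVec_inj g hab)).symm
  have hne : k ≠ n - k := by omega
  rcases lt_or_gt_of_ne hne with hlt | hgt
  · have h4 := Set.ncard_lt_ncard (Wk_ssubset (F := F) n k (n - k) hlt (by omega))
      (Set.toFinite _)
    omega
  · have h4 := Set.ncard_lt_ncard (Wk_ssubset (F := F) n (n - k) k hgt (by omega))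
      (Set.toFinite _)
    omega

end Parab

end Cfsg.Agent.Helper2
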