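import Mathlib

set_option autoImplicit false

namespace Cfsg.Agent.Helper2.QCount

variable {F : Type*} [Field F] [Fintype F] {ι : Type*} [Fintype ι]

theorem card_dot_mul [DecidableEq ι] (x : ι → F) (hx : x ≠ 0) (c : F) :
    Nat.card {y : ι → F // ∑ i, x i * y i = c} * Fintype.card F
      = Fintype.card F ^ Fintype.card ι := by
  obtain ⟨i0, hi0⟩ := Function.ne_iff.1 hx
  rw [Pi.zero_apply] at hi0
  have hu : ∑ i, x i * (Pi.single i0 (x i0)⁻¹ : ι → F) i = 1 := by
    rw [Finset.sum_eq_single i0]
    · rw [Pi.single_eq_same, mul_inv_cancel₀ hi0]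
    · intro j _ hj
      rw [Pi.single_eq_of_ne hj, mul_zero]
    · intro h
      exact absurd (Finset.mem_univ _) h
  have hfib : ∀ c' : F, Nat.card {y : ι → F // ∑ i, x i * y i = c'}
      = Nat.card {y : ι → F // ∑ i, x i * y i = c} := by
    intro c'
    apply Nat.card_congr
    refine (Equiv.addRight ((c - c') • (Pi.single i0 (x i0)⁻¹ : ι → F))).subtypeEquiv ?_
    intro y
    have : ∑ i, x i * (y + (c - c') • (Pi.single i0 (x i0)⁻¹ : ι → F)) i
        = ∑ i, x i * y i + (c - c') := by
      simp only [Pi.add_apply, Pi.smul_apply, smul_eq_mul, mul_add, Finset.sum_add_distrib]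
      congr 1
      calc ∑ i, x i * ((c - c') * (Pi.single i0 (x i0)⁻¹ : ι → F) i)
          = (c - c') * ∑ i, x i * (Pi.single i0 (x i0)⁻¹ : ι → F) i := by
            rw [Finset.mul_sum]
            apply Finset.sum_congr rfl
            intro i _
            ring
        _ = c - c' := by rw [hu, mul_one]
    show (∑ i, x i * y i = c') ↔
      (∑ i, x i * (y + (c - c') • (Pi.single i0 (x i0)⁻¹ : ι → F)) i = c)
    rw [this]
    constructor
    · intro h; rw [h]; ring
    · intro h; linear_combination h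
  have htot : Fintype.card (ι → F)
      = ∑ c' : F, Nat.card {y : ι → F // ∑ i, x i * y i = c'} := by
    rw [← Nat.card_eq_fintype_card, ← Nat.card_sigma]
    exact Nat.card_congr (Equiv.sigmaFiberEquiv (fun y : ι → F => ∑ i, x i * y i)).symm
  rw [Fintype.card_fun] at htot
  rw [htot, Finset.sum_congr rfl (fun c' _ => hfib c'), Finset.sum_const, Finset.card_univ,
    smul_eq_mul, mul_comm]

/-- fibers of a nonzero linear functional -/
theorem card_ne (x : ι → F) (hx : x ≠ 0) (P : F → Prop) (c : F) (hP : ∀ s, P s ↔ s = c) :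
    Nat.card {y : ι → F // P (∑ i, x i * y i)} = Fintype.card F ^ (Fintype.card ι - 1) := by
  classical
  have h1 : Nat.card {y : ι → F // P (∑ i, x i * y i)}
      = Nat.card {y : ι → F // ∑ i, x i * y i = c} :=
    Nat.card_congr (Equiv.subtypeEquivRight (fun y => hP _))
  have h2 := card_dot_mul x hx c
  obtain ⟨i0, -⟩ := Function.ne_iff.1 hx
  have hpos : 0 < Fintype.card ι := Fintype.card_pos_iff.2 ⟨i0⟩
  have hq : 0 < Fintype.card F := Fintype.card_pos
  have h3 : Fintype.card F ^ Fintype.card ι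
      = Fintype.card F ^ (Fintype.card ι - 1) * Fintype.card F := by
    rw [← pow_succ]
    congr 1
    omega
  rw [h1]
  rw [h3] at h2
  exact Nat.eq_of_mul_eq_mul_right hq h2

theorem card_zero_pos (P : F → Prop) (hP : P 0) :
    Nat.card {y : ι → F // P (∑ i, (0 : ι → F) i * y i)}
      = Fintype.card F ^ Fintype.card ι := by
  classical
  rw [← Fintype.card_fun, ← Nat.card_eq_fintype_card]
  exact Nat.card_congr (Equiv.subtypeUnivEquiv (fun y => by simpa using hP))

theorem card_zero_neg (P : F → Prop) (hP : ¬ P 0) :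
    Nat.card {y : ι → F // P (∑ i, (0 : ι → F) i * y i)} = 0 := by
  have : IsEmpty {y : ι → F // P (∑ i, (0 : ι → F) i * y i)} :=
    ⟨fun y => hP (by simpa using y.2)⟩
  exact Nat.card_of_isEmpty

theorem sum_split [DecidableEq ι] (f : (ι → F) → ℕ) (A B : ℕ) (h0 : f 0 = A)
    (h1 : ∀ x, x ≠ 0 → f x = B) :
    ∑ x, f x = A + (Fintype.card F ^ Fintype.card ι - 1) * B := by
  classical
  have hs : ∑ x ∈ (Finset.univ : Finset (ι → F)).erase 0, f x
      = ∑ _x ∈ (Finset.univ : Finset (ι → F)).erase 0, B :=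
    Finset.sum_congr rfl (fun x hx => h1 x (Finset.ne_of_mem_erase hx))
  rw [← Finset.add_sum_erase Finset.univ f (Finset.mem_univ (0 : ι → F)), h0, hs,
    Finset.sum_const, Finset.card_erase_of_mem (Finset.mem_univ _), Finset.card_univ,
    Fintype.card_fun, smul_eq_mul]

end Cfsg.Agent.Helper2.QCount
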