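import Mathlib
import Cfsg.Prelude.Def_Classical

/-!
# Quadratic forms over the field of two elements polarising to the standard alternating form

For `Q₀ = quadFormPlus m (ZMod 2)` with polar form `Bp`, every function `q` with
`q (u + v) = q u + q v + Bp u v` is `Phi a = Q₀ + Bp · a` for a unique `a`; it is of plus type
iff `Q₀ a = 0` and of minus type iff `Q₀ a = 1` (one symplectic transvection does it:
`Phi a ∘ t_b = Phi (a + b)` whenever `Q₀ (a + b) = Q₀ a`).
-/

set_option autoImplicit false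

namespace Cfsg.Agent.Helper2

namespace QuadF2

/-- the ambient space -/
abbrev V (m : ℕ) : Type := Fin m ⊕ Fin m → ZMod 2

theorem two_zero : (2 : ZMod 2) = 0 := by decide

theorem sq_self (c : ZMod 2) : c * c = c := by
  revert c; decide

theorem zero_or_one (c : ZMod 2) : c = 0 ∨ c = 1 := by
  revert c; decide

/-- polar form of `quadFormPlus` -/
noncomputable def Bp (m : ℕ) : V m →ₗ[ZMod 2] V m →ₗ[ZMod 2] ZMod 2 :=
  LinearMap.mk₂ (ZMod 2)
    (fun u w => ∑ i : Fin m, (u (Sum.inl i) * w (Sum.inr i) + w (Sum.inl i) * u (Sum.inr i)))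
    (by
      intro u u' w
      rw [← Finset.sum_add_distrib]
      apply Finset.sum_congr rfl
      intro i _
      simp only [Pi.add_apply]
      ring)
    (by
      intro c u w
      rw [smul_eq_mul, Finset.mul_sum]
      apply Finset.sum_congr rfl
      intro i _
      simp only [Pi.smul_apply, smul_eq_mul]
      ring)
    (by
      intro u w w'
      rw [← Finset.sum_add_distrib]
      apply Finset.sum_congr rfl
      intro i _
      simp only [Pi.add_apply]
      ring)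
    (by
      intro c u w
      rw [smul_eq_mul, Finset.mul_sum]
      apply Finset.sum_congr rfl
      intro i _
      simp only [Pi.smul_apply, smul_eq_mul]
      ring)

theorem Bp_apply (m : ℕ) (u w : V m) :
    Bp m u w = ∑ i : Fin m, (u (Sum.inl i) * w (Sum.inr i) + w (Sum.inl i) * u (Sum.inr i)) :=
  rfl

theorem polar (m : ℕ) (u w : V m) :
    Cfsg.quadFormPlus m (ZMod 2) (u + w)
      = Cfsg.quadFormPlus m (ZMod 2) u + Cfsg.quadFormPlus m (ZMod 2) w + Bp m u w := by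
  show ∑ i : Fin m, (u + w) (Sum.inl i) * (u + w) (Sum.inr i)
      = ∑ i : Fin m, u (Sum.inl i) * u (Sum.inr i) + ∑ i : Fin m, w (Sum.inl i) * w (Sum.inr i)
        + ∑ i : Fin m, (u (Sum.inl i) * w (Sum.inr i) + w (Sum.inl i) * u (Sum.inr i))
  rw [← Finset.sum_add_distrib, ← Finset.sum_add_distrib]
  apply Finset.sum_congr rfl
  intro i _
  simp only [Pi.add_apply]
  ring

theorem polar_eq (m : ℕ) (u w : V m) :
    Cfsg.quadFormPlus m (ZMod 2) (u + w) - Cfsg.quadFormPlus m (ZMod 2) u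
      - Cfsg.quadFormPlus m (ZMod 2) w = Bp m u w := by
  rw [polar]; ring

theorem Bp_self (m : ℕ) (u : V m) : Bp m u u = 0 := by
  rw [Bp_apply]
  apply Finset.sum_eq_zero
  intro i _
  linear_combination (u (Sum.inl i) * u (Sum.inr i)) * two_zero

theorem Bp_symm (m : ℕ) (u w : V m) : Bp m u w = Bp m w u := by
  rw [Bp_apply, Bp_apply]
  apply Finset.sum_congr rfl
  intro i _
  ring

theorem Q_smul (m : ℕ) (c : ZMod 2) (b : V m) :
    Cfsg.quadFormPlus m (ZMod 2) (c • b) = c * Cfsg.quadFormPlus m (ZMod 2) b := by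
  show ∑ i : Fin m, (c • b) (Sum.inl i) * (c • b) (Sum.inr i)
      = c * ∑ i : Fin m, b (Sum.inl i) * b (Sum.inr i)
  rw [Finset.mul_sum]
  apply Finset.sum_congr rfl
  intro i _
  simp only [Pi.smul_apply, smul_eq_mul]
  linear_combination (b (Sum.inl i) * b (Sum.inr i)) * sq_self c

theorem Q_zero (m : ℕ) : Cfsg.quadFormPlus m (ZMod 2) (0 : V m) = 0 := by
  show ∑ i : Fin m, (0 : V m) (Sum.inl i) * (0 : V m) (Sum.inr i) = 0
  apply Finset.sum_eq_zero
  intro i _
  rw [Pi.zero_apply, zero_mul]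

theorem add_self (m : ℕ) (u : V m) : u + u = 0 := by
  funext j
  show u j + u j = 0
  linear_combination (u j) * two_zero

/-- the form `Q₀ + B(·, a)` -/
noncomputable def Phi (m : ℕ) (a : V m) : V m → ZMod 2 :=
  fun v => Cfsg.quadFormPlus m (ZMod 2) v + Bp m v a

theorem Phi_apply (m : ℕ) (a v : V m) :
    Phi m a v = Cfsg.quadFormPlus m (ZMod 2) v + Bp m v a := rfl

theorem Phi_quad (m : ℕ) (a u w : V m) :
    Phi m a (u + w) = Phi m a u + Phi m a w + Bp m u w := by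
  rw [Phi_apply, Phi_apply, Phi_apply, polar, map_add, LinearMap.add_apply]
  ring

theorem Phi_eq (m : ℕ) (a v : V m) :
    Phi m a v = Cfsg.quadFormPlus m (ZMod 2) (v + a) + Cfsg.quadFormPlus m (ZMod 2) a := by
  rw [Phi_apply, polar]
  linear_combination (-(Cfsg.quadFormPlus m (ZMod 2) a)) * two_zero

/-- the symplectic transvection `v ↦ v + B(v, b) b` -/
noncomputable def tv (m : ℕ) (b : V m) : V m →ₗ[ZMod 2] V m :=
  LinearMap.id + ((Bp m).flip b).smulRight b

theorem tv_apply (m : ℕ) (b v : V m) : tv m b v = v + Bp m v b • b := rfl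

theorem tv_tv (m : ℕ) (b v : V m) : tv m b (tv m b v) = v := by
  rw [tv_apply, tv_apply]
  have h1 : Bp m (v + Bp m v b • b) b = Bp m v b := by
    rw [map_add, LinearMap.add_apply, map_smul, LinearMap.smul_apply, Bp_self, smul_zero,
      add_zero]
  rw [h1, add_assoc, ← add_smul]
  have h2 : Bp m v b + Bp m v b = 0 := by linear_combination (Bp m v b) * two_zero
  rw [h2, zero_smul, add_zero]

/-- the transvection as a linear equivalence -/
noncomputable def tvE (m : ℕ) (b : V m) : V m ≃ₗ[ZMod 2] V m :=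
  { tv m b with
    invFun := tv m b
    left_inv := tv_tv m b
    right_inv := tv_tv m b }

theorem tvE_apply (m : ℕ) (b v : V m) : tvE m b v = tv m b v := rfl

theorem Phi_tv (m : ℕ) (a b : V m)
    (h : Cfsg.quadFormPlus m (ZMod 2) (a + b) = Cfsg.quadFormPlus m (ZMod 2) a) (v : V m) :
    Phi m a (tv m b v) = Phi m (a + b) v := by
  have hb : Cfsg.quadFormPlus m (ZMod 2) b + Bp m a b = 0 := by
    have h1 := polar m a b
    rw [h] at h1
    linear_combination (-1 : ZMod 2) * h1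
  have e1 : Cfsg.quadFormPlus m (ZMod 2) (v + Bp m v b • b)
      = Cfsg.quadFormPlus m (ZMod 2) v + Bp m v b * Cfsg.quadFormPlus m (ZMod 2) b
        + Bp m v b * Bp m v b := by
    rw [polar, Q_smul, map_smul, smul_eq_mul]
  have e2 : Bp m (v + Bp m v b • b) a = Bp m v a + Bp m v b * Bp m b a := by
    rw [map_add, LinearMap.add_apply, map_smul, LinearMap.smul_apply, smul_eq_mul]
  have e3 : Bp m v (a + b) = Bp m v a + Bp m v b := map_add _ _ _
  rw [Phi_apply, Phi_apply, tv_apply, e1, e2, e3]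
  linear_combination (Bp m v b) * hb + sq_self (Bp m v b) + (Bp m v b) * (Bp_symm m b a)

theorem plus_of_zero (m : ℕ) (a : V m) (ha : Cfsg.quadFormPlus m (ZMod 2) a = 0) :
    ∃ g : V m ≃ₗ[ZMod 2] V m, ∀ v, Phi m a v = Cfsg.quadFormPlus m (ZMod 2) (g v) := by
  refine ⟨tvE m a, fun v => ?_⟩
  have h := Phi_tv m 0 a (by rw [zero_add, ha, Q_zero]) v
  rw [zero_add] at h
  rw [← h, tvE_apply, Phi_apply, map_zero, add_zero]

/-- index bookkeeping for the minus form -/
def idx (n : ℕ) : (Fin n ⊕ Fin n) ⊕ Fin 2 → Fin (n + 1) ⊕ Fin (n + 1)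
  | Sum.inl (Sum.inl i) => Sum.inl i.castSucc
  | Sum.inl (Sum.inr i) => Sum.inr i.castSucc
  | Sum.inr 0 => Sum.inl (Fin.last n)
  | Sum.inr 1 => Sum.inr (Fin.last n)

/-- inverse of `idx` -/
def idxInv (n : ℕ) : Fin (n + 1) ⊕ Fin (n + 1) → (Fin n ⊕ Fin n) ⊕ Fin 2
  | Sum.inl i => Fin.lastCases (Sum.inr 0) (fun i' => Sum.inl (Sum.inl i')) i
  | Sum.inr i => Fin.lastCases (Sum.inr 1) (fun i' => Sum.inl (Sum.inr i')) i

/-- `idx` as an equivalence -/
def idxE (n : ℕ) : (Fin n ⊕ Fin n) ⊕ Fin 2 ≃ Fin (n + 1) ⊕ Fin (n + 1) where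
  toFun := idx n
  invFun := idxInv n
  left_inv := by
    rintro ((i | i) | j)
    · simp [idx, idxInv]
    · simp [idx, idxInv]
    · revert j
      rw [Fin.forall_fin_two]
      constructor <;> simp [idx, idxInv]
  right_inv := by
    rintro (i | i)
    · induction i using Fin.lastCases with
      | last => simp [idx, idxInv]
      | cast i => simp [idx, idxInv]
    · induction i using Fin.lastCases with
      | last => simp [idx, idxInv]
      | cast i => simp [idx, idxInv]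

/-- the reference nonsingular vector -/
def a0 (n : ℕ) : V (n + 1) := fun j =>
  Sum.elim (fun i => if i = Fin.last n then 1 else 0) (fun i => if i = Fin.last n then 1 else 0) j

theorem a0_inl (n : ℕ) (i : Fin (n + 1)) :
    a0 n (Sum.inl i) = if i = Fin.last n then 1 else 0 := rfl

theorem a0_inr (n : ℕ) (i : Fin (n + 1)) :
    a0 n (Sum.inr i) = if i = Fin.last n then 1 else 0 := rfl

theorem Q_a0 (n : ℕ) : Cfsg.quadFormPlus (n + 1) (ZMod 2) (a0 n) = 1 := by
  show ∑ i : Fin (n + 1), a0 n (Sum.inl i) * a0 n (Sum.inr i) = 1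
  rw [Finset.sum_eq_single (Fin.last n)]
  · rw [a0_inl, a0_inr, if_pos rfl, mul_one]
  · intro i _ hi
    rw [a0_inl, if_neg hi, zero_mul]
  · intro h; exact absurd (Finset.mem_univ _) h

theorem Phi_a0 (n : ℕ) (v : V (n + 1)) :
    Phi (n + 1) (a0 n) v = Cfsg.quadFormMinus n (ZMod 2) 1 1 (fun j => v (idx n j)) := by
  have hB : Bp (n + 1) v (a0 n) = v (Sum.inl (Fin.last n)) + v (Sum.inr (Fin.last n)) := by
    rw [Bp_apply, Finset.sum_eq_single (Fin.last n)]
    · rw [a0_inl, a0_inr, if_pos rfl]; ring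
    · intro i _ hi
      rw [a0_inl, a0_inr, if_neg hi]; ring
    · intro h; exact absurd (Finset.mem_univ _) h
  rw [Phi_apply, hB]
  show (∑ i : Fin (n + 1), v (Sum.inl i) * v (Sum.inr i))
        + (v (Sum.inl (Fin.last n)) + v (Sum.inr (Fin.last n)))
      = (∑ i : Fin n, v (Sum.inl i.castSucc) * v (Sum.inr i.castSucc))
        + (v (Sum.inl (Fin.last n)) ^ 2
          + 1 * v (Sum.inl (Fin.last n)) * v (Sum.inr (Fin.last n))
          + 1 * v (Sum.inr (Fin.last n)) ^ 2)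
  rw [Fin.sum_univ_castSucc]
  linear_combination (-1 : ZMod 2) * sq_self (v (Sum.inl (Fin.last n)))
    + (-1 : ZMod 2) * sq_self (v (Sum.inr (Fin.last n)))

theorem minus_of_one (n : ℕ) (a : V (n + 1)) (ha : Cfsg.quadFormPlus (n + 1) (ZMod 2) a = 1) :
    ∃ g : V (n + 1) ≃ₗ[ZMod 2] ((Fin n ⊕ Fin n) ⊕ Fin 2 → ZMod 2),
      ∀ v, Phi (n + 1) a v = Cfsg.quadFormMinus n (ZMod 2) 1 1 (g v) := by
  have hsum : a0 n + (a0 n + a) = a := by
    rw [← add_assoc, add_self, zero_add]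
  refine ⟨(tvE (n + 1) (a0 n + a)).trans
    (LinearEquiv.funCongrLeft (ZMod 2) (ZMod 2) (idxE n)), fun v => ?_⟩
  have h := Phi_tv (n + 1) (a0 n) (a0 n + a) (by rw [hsum, ha, Q_a0]) v
  rw [hsum] at h
  rw [← h, Phi_a0]
  rfl

theorem Bp_single_inl (m : ℕ) (i : Fin m) (a : V m) :
    Bp m (Pi.single (Sum.inl i) 1) a = a (Sum.inr i) := by
  have h2 : ∀ k : Fin m, (Sum.inr k : Fin m ⊕ Fin m) ≠ Sum.inl i := fun k => Sum.inr_ne_inl
  rw [Bp_apply, Finset.sum_eq_single i]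
  · rw [Pi.single_eq_same, Pi.single_eq_of_ne (h2 i), one_mul, mul_zero, add_zero]
  · intro k _ hk
    have h1 : (Sum.inl k : Fin m ⊕ Fin m) ≠ Sum.inl i := fun h => hk (Sum.inl.inj h)
    rw [Pi.single_eq_of_ne h1, Pi.single_eq_of_ne (h2 k), zero_mul, mul_zero, add_zero]
  · intro h; exact absurd (Finset.mem_univ _) h

theorem Bp_single_inr (m : ℕ) (i : Fin m) (a : V m) :
    Bp m (Pi.single (Sum.inr i) 1) a = a (Sum.inl i) := by
  have h2 : ∀ k : Fin m, (Sum.inl k : Fin m ⊕ Fin m) ≠ Sum.inr i := fun k => Sum.inl_ne_inr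
  rw [Bp_apply, Finset.sum_eq_single i]
  · rw [Pi.single_eq_same, Pi.single_eq_of_ne (h2 i), zero_mul, mul_one, zero_add]
  · intro k _ hk
    have h1 : (Sum.inr k : Fin m ⊕ Fin m) ≠ Sum.inr i := fun h => hk (Sum.inr.inj h)
    rw [Pi.single_eq_of_ne h1, Pi.single_eq_of_ne (h2 k), zero_mul, mul_zero, add_zero]
  · intro h; exact absurd (Finset.mem_univ _) h

theorem Q_single (m : ℕ) (j : Fin m ⊕ Fin m) :
    Cfsg.quadFormPlus m (ZMod 2) (Pi.single j 1) = 0 := by
  show ∑ k : Fin m, (Pi.single j (1 : ZMod 2) : V m) (Sum.inl k)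
      * (Pi.single j (1 : ZMod 2) : V m) (Sum.inr k) = 0
  apply Finset.sum_eq_zero
  intro k _
  rcases j with i | i
  · have h2 : (Sum.inr k : Fin m ⊕ Fin m) ≠ Sum.inl i := Sum.inr_ne_inl
    rw [Pi.single_eq_of_ne h2, mul_zero]
  · have h2 : (Sum.inl k : Fin m ⊕ Fin m) ≠ Sum.inr i := Sum.inl_ne_inr
    rw [Pi.single_eq_of_ne h2, zero_mul]

theorem additive_zero {ι : Type*} [Fintype ι] [DecidableEq ι] (d : (ι → ZMod 2) → ZMod 2)
    (hadd : ∀ u v, d (u + v) = d u + d v) (hb : ∀ i, d (Pi.single i 1) = 0)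
    (v : ι → ZMod 2) : d v = 0 := by
  have h0 : d 0 = 0 := by
    have h := hadd 0 0
    rw [add_zero] at h
    linear_combination (-1 : ZMod 2) * h
  let D : (ι → ZMod 2) →+ ZMod 2 := AddMonoidHom.mk' d hadd
  have hD : ∀ w, d w = D w := fun w => rfl
  rw [hD, ← Finset.univ_sum_single v, map_sum]
  apply Finset.sum_eq_zero
  intro i _
  rw [← hD]
  rcases zero_or_one (v i) with h | h
  · rw [h, Pi.single_zero]; exact h0
  · rw [h]; exact hb i

/-- every quadratic function polarising to `Bp` is some `Phi a`, with `a` explicit -/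
theorem rep (m : ℕ) (q : V m → ZMod 2)
    (hq : ∀ u v, q (u + v) = q u + q v + Bp m u v) (v : V m) :
    q v = Phi m (fun j => q (Pi.single (Sum.swap j) 1)) v := by
  have hd := additive_zero (fun v => q v + Cfsg.quadFormPlus m (ZMod 2) v
    + Bp m v (fun j => q (Pi.single (Sum.swap j) 1))) ?_ ?_ v
  · have hd' : q v + Cfsg.quadFormPlus m (ZMod 2) v
        + Bp m v (fun j => q (Pi.single (Sum.swap j) 1)) = 0 := hd
    rw [Phi_apply]
    linear_combination hd' - (Cfsg.quadFormPlus m (ZMod 2) v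
      + Bp m v (fun j => q (Pi.single (Sum.swap j) 1))) * two_zero
  · intro u w
    rw [hq, polar, map_add, LinearMap.add_apply]
    linear_combination (Bp m u w) * two_zero
  · intro j
    rw [Q_single, add_zero]
    rcases j with i | i
    · rw [Bp_single_inl]
      show q (Pi.single (Sum.inl i) 1) + q (Pi.single (Sum.inl i) 1) = 0
      linear_combination (q (Pi.single (Sum.inl i) 1)) * two_zero
    · rw [Bp_single_inr]
      show q (Pi.single (Sum.inr i) 1) + q (Pi.single (Sum.inr i) 1) = 0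
      linear_combination (q (Pi.single (Sum.inr i) 1)) * two_zero

theorem Phi_inj (m : ℕ) : Function.Injective (Phi m) := by
  intro a a' h
  funext j
  rcases j with i | i
  · have h1 := congrFun h (Pi.single (Sum.inr i) 1)
    rw [Phi_apply, Phi_apply, Bp_single_inr, Bp_single_inr] at h1
    exact add_left_cancel h1
  · have h1 := congrFun h (Pi.single (Sum.inl i) 1)
    rw [Phi_apply, Phi_apply, Bp_single_inl, Bp_single_inl] at h1
    exact add_left_cancel h1

/-- the statement's polarisation condition -/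
def IsPol (m : ℕ) (q : V m → ZMod 2) : Prop :=
  ∀ u v : V m, q (u + v) = q u + q v + (Cfsg.quadFormPlus m (ZMod 2) (u + v)
    - Cfsg.quadFormPlus m (ZMod 2) u - Cfsg.quadFormPlus m (ZMod 2) v)

theorem Phi_pol (m : ℕ) (a : V m) : IsPol m (Phi m a) := by
  intro u v
  rw [polar_eq]
  exact Phi_quad m a u v

theorem exists_rep (m : ℕ) (q : V m → ZMod 2) (hq : IsPol m q) : ∃ a, q = Phi m a :=
  ⟨_, funext (rep m q (fun u v => by rw [hq u v, polar_eq]))⟩

/-- parametrisation of the forms polarising to `Bp` -/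
noncomputable def PsiE (m : ℕ) : V m ≃ {q : V m → ZMod 2 // IsPol m q} :=
  Equiv.ofBijective (fun a => ⟨Phi m a, Phi_pol m a⟩)
    ⟨fun a a' h => Phi_inj m (congrArg Subtype.val h), fun ⟨q, hq⟩ => by
      obtain ⟨a, ha⟩ := exists_rep m q hq
      exact ⟨a, Subtype.ext ha.symm⟩⟩

theorem card_V (m : ℕ) : Nat.card (V m) = 2 ^ (2 * m) := by
  rw [Nat.card_eq_fintype_card, Fintype.card_fun, ZMod.card, Fintype.card_sum, Fintype.card_fin,
    two_mul]

theorem main1 (m : ℕ) : Nat.card {q : V m → ZMod 2 // IsPol m q} = 2 ^ (2 * m) := by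
  rw [← Nat.card_congr (PsiE m), card_V]

theorem card_split {α : Type*} [Finite α] (φ : α → ZMod 2) :
    Nat.card {y // φ y = 0} + Nat.card {y // φ y = 1} = Nat.card α := by
  classical
  have e : {y // φ y = 1} ≃ {y // ¬ φ y = 0} := Equiv.subtypeEquivRight (fun y => by
    have h : ∀ c : ZMod 2, c = 1 ↔ ¬ c = 0 := by decide
    exact h (φ y))
  rw [Nat.card_congr e, ← Nat.card_sum]
  exact Nat.card_congr (Equiv.sumCompl (fun y => φ y = 0))

theorem card_half {α : Type*} [Finite α] (φ : α → ZMod 2) (τ : α ≃ α)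
    (hτ : ∀ y, φ (τ y) = φ y + 1) : 2 * Nat.card {y // φ y = 0} = Nat.card α := by
  have e : {y // φ y = 0} ≃ {y // φ y = 1} := τ.subtypeEquiv (fun y => by
    rw [hτ]
    constructor
    · intro h; rw [h, zero_add]
    · intro h; linear_combination h)
  have h := card_split φ
  rw [← Nat.card_congr e] at h
  omega

theorem card_perp (m : ℕ) (x : Fin m → ZMod 2) (hx : x ≠ 0) :
    2 * Nat.card {y : Fin m → ZMod 2 // ∑ i, x i * y i = 0} = 2 ^ m := by
  obtain ⟨i, hi⟩ : ∃ i, x i ≠ 0 := by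
    by_contra h
    exact hx (funext fun i => by_contra fun hi => h ⟨i, hi⟩)
  have hi1 : x i = 1 := by
    rcases zero_or_one (x i) with h | h
    · exact absurd h hi
    · exact h
  have hτ : ∀ y : Fin m → ZMod 2,
      ∑ j, x j * (Equiv.addRight (Pi.single i (1 : ZMod 2) : Fin m → ZMod 2) y) j
        = ∑ j, x j * y j + 1 := by
    intro y
    have h1 : ∀ j, x j * (Equiv.addRight (Pi.single i (1 : ZMod 2) : Fin m → ZMod 2) y) j
        = x j * y j + x j * (Pi.single i (1 : ZMod 2) : Fin m → ZMod 2) j := by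
      intro j
      show x j * (y j + (Pi.single i (1 : ZMod 2) : Fin m → ZMod 2) j) = _
      rw [mul_add]
    rw [Finset.sum_congr rfl (fun j _ => h1 j), Finset.sum_add_distrib]
    congr 1
    rw [Finset.sum_eq_single i (fun j _ hj => by rw [Pi.single_eq_of_ne hj, mul_zero])
      (fun h => absurd (Finset.mem_univ i) h), Pi.single_eq_same, mul_one, hi1]
  refine (card_half (fun y : Fin m → ZMod 2 => ∑ j, x j * y j)
    (Equiv.addRight (Pi.single i (1 : ZMod 2) : Fin m → ZMod 2)) hτ).trans ?_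
  rw [Nat.card_eq_fintype_card, Fintype.card_fun, ZMod.card, Fintype.card_fin]

theorem card_zero (m : ℕ) (hm : 1 ≤ m) :
    Nat.card {v : V m // Cfsg.quadFormPlus m (ZMod 2) v = 0} = 2 ^ (2 * m - 1) + 2 ^ (m - 1) := by
  obtain ⟨n, rfl⟩ : ∃ n, m = n + 1 := ⟨m - 1, by omega⟩
  have e1 : {v : V (n + 1) // Cfsg.quadFormPlus (n + 1) (ZMod 2) v = 0}
      ≃ {p : (Fin (n + 1) → ZMod 2) × (Fin (n + 1) → ZMod 2) // ∑ i, p.1 i * p.2 i = 0} :=
    (Equiv.sumArrowEquivProdArrow (Fin (n + 1)) (Fin (n + 1)) (ZMod 2)).subtypeEquiv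
      (fun v => Iff.rfl)
  have e2 : {p : (Fin (n + 1) → ZMod 2) × (Fin (n + 1) → ZMod 2) // ∑ i, p.1 i * p.2 i = 0}
      ≃ Σ x : Fin (n + 1) → ZMod 2, {y : Fin (n + 1) → ZMod 2 // ∑ i, x i * y i = 0} :=
    Equiv.subtypeProdEquivSigmaSubtype
      (fun (x y : Fin (n + 1) → ZMod 2) => ∑ i, x i * y i = 0)
  have e0 : {y : Fin (n + 1) → ZMod 2 // ∑ i, (0 : Fin (n + 1) → ZMod 2) i * y i = 0}
      ≃ (Fin (n + 1) → ZMod 2) := Equiv.subtypeUnivEquiv (fun y => by simp)
  have hterm : ∀ x : Fin (n + 1) → ZMod 2,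
      Nat.card {y : Fin (n + 1) → ZMod 2 // ∑ i, x i * y i = 0}
        = if x = 0 then 2 ^ (n + 1) else 2 ^ n := by
    intro x
    split_ifs with hx
    · subst hx
      rw [Nat.card_congr e0, Nat.card_eq_fintype_card, Fintype.card_fun, ZMod.card,
        Fintype.card_fin]
    · have h := card_perp (n + 1) x hx
      exact Nat.eq_of_mul_eq_mul_left (by norm_num) (h.trans (pow_succ' 2 n))
  have hsum : ∑ x : Fin (n + 1) → ZMod 2, (if x = 0 then 2 ^ (n + 1) else 2 ^ n)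
      = 2 ^ (n + 1) + (2 ^ (n + 1) - 1) * 2 ^ n := by
    rw [← Finset.add_sum_erase Finset.univ _ (Finset.mem_univ (0 : Fin (n + 1) → ZMod 2)),
      if_pos rfl]
    congr 1
    have h2 : ∑ x ∈ (Finset.univ : Finset (Fin (n + 1) → ZMod 2)).erase 0,
        (if x = 0 then 2 ^ (n + 1) else 2 ^ n)
        = ∑ x ∈ (Finset.univ : Finset (Fin (n + 1) → ZMod 2)).erase 0, 2 ^ n :=
      Finset.sum_congr rfl (fun x hx => if_neg (Finset.ne_of_mem_erase hx))
    rw [h2, Finset.sum_const, Finset.card_erase_of_mem (Finset.mem_univ _), Finset.card_univ,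
      Fintype.card_fun, ZMod.card, Fintype.card_fin, smul_eq_mul]
  rw [Nat.card_congr e1, Nat.card_congr e2, Nat.card_sigma,
    Finset.sum_congr rfl (fun x _ => hterm x), hsum]
  have hc1 : 2 ^ (n + 1) = 2 * 2 ^ n := pow_succ' 2 n
  have hc2 : 2 ^ (2 * (n + 1) - 1) = 2 * (2 ^ n * 2 ^ n) := by
    have h : 2 * (n + 1) - 1 = (n + n) + 1 := by omega
    rw [h, pow_succ', pow_add]
  have hc3 : n + 1 - 1 = n := by omega
  rw [hc1, hc2, hc3]
  have hpos : 1 ≤ 2 ^ n := Nat.one_le_two_pow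
  generalize 2 ^ n = c at hpos ⊢
  have h3 : (2 * c - 1) * c + c = 2 * (c * c) := by
    have h4 : 2 * c - 1 + 1 = 2 * c := by omega
    calc (2 * c - 1) * c + c = (2 * c - 1 + 1) * c := by ring
      _ = 2 * (c * c) := by rw [h4]; ring
  generalize (2 * c - 1) * c = X at h3 ⊢
  generalize c * c = Y at h3 ⊢
  omega

theorem card_one (m : ℕ) (hm : 1 ≤ m) :
    Nat.card {v : V m // Cfsg.quadFormPlus m (ZMod 2) v = 1} = 2 ^ (2 * m - 1) - 2 ^ (m - 1) := by
  have h : Nat.card {v : V m // Cfsg.quadFormPlus m (ZMod 2) v = 0}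
      + Nat.card {v : V m // Cfsg.quadFormPlus m (ZMod 2) v = 1} = Nat.card (V m) :=
    card_split (fun v : V m => Cfsg.quadFormPlus m (ZMod 2) v)
  have hp : 2 ^ (2 * m) = 2 * 2 ^ (2 * m - 1) := by
    have h1 : 2 * m = (2 * m - 1) + 1 := by omega
    conv_lhs => rw [h1]
    exact pow_succ' 2 _
  rw [card_zero m hm, card_V, hp] at h
  generalize 2 ^ (m - 1) = B at h ⊢
  generalize 2 ^ (2 * m - 1) = A at h ⊢
  omega

theorem zero_ne_one_card (m : ℕ) (hm : 1 ≤ m) :
    Nat.card {v : V m // Cfsg.quadFormPlus m (ZMod 2) v = 0}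
      ≠ Nat.card {v : V m // Cfsg.quadFormPlus m (ZMod 2) v = 1} := by
  rw [card_zero m hm, card_one m hm]
  have h : 1 ≤ 2 ^ (m - 1) := Nat.one_le_two_pow
  generalize 2 ^ (m - 1) = B at h ⊢
  generalize 2 ^ (2 * m - 1) = A
  omega

theorem zeros_Phi (m : ℕ) (a : V m) :
    Nat.card {v : V m // Phi m a v = 0}
      = Nat.card {w : V m // Cfsg.quadFormPlus m (ZMod 2) w
          = Cfsg.quadFormPlus m (ZMod 2) a} := by
  apply Nat.card_congr
  refine (Equiv.addRight a).subtypeEquiv (fun v => ?_)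
  show Phi m a v = 0 ↔ Cfsg.quadFormPlus m (ZMod 2) (v + a) = Cfsg.quadFormPlus m (ZMod 2) a
  rw [Phi_eq]
  constructor
  · intro h
    linear_combination h - (Cfsg.quadFormPlus m (ZMod 2) a) * two_zero
  · intro h
    linear_combination h + (Cfsg.quadFormPlus m (ZMod 2) a) * two_zero

theorem zeros_comp {α β : Type*} (e : α ≃ β) (φ : α → ZMod 2) (ψ : β → ZMod 2)
    (h : ∀ v, φ v = ψ (e v)) : Nat.card {v // φ v = 0} = Nat.card {w // ψ w = 0} :=
  Nat.card_congr (e.subtypeEquiv (fun v => by rw [h]))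

theorem zero_of_plus (m : ℕ) (hm : 1 ≤ m) (a : V m)
    (h : ∃ g : V m ≃ₗ[ZMod 2] V m, ∀ v, Phi m a v = Cfsg.quadFormPlus m (ZMod 2) (g v)) :
    Cfsg.quadFormPlus m (ZMod 2) a = 0 := by
  obtain ⟨g, hg⟩ := h
  rcases zero_or_one (Cfsg.quadFormPlus m (ZMod 2) a) with h0 | h1
  · exact h0
  · exfalso
    have e1 := zeros_Phi m a
    rw [h1] at e1
    have e2 := zeros_comp g.toEquiv (Phi m a) (fun w => Cfsg.quadFormPlus m (ZMod 2) w) hg
    exact zero_ne_one_card m hm (e2.symm.trans e1)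

theorem zeros_minus (n : ℕ) :
    Nat.card {w : (Fin n ⊕ Fin n) ⊕ Fin 2 → ZMod 2 // Cfsg.quadFormMinus n (ZMod 2) 1 1 w = 0}
      = Nat.card {v : V (n + 1) // Cfsg.quadFormPlus (n + 1) (ZMod 2) v = 1} := by
  have e1 := zeros_Phi (n + 1) (a0 n)
  rw [Q_a0] at e1
  have e2 := zeros_comp (LinearEquiv.funCongrLeft (ZMod 2) (ZMod 2) (idxE n)).toEquiv
    (Phi (n + 1) (a0 n)) (fun w => Cfsg.quadFormMinus n (ZMod 2) 1 1 w) (fun v => Phi_a0 n v)
  exact e2.symm.trans e1

theorem one_of_minus (n : ℕ) (a : V (n + 1))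
    (h : ∃ g : V (n + 1) ≃ₗ[ZMod 2] ((Fin n ⊕ Fin n) ⊕ Fin 2 → ZMod 2),
      ∀ v, Phi (n + 1) a v = Cfsg.quadFormMinus n (ZMod 2) 1 1 (g v)) :
    Cfsg.quadFormPlus (n + 1) (ZMod 2) a = 1 := by
  obtain ⟨g, hg⟩ := h
  rcases zero_or_one (Cfsg.quadFormPlus (n + 1) (ZMod 2) a) with h0 | h1
  · exfalso
    have e1 := zeros_Phi (n + 1) a
    rw [h0] at e1
    have e2 := zeros_comp g.toEquiv (Phi (n + 1) a)
      (fun w => Cfsg.quadFormMinus n (ZMod 2) 1 1 w) hg
    exact zero_ne_one_card (n + 1) (by omega) (e1.symm.trans (e2.trans (zeros_minus n)))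
  · exact h1

theorem main2 (n : ℕ) (q : V (n + 1) → ZMod 2) (hq : IsPol (n + 1) q) :
    (∃ g : V (n + 1) ≃ₗ[ZMod 2] V (n + 1),
      ∀ v, q v = Cfsg.quadFormPlus (n + 1) (ZMod 2) (g v)) ∨
    (∃ g : V (n + 1) ≃ₗ[ZMod 2] ((Fin n ⊕ Fin n) ⊕ Fin 2 → ZMod 2),
      ∀ v, q v = Cfsg.quadFormMinus n (ZMod 2) 1 1 (g v)) := by
  obtain ⟨a, rfl⟩ := exists_rep (n + 1) q hq
  rcases zero_or_one (Cfsg.quadFormPlus (n + 1) (ZMod 2) a) with h0 | h1
  · exact Or.inl (plus_of_zero (n + 1) a h0)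
  · exact Or.inr (minus_of_one n a h1)

theorem main3 (n : ℕ) :
    Nat.card {q : V (n + 1) → ZMod 2 // IsPol (n + 1) q ∧
      ∃ g : V (n + 1) ≃ₗ[ZMod 2] V (n + 1),
        ∀ v, q v = Cfsg.quadFormPlus (n + 1) (ZMod 2) (g v)}
      = 2 ^ (2 * (n + 1) - 1) + 2 ^ (n + 1 - 1) := by
  rw [← card_zero (n + 1) (by omega)]
  symm
  apply Nat.card_congr
  refine Equiv.ofBijective (fun a => ⟨Phi (n + 1) a.1, Phi_pol (n + 1) a.1,
    plus_of_zero (n + 1) a.1 a.2⟩) ⟨?_, ?_⟩
  · intro a a' h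
    exact Subtype.ext (Phi_inj (n + 1) (congrArg Subtype.val h))
  · rintro ⟨q, hq, hg⟩
    obtain ⟨a, rfl⟩ := exists_rep (n + 1) q hq
    exact ⟨⟨a, zero_of_plus (n + 1) (by omega) a hg⟩, rfl⟩

theorem main4 (n : ℕ) :
    Nat.card {q : V (n + 1) → ZMod 2 // IsPol (n + 1) q ∧
      ∃ g : V (n + 1) ≃ₗ[ZMod 2] ((Fin n ⊕ Fin n) ⊕ Fin 2 → ZMod 2),
        ∀ v, q v = Cfsg.quadFormMinus n (ZMod 2) 1 1 (g v)}
      = 2 ^ (2 * (n + 1) - 1) - 2 ^ (n + 1 - 1) := by
  rw [← card_one (n + 1) (by omega)]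
  symm
  apply Nat.card_congr
  refine Equiv.ofBijective (fun a => ⟨Phi (n + 1) a.1, Phi_pol (n + 1) a.1,
    minus_of_one n a.1 a.2⟩) ⟨?_, ?_⟩
  · intro a a' h
    exact Subtype.ext (Phi_inj (n + 1) (congrArg Subtype.val h))
  · rintro ⟨q, hq, hg⟩
    obtain ⟨a, rfl⟩ := exists_rep (n + 1) q hq
    exact ⟨⟨a, one_of_minus n a hg⟩, rfl⟩

/-- Arf criterion, plus case -/
theorem arf_plus (n : ℕ) (q : V (n + 1) → ZMod 2)
    (hq : ∀ u v, q (u + v) = q u + q v + Bp (n + 1) u v)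
    (h : ∑ i : Fin (n + 1), q (Pi.single (Sum.inl i) 1) * q (Pi.single (Sum.inr i) 1) = 0) :
    ∃ g : V (n + 1) ≃ₗ[ZMod 2] V (n + 1),
      ∀ v, q v = Cfsg.quadFormPlus (n + 1) (ZMod 2) (g v) := by
  have ha : Cfsg.quadFormPlus (n + 1) (ZMod 2) (fun j => q (Pi.single (Sum.swap j) 1)) = 0 := by
    refine Eq.trans ?_ h
    show ∑ i : Fin (n + 1), q (Pi.single (Sum.inr i) 1) * q (Pi.single (Sum.inl i) 1) = _
    exact Finset.sum_congr rfl (fun i _ => mul_comm _ _)
  obtain ⟨g, hg⟩ := plus_of_zero (n + 1) _ ha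
  exact ⟨g, fun v => (rep (n + 1) q hq v).trans (hg v)⟩

/-- Arf criterion, minus case -/
theorem arf_minus (n : ℕ) (q : V (n + 1) → ZMod 2)
    (hq : ∀ u v, q (u + v) = q u + q v + Bp (n + 1) u v)
    (h : ∑ i : Fin (n + 1), q (Pi.single (Sum.inl i) 1) * q (Pi.single (Sum.inr i) 1) = 1) :
    ∃ g : V (n + 1) ≃ₗ[ZMod 2] ((Fin n ⊕ Fin n) ⊕ Fin 2 → ZMod 2),
      ∀ v, q v = Cfsg.quadFormMinus n (ZMod 2) 1 1 (g v) := by
  have ha : Cfsg.quadFormPlus (n + 1) (ZMod 2) (fun j => q (Pi.single (Sum.swap j) 1)) = 1 := by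
    refine Eq.trans ?_ h
    show ∑ i : Fin (n + 1), q (Pi.single (Sum.inr i) 1) * q (Pi.single (Sum.inl i) 1) = _
    exact Finset.sum_congr rfl (fun i _ => mul_comm _ _)
  obtain ⟨g, hg⟩ := minus_of_one n _ ha
  exact ⟨g, fun v => (rep (n + 1) q hq v).trans (hg v)⟩

end QuadF2

end Cfsg.Agent.Helper2
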