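import Mathlib
import Cfsg.Prelude.Def_TwoFusion
import Cfsg.Agent.Helper6.Isolated
import Cfsg.Agent.Helper9.Basic
import Cfsg.Agent.Helper2.Inv
import Cfsg.Agent.Helper2.Dihedral
import Cfsg.Agent.S0208
import Cfsg.Agent.S0209

/-!
# Sylow-type helper lemmas about involutions (helper2)
-/

set_option autoImplicit false

namespace Cfsg.Agent.Helper2

variable {G : Type*} [Group G]

/-- an element commuting with every element of `Y` normalizes `Y` -/
theorem mem_normalizer_of_forall_commute {Y : Subgroup G} {n : G} (h : ∀ y ∈ Y, n * y = y * n) :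
    n ∈ Subgroup.normalizer (Y : Set G) := by
  have key : ∀ y ∈ Y, n * y * n⁻¹ = y := by
    intro y hy
    rw [h y hy]; group
  rw [Subgroup.mem_normalizer_iff]
  intro y
  constructor
  · intro hy; rw [key y hy]; exact hy
  · intro hy
    have := key _ hy
    have e : n * y * n⁻¹ = y := mul_left_cancel (mul_right_cancel this)
    rw [e] at hy; exact hy

/-- If conjugation by `g` maps the finite subgroup `T` into itself, then `g` normalizes `T`. -/
theorem mem_normalizer_of_conj_le (T : Subgroup G) [Finite T] (g : G)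
    (h : ∀ q ∈ T, g * q * g⁻¹ ∈ T) : g ∈ Subgroup.normalizer (T : Set G) := by
  have hmap : T.map (MulAut.conj g).toMonoidHom = T := by
    apply Subgroup.eq_of_le_of_card_ge
    · rintro _ ⟨q, hq, rfl⟩
      simpa [MulAut.conj_apply] using h q hq
    · rw [Subgroup.card_map_of_injective (MulAut.conj g).injective]
  rw [Subgroup.mem_normalizer_iff]
  intro x
  constructor
  · intro hx; exact h x hx
  · intro hx
    rw [← hmap] at hx
    obtain ⟨q, hq, hqx⟩ := hx
    have : q = x := by
      have h2 : g * q * g⁻¹ = g * x * g⁻¹ := by simpa [MulAut.conj_apply] using hqx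
      have h3 : g * q = g * x := mul_right_cancel h2
      exact mul_left_cancel h3
    rwa [← this]

/-- two commuting involutions can be simultaneously conjugated into a given Sylow 2-subgroup -/
theorem exists_conj_pair_mem_sylow [Finite G] (P : Sylow 2 G) {u a : G} (hu : orderOf u = 2)
    (ha : orderOf a = 2) (hc : Commute u a) :
    ∃ h : G, h * u * h⁻¹ ∈ (P : Subgroup G) ∧ h * a * h⁻¹ ∈ (P : Subgroup G) := by
  have : Fact (Nat.Prime 2) := ⟨Nat.prime_two⟩
  have h1 : IsPGroup 2 (Subgroup.zpowers u) := Helper9.isPGroup_zpowers_of_orderOf u hu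
  have h2 : IsPGroup 2 (Subgroup.zpowers a) := Helper9.isPGroup_zpowers_of_orderOf a ha
  have h3 : Subgroup.zpowers u ≤ Subgroup.normalizer (Subgroup.zpowers a : Set G) := by
    rw [Subgroup.zpowers_le]
    apply mem_normalizer_of_forall_commute
    intro h hh
    obtain ⟨k, rfl⟩ := Subgroup.mem_zpowers_iff.mp hh
    exact (hc.zpow_right k).eq
  have hK : IsPGroup 2 (Subgroup.zpowers u ⊔ Subgroup.zpowers a : Subgroup G) :=
    IsPGroup.to_sup_of_normal_right' h1 h2 h3
  obtain ⟨h, hh⟩ := Helper9.exists_conj_mem_sylow P _ hK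
  exact ⟨h, hh u (Subgroup.mem_sup_left (Subgroup.mem_zpowers u)),
    hh a (Subgroup.mem_sup_right (Subgroup.mem_zpowers a))⟩

/-- an involution can be conjugated into a given Sylow 2-subgroup -/
theorem exists_conj_mem_sylow_of_involution [Finite G] (P : Sylow 2 G) {u : G} (hu : orderOf u = 2) :
    ∃ h : G, h * u * h⁻¹ ∈ (P : Subgroup G) := by
  obtain ⟨h, hh, -⟩ := exists_conj_pair_mem_sylow P hu hu (Commute.refl u)
  exact ⟨h, hh⟩

/-- An involution conjugate to no other element of a Sylow 2-subgroup is isolated. -/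
theorem isolated_of_sylow [Finite G] (P : Sylow 2 G) {u : G} (hu : orderOf u = 2)
    (hiso : ∀ g : G, g * u * g⁻¹ ∈ (P : Subgroup G) → g * u * g⁻¹ = u) :
    Cfsg.IsIsolatedInvolution u := by
  refine ⟨hu, fun g hc => ?_⟩
  obtain ⟨h, h1, h2⟩ := exists_conj_pair_mem_sylow P hu
    (by rw [orderOf_conj_eq]; exact hu) hc
  have e1 := hiso h h1
  have e2 : (h * g) * u * (h * g)⁻¹ = u := hiso (h * g) (by
    have : (h * g) * u * (h * g)⁻¹ = h * (g * u * g⁻¹) * h⁻¹ := by group
    rw [this]; exact h2)
  have e3 : h * (g * u * g⁻¹) * h⁻¹ = h * u * h⁻¹ := by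
    calc h * (g * u * g⁻¹) * h⁻¹ = (h * g) * u * (h * g)⁻¹ := by group
      _ = u := e2
      _ = h * u * h⁻¹ := e1.symm
  exact mul_left_cancel (mul_right_cancel e3)

/-- two non-conjugate involutions commute with a common involution lying in `⟨s t⟩` -/
theorem exists_commuting_involution [Finite G] {s t : G} (hs : orderOf s = 2) (ht : orderOf t = 2)
    (hnc : ¬ IsConj s t) :
    ∃ z : G, orderOf z = 2 ∧ Commute z s ∧ Commute z t ∧ z ∈ Subgroup.zpowers (s * t) := by
  have heven : Even (orderOf (s * t)) := by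
    by_contra hodd
    rw [Nat.not_even_iff_odd] at hodd
    obtain ⟨d, -, hd⟩ := Cfsg.Agent.S0208.result s t hs ht hodd
    exact hnc (isConj_iff.mpr ⟨d, hd⟩)
  obtain ⟨h1, h2, h3⟩ := Cfsg.Agent.S0209.result s t hs ht heven
  exact ⟨_, h1, h2, h3, Subgroup.npow_mem_zpowers _ _⟩

/-- A normal subgroup with a nontrivial 2-group as complement gives a subgroup of index two. -/
theorem exists_index_two_of_isComplement' [Finite G] {K T : Subgroup G} [K.Normal]
    (h : K.IsComplement' T) (hT : IsPGroup 2 T) (hT1 : T ≠ ⊥) : ∃ H : Subgroup G, H.index = 2 := by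
  have : Fact (Nat.Prime 2) := ⟨Nat.prime_two⟩
  have hcard : Nat.card (G ⧸ K) = Nat.card T := h.symm.index_eq_card
  obtain ⟨k, hk⟩ := hT.exists_card_eq
  have hk0 : k ≠ 0 := by
    rintro rfl
    rw [pow_zero] at hk
    exact hT1 (Subgroup.card_eq_one.mp hk)
  obtain ⟨k', rfl⟩ := Nat.exists_eq_succ_of_ne_zero hk0
  have hdvd : 2 ^ k' ∣ Nat.card (G ⧸ K) := by
    rw [hcard, hk]; exact pow_dvd_pow 2 (Nat.le_succ k')
  obtain ⟨K0, hK0⟩ := Sylow.exists_subgroup_card_pow_prime 2 hdvd
  have hidx : K0.index = 2 := by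
    have h1 := K0.card_mul_index
    rw [hK0, hcard, hk, pow_succ] at h1
    exact Nat.eq_of_mul_eq_mul_left (by positivity) h1
  refine ⟨K0.comap (QuotientGroup.mk' K), ?_⟩
  rw [Subgroup.index_comap_of_surjective _ (QuotientGroup.mk'_surjective K)]
  exact hidx

/-- In a finite cyclic group (as a subgroup), two involutions coincide. -/
theorem involution_unique_of_isCyclic [Finite G] {S : Subgroup G} (hS : IsCyclic S) {x y : G}
    (hx : x ∈ S) (hy : y ∈ S) (hx2 : orderOf x = 2) (hy2 : orderOf y = 2) : x = y := by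
  classical
  have : Fintype S := Fintype.ofFinite S
  have h2 : 2 ∣ Fintype.card S := by
    rw [← Nat.card_eq_fintype_card, ← hx2, ← Subgroup.orderOf_mk x hx]
    exact orderOf_dvd_natCard _
  have hc := IsCyclic.card_orderOf_eq_totient (α := S) h2
  rw [Nat.totient_two, Finset.card_eq_one] at hc
  obtain ⟨a, ha⟩ := hc
  have hxa : (⟨x, hx⟩ : S) ∈ ({a} : Finset S) := by
    rw [← ha]; simp [Subgroup.orderOf_mk, hx2]
  have hya : (⟨y, hy⟩ : S) ∈ ({a} : Finset S) := by
    rw [← ha]; simp [Subgroup.orderOf_mk, hy2]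
  have := (Finset.mem_singleton.mp hxa).trans (Finset.mem_singleton.mp hya).symm
  exact congrArg Subtype.val this

end Cfsg.Agent.Helper2
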