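import Mathlib
import Cfsg.Agent.Helper2.Syl

/-!
# 2-groups containing an elementary abelian subgroup of order 8 (helper2)

* `exists_index_two_centralizer`: a finite 2-group `S` containing `E ≅ E₈` has an involution
  `v ≠ z` whose centralizer in `S` has index at most two (counting involutions modulo 4).
* `key_b`: an involution of `S` whose centralizer contains no `E₈` commutes with at most three
  involutions of `S`.
-/

set_option autoImplicit false

namespace Cfsg.Agent.Helper2.R3

open Classical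

variable {G : Type*} [Group G]

/-- `v` centralizes an elementary abelian subgroup of order 8 -/
def Good (v : G) : Prop :=
  ∃ E : Subgroup G, E ≤ Subgroup.centralizer ({v} : Set G) ∧ Nat.card E = 8 ∧ ∀ e ∈ E, e ^ 2 = 1

theorem good_of (v : G) (E' : Subgroup G) (h8 : Nat.card E' = 8) (h2 : ∀ e ∈ E', e ^ 2 = 1)
    (hc : ∀ e ∈ E', v * e = e * v) : Good v :=
  ⟨E', fun e he => mem_centralizer_singleton.mpr (hc e he), h8, h2⟩

theorem good_conj (v g : G) (h : Good (g * v * g⁻¹)) : Good v := by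
  obtain ⟨E', hE'c, h8, h2⟩ := h
  refine ⟨E'.map (MulAut.conj g⁻¹).toMonoidHom, ?_, ?_, ?_⟩
  · rintro _ ⟨e, he, rfl⟩
    rw [mem_centralizer_singleton]
    have h1 := mem_centralizer_singleton.mp (hE'c he)
    show v * (g⁻¹ * e * g⁻¹⁻¹) = g⁻¹ * e * g⁻¹⁻¹ * v
    rw [inv_inv]
    calc v * (g⁻¹ * e * g) = g⁻¹ * (g * v * g⁻¹ * e) * g := by group
      _ = g⁻¹ * (e * (g * v * g⁻¹)) * g := by rw [h1]
      _ = g⁻¹ * e * g * v := by group
  · rw [Subgroup.card_map_of_injective (MulAut.conj g⁻¹).injective]; exact h8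
  · rintro _ ⟨e, he, rfl⟩
    rw [← map_pow, h2 e he, map_one]

/-- a subgroup of exponent two is commutative -/
theorem comm_of_exp_two {E : Subgroup G} (hE : ∀ e ∈ E, e * e = 1) {a b : G} (ha : a ∈ E)
    (hb : b ∈ E) : a * b = b * a := by
  have e1 : (a * b)⁻¹ = a * b := inv_eq_of_mul_eq_one_right (hE (a * b) (E.mul_mem ha hb))
  have e2 : a⁻¹ = a := inv_eq_of_mul_eq_one_right (hE a ha)
  have e3 : b⁻¹ = b := inv_eq_of_mul_eq_one_right (hE b hb)
  calc a * b = (a * b)⁻¹ := e1.symm
    _ = b⁻¹ * a⁻¹ := mul_inv_rev a b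
    _ = b * a := by rw [e2, e3]

theorem dvd_card_of_fibers {T β : Type*} [DecidableEq β] (A : Finset T) (f : T → β) (d : ℕ)
    (h : ∀ t ∈ A, d ∣ (A.filter (fun a => f a = f t)).card) : d ∣ A.card := by
  rw [Finset.card_eq_sum_card_image f A]
  apply Finset.dvd_sum
  intro b hb
  obtain ⟨t, ht, rfl⟩ := Finset.mem_image.mp hb
  exact h t ht

section Count

variable [Fintype G]

/-- adjoining a commuting involution to a subgroup of exponent two -/
theorem ext2 {A K : Subgroup G} (hAK : A ≤ K) (hA2 : ∀ a ∈ A, a * a = 1) {w : G}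
    (hwK : w ∈ K) (hw2 : w * w = 1) (hwA : w ∉ A) (hcomm : ∀ a ∈ A, a * w = w * a) :
    ∃ B : Subgroup G, A ≤ B ∧ w ∈ B ∧ B ≤ K ∧ (∀ b ∈ B, b * b = 1) ∧
      Nat.card B = 2 * Nat.card A ∧ (∀ b ∈ B, ∃ a ∈ A, b = a ∨ b = a * w) := by
  let B : Subgroup G :=
    { carrier := {g | g ∈ A ∨ g * w ∈ A}
      one_mem' := Or.inl A.one_mem
      mul_mem' := by
        intro g h hg hh
        rcases hg with hg | hg
        · rcases hh with hh | hh
          · exact Or.inl (A.mul_mem hg hh)
          · right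
            have e : g * h * w = g * (h * w) := by group
            rw [e]; exact A.mul_mem hg hh
        · rcases hh with hh | hh
          · right
            have e : g * h * w = (g * w) * h := by
              calc g * h * w = g * (h * w) := by group
                _ = g * (w * h) := by rw [hcomm h hh]
                _ = (g * w) * h := by group
            rw [e]; exact A.mul_mem hg hh
          · left
            have h1 : (h * w) * w = w * (h * w) := hcomm _ hh
            have e : g * h = (g * w) * (h * w) := by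
              calc g * h = g * (h * (w * w)) := by rw [hw2, mul_one]
                _ = g * ((h * w) * w) := by group
                _ = g * (w * (h * w)) := by rw [h1]
                _ = (g * w) * (h * w) := by group
            rw [e]; exact A.mul_mem hg hh
      inv_mem' := by
        intro g hg
        rcases hg with hg | hg
        · exact Or.inl (A.inv_mem hg)
        · right
          have h1 : (g * w) * w = w * (g * w) := hcomm _ hg
          have h2 : g = w * g * w := by
            calc g = g * (w * w) := by rw [hw2, mul_one]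
              _ = (g * w) * w := by group
              _ = w * (g * w) := h1
              _ = w * g * w := by group
          have e : g⁻¹ * w = (g * w)⁻¹ := by
            calc g⁻¹ * w = (w * g * w)⁻¹ * w := by rw [← h2]
              _ = w⁻¹ * g⁻¹ * (w⁻¹ * w) := by group
              _ = w⁻¹ * g⁻¹ := by rw [inv_mul_cancel, mul_one]
              _ = (g * w)⁻¹ := by group
          rw [e]; exact A.inv_mem hg }
  have hmemB : ∀ g, g ∈ B ↔ g ∈ A ∨ g * w ∈ A := fun g => Iff.rfl
  refine ⟨B, fun a ha => (hmemB a).mpr (Or.inl ha), ?_, ?_, ?_, ?_, ?_⟩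
  · rw [hmemB]; right; rw [hw2]; exact A.one_mem
  · intro b hb
    rcases (hmemB b).mp hb with hb | hb
    · exact hAK hb
    · have e : b = (b * w) * w⁻¹ := by group
      rw [e]; exact K.mul_mem (hAK hb) (K.inv_mem hwK)
  · intro b hb
    rcases (hmemB b).mp hb with hb | hb
    · exact hA2 b hb
    · have h1 : (b * w) * w = w * (b * w) := hcomm _ hb
      have h2 := hA2 _ hb
      calc b * b = b * (w * w) * b * (w * w) := by rw [hw2, mul_one, mul_one]
        _ = b * w * (w * (b * w)) * w := by group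
        _ = b * w * ((b * w) * w) * w := by rw [h1]
        _ = (b * w) * (b * w) * (w * w) := by group
        _ = 1 := by rw [h2, hw2, mul_one]
  · have hK : (Finset.univ.filter (fun g => g ∈ B)) = (Finset.univ.filter (fun g => g ∈ A)) ∪
        (Finset.univ.filter (fun g => g ∈ A)).image (fun a => a * w) := by
      ext g
      simp only [Finset.mem_filter, Finset.mem_univ, true_and, Finset.mem_union, Finset.mem_image,
        hmemB]
      constructor
      · rintro (h | h)
        · exact Or.inl h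
        · exact Or.inr ⟨g * w, h, by rw [mul_assoc, hw2, mul_one]⟩
      · rintro (h | ⟨a, ha, hag⟩)
        · exact Or.inl h
        · right; rw [← hag, mul_assoc, hw2, mul_one]; exact ha
    have hdisj : Disjoint (Finset.univ.filter (fun g => g ∈ A))
        ((Finset.univ.filter (fun g => g ∈ A)).image (fun a => a * w)) := by
      rw [Finset.disjoint_left]
      intro g hg hg'
      rw [Finset.mem_image] at hg'
      obtain ⟨a, ha, hag⟩ := hg'
      simp only [Finset.mem_filter, Finset.mem_univ, true_and] at hg ha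
      apply hwA
      have e : w = a⁻¹ * (a * w) := by group
      rw [e, hag]; exact A.mul_mem (A.inv_mem ha) hg
    rw [Nat.card_eq_fintype_card, Fintype.card_subtype, hK, Finset.card_union_of_disjoint hdisj,
      Finset.card_image_of_injective _ (mul_left_injective w), Nat.card_eq_fintype_card,
      Fintype.card_subtype]
    ring
  · intro b hb
    rcases (hmemB b).mp hb with hb | hb
    · exact ⟨b, hb, Or.inl rfl⟩
    · exact ⟨b * w, hb, Or.inr (by rw [mul_assoc, hw2, mul_one])⟩

/-- the elements of a subgroup as a finset -/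
noncomputable def fs (Γ : Subgroup G) : Finset G := Finset.univ.filter (fun g => g ∈ Γ)

theorem mem_fs {Γ : Subgroup G} {g : G} : g ∈ fs Γ ↔ g ∈ Γ := by simp [fs]

theorem card_fs (Γ : Subgroup G) : (fs Γ).card = Nat.card Γ := by
  rw [Nat.card_eq_fintype_card, Fintype.card_subtype]
  rfl

/-- conjugation orbit under a subgroup, as a finset -/
noncomputable def orb (Γ : Subgroup G) (t : G) : Finset G :=
  (fs Γ).image (fun g => g * t * g⁻¹)

theorem mem_orb {Γ : Subgroup G} {t y : G} : y ∈ orb Γ t ↔ ∃ g ∈ Γ, g * t * g⁻¹ = y := by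
  unfold orb
  rw [Finset.mem_image]
  constructor
  · rintro ⟨e, he, h⟩; exact ⟨e, mem_fs.mp he, h⟩
  · rintro ⟨e, he, h⟩; exact ⟨e, mem_fs.mpr he, h⟩

/-- the centralizer of `t` in `E` -/
noncomputable def CE (E : Subgroup G) (t : G) : Subgroup G :=
  E ⊓ Subgroup.centralizer ({t} : Set G)

omit [Fintype G] in
theorem mem_CE {E : Subgroup G} {t e : G} : e ∈ CE E t ↔ e ∈ E ∧ t * e = e * t := by
  unfold CE
  rw [Subgroup.mem_inf, mem_centralizer_singleton]

omit [Fintype G] in
theorem CE_le (E : Subgroup G) (t : G) : CE E t ≤ E := by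
  unfold CE
  exact inf_le_left

theorem orb_card (Γ : Subgroup G) (t : G) :
    (orb Γ t).card * Nat.card (CE Γ t) = Nat.card Γ := by
  rw [← card_fs Γ, ← card_fs (CE Γ t),
    Finset.card_eq_sum_card_image (fun g => g * t * g⁻¹) (fs Γ)]
  symm
  apply Finset.sum_const_nat
  intro y hy
  obtain ⟨g₀, hg₀, rfl⟩ := mem_orb.mp hy
  symm
  apply Finset.card_bij (fun c _ => g₀ * c)
  · intro c hc
    rw [mem_fs, mem_CE] at hc
    rw [Finset.mem_filter, mem_fs]
    refine ⟨Γ.mul_mem hg₀ hc.1, ?_⟩
    calc g₀ * c * t * (g₀ * c)⁻¹ = g₀ * (c * t) * c⁻¹ * g₀⁻¹ := by group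
      _ = g₀ * (t * c) * c⁻¹ * g₀⁻¹ := by rw [hc.2]
      _ = g₀ * t * g₀⁻¹ := by group
  · intro a _ b _ h; exact mul_left_cancel h
  · intro g hg
    rw [Finset.mem_filter, mem_fs] at hg
    refine ⟨g₀⁻¹ * g, ?_, by group⟩
    rw [mem_fs, mem_CE]
    refine ⟨Γ.mul_mem (Γ.inv_mem hg₀) hg.1, ?_⟩
    calc t * (g₀⁻¹ * g) = g₀⁻¹ * (g₀ * t * g₀⁻¹) * g := by group
      _ = g₀⁻¹ * (g * t * g⁻¹) * g := by rw [hg.2]
      _ = g₀⁻¹ * g * t := by group

theorem dvd_card_of_orbs (Γ : Subgroup G) (A : Finset G) (d : ℕ)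
    (hstab : ∀ g ∈ Γ, ∀ t ∈ A, g * t * g⁻¹ ∈ A)
    (hd : ∀ t ∈ A, d ∣ (orb Γ t).card) : d ∣ A.card := by
  apply dvd_card_of_fibers A (fun t => orb Γ t) d
  intro t₀ ht₀
  have hfib : A.filter (fun a => orb Γ a = orb Γ t₀) = orb Γ t₀ := by
    ext y
    rw [Finset.mem_filter]
    constructor
    · rintro ⟨-, hyo⟩
      rw [← hyo, mem_orb]
      exact ⟨1, Γ.one_mem, by group⟩
    · intro hy
      obtain ⟨g, hg, rfl⟩ := mem_orb.mp hy
      refine ⟨hstab g hg t₀ ht₀, ?_⟩
      ext w
      rw [mem_orb, mem_orb]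
      constructor
      · rintro ⟨h, hh, rfl⟩
        exact ⟨h * g, Γ.mul_mem hh hg, by group⟩
      · rintro ⟨h, hh, rfl⟩
        exact ⟨h * g⁻¹, Γ.mul_mem hh (Γ.inv_mem hg), by group⟩
  rw [hfib]; exact hd t₀ ht₀

/-- multiplication block `t · C_E(t)` -/
noncomputable def blk (E : Subgroup G) (t : G) : Finset G :=
  (fs (CE E t)).image (fun e => t * e)

theorem mem_blk {E : Subgroup G} {t y : G} : y ∈ blk E t ↔ ∃ e ∈ CE E t, t * e = y := by
  unfold blk
  rw [Finset.mem_image]
  constructor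
  · rintro ⟨e, he, h⟩; exact ⟨e, mem_fs.mp he, h⟩
  · rintro ⟨e, he, h⟩; exact ⟨e, mem_fs.mpr he, h⟩

/-- the elements of `S` of square one -/
noncomputable def Yset (S : Subgroup G) : Finset G :=
  Finset.univ.filter (fun t : G => t ∈ S ∧ t * t = 1)

theorem mem_Yset {S : Subgroup G} {t : G} : t ∈ Yset S ↔ t ∈ S ∧ t * t = 1 := by simp [Yset]

omit [Fintype G] in
theorem CE_mul {E : Subgroup G} (hE2 : ∀ e ∈ E, e * e = 1) {t f : G} (hf : f ∈ CE E t) :
    CE E (t * f) = CE E t := by
  have hfE := (mem_CE.mp hf).1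
  ext e
  rw [mem_CE, mem_CE]
  constructor
  · rintro ⟨he, h⟩
    refine ⟨he, ?_⟩
    have hc : e * f = f * e := comm_of_exp_two hE2 he hfE
    have h1 : t * e * f = e * t * f := by
      calc t * e * f = t * (e * f) := by group
        _ = t * (f * e) := by rw [hc]
        _ = t * f * e := by group
        _ = e * (t * f) := h
        _ = e * t * f := by group
    exact mul_right_cancel h1
  · rintro ⟨he, h⟩
    refine ⟨he, ?_⟩
    have hc : e * f = f * e := comm_of_exp_two hE2 he hfE
    calc t * f * e = t * (f * e) := by group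
      _ = t * (e * f) := by rw [hc]
      _ = (t * e) * f := by group
      _ = (e * t) * f := by rw [h]
      _ = e * (t * f) := by group

omit [Fintype G] in
theorem CE_conj {E : Subgroup G} (hE2 : ∀ e ∈ E, e * e = 1) {t g : G} (hg : g ∈ E) :
    CE E (g * t * g⁻¹) = CE E t := by
  ext e
  rw [mem_CE, mem_CE]
  constructor
  · rintro ⟨he, h⟩
    refine ⟨he, ?_⟩
    have hc : e * g = g * e := comm_of_exp_two hE2 he hg
    have hc' : g⁻¹ * e * g = e := by
      calc g⁻¹ * e * g = g⁻¹ * (e * g) := by group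
        _ = g⁻¹ * (g * e) := by rw [hc]
        _ = e := by group
    calc t * e = t * (g⁻¹ * e * g) := by rw [hc']
      _ = g⁻¹ * (g * t * g⁻¹ * e) * g := by group
      _ = g⁻¹ * (e * (g * t * g⁻¹)) * g := by rw [h]
      _ = (g⁻¹ * e * g) * t := by group
      _ = e * t := by rw [hc']
  · rintro ⟨he, h⟩
    refine ⟨he, ?_⟩
    have hc : e * g = g * e := comm_of_exp_two hE2 he hg
    have hc'' : g * e * g⁻¹ = e := by
      calc g * e * g⁻¹ = (g * e) * g⁻¹ := by group
        _ = (e * g) * g⁻¹ := by rw [hc]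
        _ = e := by group
    calc g * t * g⁻¹ * e = g * t * g⁻¹ * (g * e * g⁻¹) := by rw [hc'']
      _ = g * (t * e) * g⁻¹ := by group
      _ = g * (e * t) * g⁻¹ := by rw [h]
      _ = (g * e * g⁻¹) * (g * t * g⁻¹) := by group
      _ = e * (g * t * g⁻¹) := by rw [hc'']

theorem four_dvd_W (S E : Subgroup G) (hES : E ≤ S) (hE2 : ∀ e ∈ E, e * e = 1) :
    4 ∣ ((Yset S).filter (fun t => 4 ∣ Nat.card (CE E t))).card := by
  apply dvd_card_of_fibers _ (fun t => blk E t) 4
  intro t₀ ht₀
  rw [Finset.mem_filter, mem_Yset] at ht₀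
  obtain ⟨⟨ht₀S, ht₀2⟩, hκ⟩ := ht₀
  have hfib : ((Yset S).filter (fun t => 4 ∣ Nat.card (CE E t))).filter
      (fun a => blk E a = blk E t₀) = blk E t₀ := by
    ext y
    rw [Finset.mem_filter]
    constructor
    · rintro ⟨-, hyb⟩
      rw [← hyb, mem_blk]
      exact ⟨1, (CE E y).one_mem, mul_one y⟩
    · intro hy
      obtain ⟨f, hf, rfl⟩ := mem_blk.mp hy
      have hfE := (mem_CE.mp hf).1
      have hft := (mem_CE.mp hf).2
      have hCE := CE_mul hE2 hf
      refine ⟨?_, ?_⟩
      · rw [Finset.mem_filter, mem_Yset, hCE]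
        refine ⟨⟨S.mul_mem ht₀S (hES hfE), ?_⟩, hκ⟩
        calc t₀ * f * (t₀ * f) = t₀ * (f * t₀) * f := by group
          _ = t₀ * (t₀ * f) * f := by rw [hft]
          _ = (t₀ * t₀) * (f * f) := by group
          _ = 1 := by rw [ht₀2, hE2 f hfE, mul_one]
      · ext w
        rw [mem_blk, mem_blk, hCE]
        constructor
        · rintro ⟨e, he, rfl⟩
          exact ⟨f * e, (CE E t₀).mul_mem hf he, by group⟩
        · rintro ⟨e, he, rfl⟩
          exact ⟨f⁻¹ * e, (CE E t₀).mul_mem ((CE E t₀).inv_mem hf) he, by group⟩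
  rw [hfib]
  unfold blk
  rw [Finset.card_image_of_injective _ (mul_right_injective t₀), card_fs]
  exact hκ

theorem four_dvd_R (S E : Subgroup G) (hES : E ≤ S) (hE8 : Nat.card E = 8)
    (hE2 : ∀ e ∈ E, e * e = 1) :
    4 ∣ ((Yset S).filter (fun t => ¬ 4 ∣ Nat.card (CE E t))).card := by
  apply dvd_card_of_orbs E _ 4
  · intro g hg t ht
    rw [Finset.mem_filter, mem_Yset] at ht ⊢
    obtain ⟨⟨htS, ht2⟩, hκ⟩ := ht
    rw [CE_conj hE2 hg]
    refine ⟨⟨S.mul_mem (S.mul_mem (hES hg) htS) (S.inv_mem (hES hg)), ?_⟩, hκ⟩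
    calc g * t * g⁻¹ * (g * t * g⁻¹) = g * (t * t) * g⁻¹ := by group
      _ = 1 := by rw [ht2]; group
  · intro t ht
    rw [Finset.mem_filter] at ht
    have h := orb_card E t
    rw [hE8] at h
    obtain ⟨κ, hκ⟩ : ∃ κ, κ = Nat.card (CE E t) := ⟨_, rfl⟩
    obtain ⟨o, ho⟩ : ∃ o, o = (orb E t).card := ⟨_, rfl⟩
    rw [← hκ, ← ho] at h
    have hk := ht.2
    rw [← hκ] at hk
    rw [← ho]
    have hκ8 : κ ≤ 8 := Nat.le_of_dvd (by norm_num) (Dvd.intro_left _ h)
    clear hκ ho
    interval_cases κ <;> omega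

/-- A finite 2-group `S` containing an elementary abelian subgroup of order 8 has an involution
`v ≠ z` whose centralizer in `S` has index at most 2 (here `z` is any element central in `S`). -/
theorem exists_index_two_centralizer (S E : Subgroup G) (hS : IsPGroup 2 S) (hES : E ≤ S)
    (hE8 : Nat.card E = 8) (hE2 : ∀ e ∈ E, e * e = 1) (z : G) (hzc : ∀ s ∈ S, s * z = z * s) :
    ∃ v ∈ S, v * v = 1 ∧ v ≠ 1 ∧ v ≠ z ∧
      (Nat.card (CE S v) = Nat.card S ∨ 2 * Nat.card (CE S v) = Nat.card S) := by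
  by_contra hcon
  push Not at hcon
  have h2p : Fact (Nat.Prime 2) := ⟨Nat.prime_two⟩
  have hY4 : 4 ∣ (Yset S).card := by
    rw [← Finset.card_filter_add_card_filter_not (s := Yset S) (fun t => 4 ∣ Nat.card (CE E t))]
    exact Nat.dvd_add (four_dvd_W S E hES hE2) (four_dvd_R S E hES hE8 hE2)
  have hA4 : 4 ∣ ((Yset S).filter (fun t => t ≠ 1 ∧ t ≠ z)).card := by
    apply dvd_card_of_orbs S _ 4
    · intro g hg t ht
      rw [Finset.mem_filter, mem_Yset] at ht ⊢
      obtain ⟨⟨htS, ht2⟩, ht1, htz⟩ := ht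
      refine ⟨⟨S.mul_mem (S.mul_mem hg htS) (S.inv_mem hg), ?_⟩, ?_, ?_⟩
      · calc g * t * g⁻¹ * (g * t * g⁻¹) = g * (t * t) * g⁻¹ := by group
          _ = 1 := by rw [ht2]; group
      · intro h
        apply ht1
        calc t = g⁻¹ * (g * t * g⁻¹) * g := by group
          _ = 1 := by rw [h]; group
      · intro h
        apply htz
        have hgz : g * z = z * g := hzc g hg
        calc t = g⁻¹ * (g * t * g⁻¹) * g := by group
          _ = g⁻¹ * z * g := by rw [h]
          _ = g⁻¹ * (z * g) := by group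
          _ = g⁻¹ * (g * z) := by rw [hgz]
          _ = z := by group
    · intro t ht
      rw [Finset.mem_filter, mem_Yset] at ht
      obtain ⟨⟨htS, ht2⟩, ht1, htz⟩ := ht
      obtain ⟨hc1, hc2⟩ := hcon t htS ht2 ht1 htz
      have horb := orb_card S t
      obtain ⟨s, hs⟩ := hS.exists_card_eq
      have hκdvd : Nat.card (CE S t) ∣ 2 ^ s := by
        rw [← hs]; exact Subgroup.card_dvd_of_le (CE_le S t)
      obtain ⟨c, hcs, hκ⟩ := (Nat.dvd_prime_pow Nat.prime_two).mp hκdvd
      rw [hκ, hs] at horb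
      rw [hκ, hs] at hc1 hc2
      have hc_ne : c ≠ s := fun h => hc1 (by rw [h])
      have hc_ne2 : c + 1 ≠ s := fun h => hc2 (by rw [← h, pow_succ]; ring)
      have h2 : (orb S t).card = 2 ^ (s - c) := by
        have h3 : 2 ^ s = 2 ^ (s - c) * 2 ^ c := by
          rw [← pow_add]; congr 1; omega
        rw [h3] at horb
        exact Nat.eq_of_mul_eq_mul_right (by positivity) horb
      rw [h2]
      exact pow_dvd_pow 2 (by omega : 2 ≤ s - c)
  have hsplit := Finset.card_filter_add_card_filter_not (s := Yset S) (fun t => t ≠ 1 ∧ t ≠ z)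
  have hrest1 : 1 ≤ ((Yset S).filter (fun t => ¬ (t ≠ 1 ∧ t ≠ z))).card := by
    apply Finset.card_pos.mpr
    refine ⟨1, ?_⟩
    rw [Finset.mem_filter, mem_Yset]
    exact ⟨⟨S.one_mem, mul_one 1⟩, fun h => h.1 rfl⟩
  have hrest2 : ((Yset S).filter (fun t => ¬ (t ≠ 1 ∧ t ≠ z))).card ≤ 2 := by
    calc ((Yset S).filter (fun t => ¬ (t ≠ 1 ∧ t ≠ z))).card ≤ ({1, z} : Finset G).card := by
          apply Finset.card_le_card
          intro t ht
          rw [Finset.mem_filter] at ht
          have h1 := ht.2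
          rw [Finset.mem_insert, Finset.mem_singleton]
          by_contra h
          push Not at h
          exact h1 h
      _ ≤ 2 := Finset.card_le_two
  omega

/-- An involution `v` of `S` with `¬ Good v` commutes with no involution of `S` other than
`v`, `z`, `v z`, where `z` is a central involution of `S`. -/
theorem key_b (S : Subgroup G) (z : G) (hzS : z ∈ S) (hz2 : orderOf z = 2)
    (hzc : ∀ s ∈ S, s * z = z * s) (v : G) (hvS : v ∈ S) (hv2 : orderOf v = 2) (hvz : v ≠ z)
    (hbad : ¬ Good v) (w : G) (hwS : w ∈ S) (hw2 : orderOf w = 2) (hwv : w * v = v * w) :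
    w = v ∨ w = z ∨ w = v * z := by
  by_contra hnot
  push Not at hnot
  obtain ⟨hn1, hn2, hn3⟩ := hnot
  have hvv := inv_sq_of_orderOf_two hv2
  have hzz := inv_sq_of_orderOf_two hz2
  have hww := inv_sq_of_orderOf_two hw2
  have hv1 : v ≠ 1 := (orderOf_eq_two_iff'.mp hv2).2
  have hz1 : z ≠ 1 := (orderOf_eq_two_iff'.mp hz2).2
  have hw1 : w ≠ 1 := (orderOf_eq_two_iff'.mp hw2).2
  have hmemK : ∀ g, g ∈ CE S v ↔ g ∈ S ∧ v * g = g * v := fun g => mem_CE
  have hvK : v ∈ CE S v := (hmemK v).mpr ⟨hvS, rfl⟩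
  have hzK : z ∈ CE S v := (hmemK z).mpr ⟨hzS, hzc v hvS⟩
  have hwK : w ∈ CE S v := (hmemK w).mpr ⟨hwS, hwv.symm⟩
  obtain ⟨A1, -, hvA1, hA1K, hA1e, hA1c, hA1m⟩ := ext2 (A := ⊥) (K := CE S v) bot_le
    (fun a ha => by rw [Subgroup.mem_bot.mp ha, mul_one]) hvK hvv
    (fun h => hv1 (Subgroup.mem_bot.mp h))
    (fun a ha => by rw [Subgroup.mem_bot.mp ha, one_mul, mul_one])
  have hA1 : ∀ b ∈ A1, b = 1 ∨ b = v := by
    intro b hb
    obtain ⟨a, ha, h | h⟩ := hA1m b hb
    · left; rw [h]; exact Subgroup.mem_bot.mp ha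
    · right; rw [h, Subgroup.mem_bot.mp ha, one_mul]
  obtain ⟨A2, hA12, hzA2, hA2K, hA2e, hA2c, hA2m⟩ := ext2 (A := A1) (K := CE S v) hA1K hA1e
    hzK hzz
    (fun h => by
      rcases hA1 z h with h | h
      · exact hz1 h
      · exact hvz h.symm)
    (fun a ha => hzc a ((hmemK a).mp (hA1K ha)).1)
  have hA2 : ∀ b ∈ A2, b = 1 ∨ b = v ∨ b = z ∨ b = v * z := by
    intro b hb
    obtain ⟨a, ha, h | h⟩ := hA2m b hb
    · rcases hA1 a ha with h' | h'
      · left; rw [h, h']
      · right; left; rw [h, h']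
    · rcases hA1 a ha with h' | h'
      · right; right; left; rw [h, h', one_mul]
      · right; right; right; rw [h, h']
  obtain ⟨A3, -, -, hA3K, hA3e, hA3c, -⟩ := ext2 (A := A2) (K := CE S v) hA2K hA2e hwK hww
    (fun h => by
      rcases hA2 w h with h | h | h | h
      · exact hw1 h
      · exact hn1 h
      · exact hn2 h
      · exact hn3 h)
    (fun a ha => by
      have hwz : w * z = z * w := hzc w hwS
      rcases hA2 a ha with h | h | h | h
      · rw [h, one_mul, mul_one]
      · rw [h]; exact hwv.symm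
      · rw [h]; exact hwz.symm
      · rw [h]
        calc v * z * w = v * (z * w) := by group
          _ = v * (w * z) := by rw [hwz]
          _ = (v * w) * z := by group
          _ = (w * v) * z := by rw [hwv]
          _ = w * (v * z) := by group)
  apply hbad
  refine ⟨A3, fun e he => ?_, ?_, fun e he => ?_⟩
  · exact mem_centralizer_singleton.mpr ((hmemK e).mp (hA3K he)).2
  · rw [hA3c, hA2c, hA1c, Subgroup.card_bot]
  · rw [pow_two]; exact hA3e e he

end Count

end Cfsg.Agent.Helper2.R3
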