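import Mathlib
import Cfsg.Prelude.Def_RootSubgroups
import Cfsg.Agent.Helper2.SLGen

set_option autoImplicit false

/-!
Abstract "transvection root group" calculus: a group `G` with a monoid hom `em` into square
matrices, and subgroups of the shape `{t | em t = 1 + c • X}` for a square-zero matrix `X`.
-/

namespace Cfsg.Agent.Helper2.TvAbs

open Matrix
open scoped commutatorElement

/-! ### ring identities -/
section Ring
variable {R : Type*} [Ring R]

theorem one_add_mul_one_add (A B : R) : (1 + A) * (1 + B) = 1 + A + B + A * B := by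
  noncomm_ring

theorem comm_ring1 (P Q : R) (hPP : P * P = 0) (hQQ : Q * Q = 0) (hQP : Q * P = 0) :
    (1 + P) * (1 + Q) * (1 + -P) * (1 + -Q) = 1 + P * Q := by
  have e : (1 + P) * (1 + Q) * (1 + -P) * (1 + -Q)
      = 1 + P * Q - P * P - Q * P - Q * Q - P * (Q * P) - P * (Q * Q) + P * P * Q
        + Q * P * Q + P * (Q * P) * Q := by noncomm_ring
  rw [e, hPP, hQQ, hQP]
  simp

theorem conj_ring (P Q : R) (hPQP : P * Q * P = P) (hQPQ : Q * P * Q = Q) :
    (1 + -Q) * P * (1 + Q) = -((1 + -P) * Q * (1 + P)) := by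
  have e1 : (1 + -Q) * P * (1 + Q) = P + P * Q - Q * P - Q * P * Q := by noncomm_ring
  have e2 : (1 + -P) * Q * (1 + P) = Q + Q * P - P * Q - P * Q * P := by noncomm_ring
  rw [e1, e2, hPQP, hQPQ]
  abel

theorem conj_ring1 (Q X : R) (hQX : Q * X = 0) : (1 + -Q) * X * (1 + Q) = X + X * Q := by
  have e1 : (1 + -Q) * X * (1 + Q) = X + X * Q - Q * X - Q * X * Q := by noncomm_ring
  rw [e1, hQX]; simp

theorem conj_ring2 (X Y : R) (hYX : Y * X = 0) : (1 + -X) * Y * (1 + X) = Y - X * Y := by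
  have e2 : (1 + -X) * Y * (1 + X) = Y + Y * X - X * Y - X * (Y * X) := by noncomm_ring
  rw [e2, hYX]; simp

end Ring

/-! ### group-level lemmas -/
section Grp
variable {G : Type*} [Group G]

theorem nilp_of_comm {K : Type*} [hK : Group K] (h : ∀ a b : K, a * b = b * a) :
    Group.IsNilpotent K := by
  let _i : CommGroup K := { hK with mul_comm := h }
  infer_instance

theorem conjBy_conjBy (R : Subgroup G) (g₁ g : G) :
    Cfsg.conjBy (Cfsg.conjBy R g₁) g = Cfsg.conjBy R (g * g₁) := by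
  ext t
  constructor
  · intro ht
    obtain ⟨s, hs, rfl⟩ := Subgroup.mem_map.1 ht
    obtain ⟨r, hr, rfl⟩ := Subgroup.mem_map.1 hs
    refine Subgroup.mem_map.2 ⟨r, hr, ?_⟩
    show g * g₁ * r * (g * g₁)⁻¹ = g * (g₁ * r * g₁⁻¹) * g⁻¹
    group
  · intro ht
    obtain ⟨r, hr, rfl⟩ := Subgroup.mem_map.1 ht
    refine Subgroup.mem_map.2 ⟨g₁ * r * g₁⁻¹, Subgroup.mem_map.2 ⟨r, hr, rfl⟩, ?_⟩
    show g * (g₁ * r * g₁⁻¹) * g⁻¹ = g * g₁ * r * (g * g₁)⁻¹
    group

theorem conjBy_of_comm {A : Subgroup G} {g : G} (h : ∀ x ∈ A, g * x = x * g) :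
    Cfsg.conjBy A g = A := by
  ext t
  constructor
  · intro ht
    obtain ⟨s, hs, rfl⟩ := Subgroup.mem_map.1 ht
    show g * s * g⁻¹ ∈ A
    rw [h s hs, mul_inv_cancel_right]
    exact hs
  · intro ht
    refine Subgroup.mem_map.2 ⟨t, ht, ?_⟩
    show g * t * g⁻¹ = t
    rw [h t ht, mul_inv_cancel_right]

theorem not_rop_of_comm {A B : Subgroup G} (h : ⁅A, B⁆ = ⊥) {a : G} (ha : a ∈ A) (ha1 : a ≠ 1) :
    ¬ Cfsg.IsRankOnePair A B := by
  intro hp
  obtain ⟨b, hb, hb1, e⟩ := hp.cond_left a ha ha1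
  have hc : ∀ x ∈ A, ∀ y ∈ B, y * x = x * y := by
    intro x hx y hy
    have h1 := (Subgroup.commutator_eq_bot_iff_le_centralizer.1 h) hx
    exact Subgroup.mem_centralizer_iff.1 h1 y hy
  have e1 : Cfsg.conjBy A b⁻¹ = A := by
    apply conjBy_of_comm
    intro x hx
    have h2 := hc x hx b hb
    rw [inv_mul_eq_iff_eq_mul, ← mul_assoc, h2, mul_assoc, mul_inv_cancel, mul_one]
  have e2 : Cfsg.conjBy B a⁻¹ = B := by
    apply conjBy_of_comm
    intro y hy
    have h2 := hc a ha y hy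
    rw [inv_mul_eq_iff_eq_mul, ← mul_assoc, ← h2, mul_assoc, mul_inv_cancel, mul_one]
  rw [e1, e2] at e
  exact hp.ne e

theorem rcc_symm (S : Set (Subgroup G)) (A B : Subgroup G) (h : Cfsg.RootCommutatorCase S B A) :
    Cfsg.RootCommutatorCase S A B := by
  obtain ⟨h1, h2, h3, h4⟩ := h
  have hc : ⁅A, B⁆ = ⁅B, A⁆ := Subgroup.commutator_comm A B
  have key : ∀ (a : G) (T : Subgroup G),
      Subgroup.closure ((fun b : G => a * b * a⁻¹ * b⁻¹) '' (T : Set G))
        = Subgroup.closure ((fun b : G => b * a * b⁻¹ * a⁻¹) '' (T : Set G)) := by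
    intro a T
    rw [← Subgroup.closure_inv]
    congr 1
    ext y
    constructor
    · intro hy
      obtain ⟨b, hb, e⟩ := hy
      refine ⟨b, hb, ?_⟩
      show b * a * b⁻¹ * a⁻¹ = y
      have e' : a * b * a⁻¹ * b⁻¹ = y⁻¹ := e
      rw [← inv_inv y, ← e']
      group
    · intro hy
      obtain ⟨b, hb, e⟩ := hy
      refine ⟨b, hb, ?_⟩
      show a * b * a⁻¹ * b⁻¹ = y⁻¹
      have e' : b * a * b⁻¹ * a⁻¹ = y := e
      rw [← e']
      group
  refine ⟨hc ▸ h1, ?_, ?_, ?_⟩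
  · intro c hc' x hx
    rw [hc] at hc'
    rw [sup_comm] at hx
    exact h2 c hc' x hx
  · intro a ha ha1
    rw [key, hc]
    exact h4 a ha ha1
  · intro b hb hb1
    rw [hc, ← key]
    exact h3 b hb hb1

end Grp

/-! ### matrix-level lemmas -/
section Mat
variable {k : Type*} [Field k] {ι : Type*} [Fintype ι] [DecidableEq ι]
variable {G : Type*} [Group G]

/-- `H` is the "root group" of the matrix `X` -/
def IsRG (em : G →* Matrix ι ι k) (H : Subgroup G) (X : Matrix ι ι k) : Prop :=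
  ∀ t : G, t ∈ H ↔ ∃ c : k, em t = 1 + c • X

/-- all `1 + c X` are realised in `G` -/
def Full (em : G →* Matrix ι ι k) (X : Matrix ι ι k) : Prop :=
  ∀ c : k, ∃ t : G, em t = 1 + c • X

variable {em : G →* Matrix ι ι k}

theorem one_add_eq {X : Matrix ι ι k} (h : (1 : Matrix ι ι k) = 1 + X) : X = 0 :=
  (add_left_cancel (a := (1 : Matrix ι ι k)) (by rw [add_zero]; exact h)).symm

theorem em_inv_mul (t : G) : em t⁻¹ * em t = 1 := by
  rw [← map_mul, inv_mul_cancel, map_one]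

theorem em_mul_inv (t : G) : em t * em t⁻¹ = 1 := by
  rw [← map_mul, mul_inv_cancel, map_one]

theorem em_inv {t : G} {P : Matrix ι ι k} (ht : em t = 1 + P) (hPP : P * P = 0) :
    em t⁻¹ = 1 + -P := by
  have h1 : em t * (1 + -P) = 1 := by
    rw [ht]
    have e : (1 + P) * (1 + -P) = 1 - P * P := by noncomm_ring
    rw [e, hPP, sub_zero]
  calc em t⁻¹ = em t⁻¹ * (em t * (1 + -P)) := by rw [h1, mul_one]
    _ = (em t⁻¹ * em t) * (1 + -P) := by rw [mul_assoc]
    _ = 1 + -P := by rw [em_inv_mul, one_mul]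

theorem smul_sq {X : Matrix ι ι k} (hXX : X * X = 0) (c : k) : (c • X) * (c • X) = 0 := by
  rw [smul_mul_assoc, mul_smul_comm, hXX, smul_zero, smul_zero]

theorem smul_triple (X Y : Matrix ι ι k) (p q : k) :
    (p • X) * (q • Y) * (p • X) = (p * q * p) • (X * Y * X) := by
  simp only [smul_mul_assoc, mul_smul_comm, smul_smul]
  congr 1
  ring

theorem coef_ne (hem : Function.Injective em) {a : G} {c : k} {X : Matrix ι ι k}
    (hc : em a = 1 + c • X) (ha : a ≠ 1) : c ≠ 0 := by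
  intro h0
  apply ha
  apply hem
  rw [hc, h0, zero_smul, add_zero, map_one]

/-- the subgroup `{t | em t = 1 + c • X}` -/
def rgSub (em : G →* Matrix ι ι k) (X : Matrix ι ι k) (hXX : X * X = 0) : Subgroup G where
  carrier := {t | ∃ c : k, em t = 1 + c • X}
  mul_mem' := by
    rintro a b ⟨c, hc⟩ ⟨d, hd⟩
    refine ⟨c + d, ?_⟩
    rw [map_mul, hc, hd]
    simp only [mul_add, add_mul, mul_one, one_mul, smul_mul_assoc, mul_smul_comm, hXX, smul_zero,
      add_smul, add_zero]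
    abel
  one_mem' := ⟨0, by rw [map_one, zero_smul, add_zero]⟩
  inv_mem' := by
    rintro a ⟨c, hc⟩
    refine ⟨-c, ?_⟩
    rw [em_inv hc (smul_sq hXX c), neg_smul]

theorem rgSub_isRG (em : G →* Matrix ι ι k) (X : Matrix ι ι k) (hXX : X * X = 0) :
    IsRG em (rgSub em X hXX) X := fun _ => Iff.rfl

theorem rg_ext {H K : Subgroup G} {X : Matrix ι ι k} (hH : IsRG em H X) (hK : IsRG em K X) :
    H = K := by
  ext t; rw [hH t, hK t]

theorem rg_smul {H : Subgroup G} {X : Matrix ι ι k} (hH : IsRG em H X) {l : k} (hl : l ≠ 0) :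
    IsRG em H (l • X) := by
  intro t
  rw [hH t]
  constructor
  · rintro ⟨c, hc⟩
    refine ⟨c * l⁻¹, ?_⟩
    rw [hc, smul_smul, mul_assoc, inv_mul_cancel₀ hl, mul_one]
  · rintro ⟨c, hc⟩
    exact ⟨c * l, by rw [hc, smul_smul]⟩

theorem rg_ext_smul {H K : Subgroup G} {X Y : Matrix ι ι k} (hH : IsRG em H X) (hK : IsRG em K Y)
    {l : k} (hl : l ≠ 0) (hXY : X = l • Y) : H = K := by
  have h1 : IsRG em K X := by rw [hXY]; exact rg_smul hK hl
  exact rg_ext hH h1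

theorem rg_conj {H : Subgroup G} {X : Matrix ι ι k} (hH : IsRG em H X) (g : G) :
    IsRG em (Cfsg.conjBy H g) (em g * X * em g⁻¹) := by
  intro t
  constructor
  · intro ht
    obtain ⟨s, hs, rfl⟩ := Subgroup.mem_map.1 ht
    obtain ⟨c, hc⟩ := (hH s).1 hs
    refine ⟨c, ?_⟩
    show em (g * s * g⁻¹) = _
    rw [map_mul, map_mul, hc, mul_add, add_mul, mul_one, em_mul_inv, Matrix.mul_smul,
      Matrix.smul_mul]
  · rintro ⟨c, hc⟩
    have e : em g⁻¹ * (em g * X * em g⁻¹) * em g = X := by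
      calc em g⁻¹ * (em g * X * em g⁻¹) * em g = (em g⁻¹ * em g) * X * (em g⁻¹ * em g) := by
            simp only [mul_assoc]
        _ = X := by rw [em_inv_mul, one_mul, mul_one]
    refine Subgroup.mem_map.2 ⟨g⁻¹ * t * g, (hH _).2 ⟨c, ?_⟩, ?_⟩
    · rw [map_mul, map_mul, hc, mul_add, add_mul, mul_one, em_inv_mul, Matrix.mul_smul,
        Matrix.smul_mul, e]
    · show g * (g⁻¹ * t * g) * g⁻¹ = t
      group

theorem full_conj {X : Matrix ι ι k} (fX : Full em X) (g : G) :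
    Full em (em g * X * em g⁻¹) := by
  intro c
  obtain ⟨t, ht⟩ := fX c
  refine ⟨g * t * g⁻¹, ?_⟩
  rw [map_mul, map_mul, ht, mul_add, add_mul, mul_one, em_mul_inv, Matrix.mul_smul,
    Matrix.smul_mul]

theorem conj_sq {X : Matrix ι ι k} (hXX : X * X = 0) (g : G) :
    (em g * X * em g⁻¹) * (em g * X * em g⁻¹) = 0 := by
  calc (em g * X * em g⁻¹) * (em g * X * em g⁻¹)
      = em g * X * (em g⁻¹ * em g) * X * em g⁻¹ := by simp only [mul_assoc]
    _ = 0 := by rw [em_inv_mul, mul_one, mul_assoc (em g) X X, hXX, mul_zero, zero_mul]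

theorem conj_ne {X : Matrix ι ι k} (hX : X ≠ 0) (g : G) : em g * X * em g⁻¹ ≠ 0 := by
  intro h
  apply hX
  calc X = (em g⁻¹ * em g) * X * (em g⁻¹ * em g) := by rw [em_inv_mul, one_mul, mul_one]
    _ = em g⁻¹ * (em g * X * em g⁻¹) * em g := by simp only [mul_assoc]
    _ = 0 := by rw [h, mul_zero, zero_mul]

theorem rg_eq_imp {H₁ H₂ : Subgroup G} {X₁ X₂ : Matrix ι ι k} (h1 : IsRG em H₁ X₁)
    (h2 : IsRG em H₂ X₂) (f1 : Full em X₁) (e : H₁ = H₂) : ∃ c : k, X₁ = c • X₂ := by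
  obtain ⟨t, ht⟩ := f1 1
  have h3 : t ∈ H₂ := by rw [← e]; exact (h1 t).2 ⟨1, ht⟩
  obtain ⟨c, hc⟩ := (h2 t).1 h3
  refine ⟨c, ?_⟩
  rw [ht, one_smul] at hc
  exact add_left_cancel hc

theorem rg_comm (hem : Function.Injective em) {H : Subgroup G} {X : Matrix ι ι k}
    (hH : IsRG em H X) : IsMulCommutative H := by
  refine ⟨⟨fun a b => Subtype.ext (hem ?_)⟩⟩
  obtain ⟨c, hc⟩ := (hH a).1 a.2
  obtain ⟨d, hd⟩ := (hH b).1 b.2
  show em ((a : G) * (b : G)) = em ((b : G) * (a : G))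
  rw [map_mul, map_mul, hc, hd]
  simp only [mul_add, add_mul, mul_one, one_mul, smul_mul_assoc, mul_smul_comm, smul_add]
  rw [smul_comm d c (X * X)]
  abel

theorem rg_ne_bot {H : Subgroup G} {X : Matrix ι ι k} (hH : IsRG em H X) (fH : Full em X)
    (hX : X ≠ 0) : H ≠ ⊥ := by
  intro h
  obtain ⟨a, ha⟩ := fH 1
  have h1 : a ∈ H := (hH a).2 ⟨1, ha⟩
  rw [h, Subgroup.mem_bot] at h1
  rw [h1, map_one, one_smul] at ha
  exact hX (one_add_eq ha)

theorem elt_comm {X Y : Matrix ι ι k} (hem : Function.Injective em) {a b : G} {c d : k}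
    (hc : em a = 1 + c • X) (hd : em b = 1 + d • Y) (hXY : X * Y = 0) (hYX : Y * X = 0) :
    a * b = b * a := by
  apply hem
  rw [map_mul, map_mul, hc, hd]
  simp only [mul_add, add_mul, mul_one, one_mul, smul_mul_assoc, mul_smul_comm, hXY, hYX,
    smul_zero, add_zero]
  abel

theorem rg_commute {H K : Subgroup G} {X Y : Matrix ι ι k} (hem : Function.Injective em)
    (hH : IsRG em H X) (hK : IsRG em K Y) (hXY : X * Y = 0) (hYX : Y * X = 0) : ⁅H, K⁆ = ⊥ := by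
  rw [Subgroup.commutator_eq_bot_iff_le_centralizer]
  intro a ha
  rw [Subgroup.mem_centralizer_iff]
  intro b hb
  obtain ⟨c, hc⟩ := (hH a).1 ha
  obtain ⟨d, hd⟩ := (hK b).1 hb
  exact (elt_comm hem hc hd hXY hYX).symm

theorem comm_formula {X Y : Matrix ι ι k} {a b : G} {c d : k}
    (hc : em a = 1 + c • X) (hd : em b = 1 + d • Y) (hXX : X * X = 0) (hYY : Y * Y = 0)
    (hYX : Y * X = 0) :
    em (a * b * a⁻¹ * b⁻¹) = 1 + (c * d) • (X * Y) := by
  have hP : (c • X) * (c • X) = 0 := smul_sq hXX c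
  have hQ : (d • Y) * (d • Y) = 0 := smul_sq hYY d
  have hQP : (d • Y) * (c • X) = 0 := by
    rw [smul_mul_assoc, mul_smul_comm, hYX, smul_zero, smul_zero]
  rw [map_mul, map_mul, map_mul, em_inv hc hP, em_inv hd hQ, hc, hd, comm_ring1 _ _ hP hQ hQP,
    smul_mul_assoc, mul_smul_comm, smul_smul]

theorem comm_case (hem : Function.Injective em) {H K C : Subgroup G} {X Y : Matrix ι ι k}
    (hH : IsRG em H X) (hK : IsRG em K Y) (hC : IsRG em C (X * Y))
    (fH : Full em X) (fK : Full em Y)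
    (hXX : X * X = 0) (hYY : Y * Y = 0) (hYX : Y * X = 0) :
    ⁅H, K⁆ = C ∧ (∀ c ∈ C, ∀ x ∈ H ⊔ K, c * x = x * c) ∧
    (∀ a ∈ H, a ≠ 1 → Subgroup.closure ((fun b : G => a * b * a⁻¹ * b⁻¹) '' (K : Set G)) = C) ∧
    (∀ b ∈ K, b ≠ 1 → Subgroup.closure ((fun a : G => a * b * a⁻¹ * b⁻¹) '' (H : Set G)) = C) := by
  have hmem : ∀ a ∈ H, ∀ b ∈ K, a * b * a⁻¹ * b⁻¹ ∈ C := by
    intro a ha b hb
    obtain ⟨c, hc⟩ := (hH a).1 ha
    obtain ⟨d, hd⟩ := (hK b).1 hb
    exact (hC _).2 ⟨c * d, comm_formula hc hd hXX hYY hYX⟩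
  have hcomm : ⁅H, K⁆ = C := by
    apply le_antisymm
    · rw [Subgroup.commutator_le]
      intro a ha b hb
      rw [commutatorElement_def]
      exact hmem a ha b hb
    · intro t ht
      obtain ⟨e, he⟩ := (hC t).1 ht
      obtain ⟨a, ha⟩ := fH 1
      obtain ⟨b, hb⟩ := fK e
      have h1 : t = ⁅a, b⁆ := by
        apply hem
        rw [commutatorElement_def, comm_formula ha hb hXX hYY hYX, he, one_mul]
      rw [h1]
      exact Subgroup.commutator_mem_commutator ((hH a).2 ⟨1, ha⟩) ((hK b).2 ⟨e, hb⟩)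
  have z1 : X * Y * X = 0 := by rw [mul_assoc, hYX, mul_zero]
  have z2 : X * (X * Y) = 0 := by rw [← mul_assoc, hXX, zero_mul]
  have z3 : X * Y * Y = 0 := by rw [mul_assoc, hYY, mul_zero]
  have z4 : Y * (X * Y) = 0 := by rw [← mul_assoc, hYX, zero_mul]
  refine ⟨hcomm, ?_, ?_, ?_⟩
  · intro c hc x hx
    obtain ⟨e, he⟩ := (hC c).1 hc
    have h1 : H ⊔ K ≤ Subgroup.centralizer {c} := by
      apply sup_le
      · intro a ha
        obtain ⟨a0, ha0⟩ := (hH a).1 ha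
        rw [Subgroup.mem_centralizer_iff]
        intro h hh
        rw [Set.mem_singleton_iff] at hh
        rw [hh]
        exact elt_comm hem he ha0 z1 z2
      · intro b hb
        obtain ⟨b0, hb0⟩ := (hK b).1 hb
        rw [Subgroup.mem_centralizer_iff]
        intro h hh
        rw [Set.mem_singleton_iff] at hh
        rw [hh]
        exact elt_comm hem he hb0 z3 z4
    have h2 := h1 hx
    rw [Subgroup.mem_centralizer_iff] at h2
    exact h2 c (Set.mem_singleton c)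
  · intro a ha ha1
    obtain ⟨a0, ha0⟩ := (hH a).1 ha
    have hne0 : a0 ≠ 0 := coef_ne hem ha0 ha1
    apply le_antisymm
    · rw [Subgroup.closure_le]
      rintro _ ⟨b, hb, rfl⟩
      exact hmem a ha b hb
    · intro t ht
      obtain ⟨e, he⟩ := (hC t).1 ht
      obtain ⟨b, hb⟩ := fK (a0⁻¹ * e)
      apply Subgroup.subset_closure
      refine ⟨b, (hK b).2 ⟨_, hb⟩, hem ?_⟩
      show em (a * b * a⁻¹ * b⁻¹) = em t
      rw [comm_formula ha0 hb hXX hYY hYX, he, ← mul_assoc, mul_inv_cancel₀ hne0, one_mul]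
  · intro b hb hb1
    obtain ⟨b0, hb0⟩ := (hK b).1 hb
    have hne0 : b0 ≠ 0 := coef_ne hem hb0 hb1
    apply le_antisymm
    · rw [Subgroup.closure_le]
      rintro _ ⟨a, ha, rfl⟩
      exact hmem a ha b hb
    · intro t ht
      obtain ⟨e, he⟩ := (hC t).1 ht
      obtain ⟨a, ha⟩ := fH (e * b0⁻¹)
      apply Subgroup.subset_closure
      refine ⟨a, (hH a).2 ⟨_, ha⟩, hem ?_⟩
      show em (a * b * a⁻¹ * b⁻¹) = em t
      rw [comm_formula ha hb0 hXX hYY hYX, he, mul_assoc, inv_mul_cancel₀ hne0, mul_one]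

theorem rank_one_core {H K : Subgroup G} {P Q : Matrix ι ι k} (hH : IsRG em H P)
    (hK : IsRG em K Q) {a b : G} (ea : em a = 1 + P) (eb : em b = 1 + Q) (hPP : P * P = 0)
    (hQQ : Q * Q = 0) (hPQP : P * Q * P = P) (hQPQ : Q * P * Q = Q) :
    Cfsg.conjBy H b⁻¹ = Cfsg.conjBy K a⁻¹ := by
  have h1 := rg_conj hH b⁻¹
  have h2 := rg_conj hK a⁻¹
  rw [inv_inv, em_inv eb hQQ, eb] at h1
  rw [inv_inv, em_inv ea hPP, ea] at h2
  refine rg_ext_smul h1 h2 (l := -1) (neg_ne_zero.2 one_ne_zero) ?_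
  rw [neg_smul, one_smul]
  exact conj_ring P Q hPQP hQPQ

theorem rank_one_cond (hem : Function.Injective em) {H K : Subgroup G} {X Y : Matrix ι ι k}
    (hH : IsRG em H X) (hK : IsRG em K Y) (fK : Full em Y) (hXX : X * X = 0) (hYY : Y * Y = 0)
    {γ : k} (hγ : γ ≠ 0) (hXYX : X * Y * X = γ • X) (hYXY : Y * X * Y = γ • Y) :
    Cfsg.RankOneCondition H K := by
  intro a ha ha1
  obtain ⟨a0, ea⟩ := (hH a).1 ha
  have ha0 : a0 ≠ 0 := coef_ne hem ea ha1
  have hX0 : X ≠ 0 := by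
    intro h0; apply ha1; apply hem; rw [ea, h0, smul_zero, add_zero, map_one]
  obtain ⟨b0, hb0def⟩ : ∃ b0 : k, b0 = (a0 * γ)⁻¹ := ⟨_, rfl⟩
  have hb : a0 * γ * b0 = 1 := by rw [hb0def]; exact mul_inv_cancel₀ (mul_ne_zero ha0 hγ)
  have hb0 : b0 ≠ 0 := by rw [hb0def]; exact inv_ne_zero (mul_ne_zero ha0 hγ)
  obtain ⟨b, eb⟩ := fK b0
  have hbK : b ∈ K := (hK b).2 ⟨_, eb⟩
  have hY0 : Y ≠ 0 := by
    intro h0
    apply hX0
    have h1 : γ • X = 0 := by rw [← hXYX, h0, mul_zero, zero_mul]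
    rcases smul_eq_zero.1 h1 with h | h
    · exact absurd h hγ
    · exact h
  have hb1 : b ≠ 1 := by
    intro h1
    rw [h1, map_one] at eb
    rcases smul_eq_zero.1 (one_add_eq eb) with h | h
    · exact hb0 h
    · exact hY0 h
  refine ⟨b, hbK, hb1, ?_⟩
  have hH' : IsRG em H (a0 • X) := rg_smul hH ha0
  have hK' : IsRG em K (b0 • Y) := rg_smul hK hb0
  have hPQP : (a0 • X) * (b0 • Y) * (a0 • X) = a0 • X := by
    rw [smul_triple, hXYX, smul_smul]
    congr 1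
    calc a0 * b0 * a0 * γ = a0 * (a0 * γ * b0) := by ring
      _ = a0 := by rw [hb, mul_one]
  have hQPQ : (b0 • Y) * (a0 • X) * (b0 • Y) = b0 • Y := by
    rw [smul_triple, hYXY, smul_smul]
    congr 1
    calc b0 * a0 * b0 * γ = b0 * (a0 * γ * b0) := by ring
      _ = b0 := by rw [hb, mul_one]
  exact rank_one_core hH' hK' ea eb (smul_sq hXX a0) (smul_sq hYY b0) hPQP hQPQ

theorem rank_one_pair (hem : Function.Injective em) {H K : Subgroup G} {X Y : Matrix ι ι k}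
    (hH : IsRG em H X) (hK : IsRG em K Y) (fH : Full em X) (fK : Full em Y)
    (hXX : X * X = 0) (hYY : Y * Y = 0) (hX0 : X ≠ 0)
    {γ : k} (hγ : γ ≠ 0) (hXYX : X * Y * X = γ • X) (hYXY : Y * X * Y = γ • Y) :
    Cfsg.IsRankOnePair H K := by
  refine ⟨?_, ?_, ?_, rank_one_cond hem hH hK fK hXX hYY hγ hXYX hYXY,
    rank_one_cond hem hK hH fH hYY hXX hγ hYXY hXYX⟩
  · intro hHK
    obtain ⟨c, hc⟩ := rg_eq_imp hH hK fH hHK
    have h1 : γ • X = 0 := by
      rw [← hXYX, hc, smul_mul_assoc, hYY, smul_zero, zero_mul]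
    rcases smul_eq_zero.1 h1 with h | h
    · exact hγ h
    · exact hX0 h
  · exact nilp_of_comm (fun a b => (rg_comm hem hH).is_comm.comm a b)
  · exact nilp_of_comm (fun a b => (rg_comm hem hK).is_comm.comm a b)

theorem not_cond_comm_case {H K : Subgroup G} {X Y : Matrix ι ι k}
    (hH : IsRG em H X) (hK : IsRG em K Y) (fH : Full em X)
    (hXX : X * X = 0) (hYY : Y * Y = 0) (hYX : Y * X = 0) (hXY : X * Y ≠ 0) :
    ¬ Cfsg.RankOneCondition H K := by
  intro hcond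
  have hX0 : X ≠ 0 := by
    intro h; apply hXY; rw [h, zero_mul]
  obtain ⟨a, ea⟩ := fH 1
  have haH : a ∈ H := (hH a).2 ⟨1, ea⟩
  rw [one_smul] at ea
  have ha1 : a ≠ 1 := by
    intro h
    rw [h, map_one] at ea
    exact hX0 (one_add_eq ea)
  obtain ⟨b, hbK, hb1, e⟩ := hcond a haH ha1
  obtain ⟨b0, eb⟩ := (hK b).1 hbK
  obtain ⟨Q, hQ⟩ : ∃ Q, Q = b0 • Y := ⟨_, rfl⟩
  rw [← hQ] at eb
  have hQQ : Q * Q = 0 := by rw [hQ]; exact smul_sq hYY b0
  have hQX : Q * X = 0 := by rw [hQ, smul_mul_assoc, hYX, smul_zero]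
  have hQY : Q * Y = 0 := by rw [hQ, smul_mul_assoc, hYY, smul_zero]
  have h1 := rg_conj hH b⁻¹
  have h2 := rg_conj hK a⁻¹
  rw [inv_inv, em_inv eb hQQ, eb] at h1
  rw [inv_inv, em_inv ea hXX, ea] at h2
  have f1 : Full em ((1 + -Q) * X * (1 + Q)) := by
    have h3 := full_conj fH b⁻¹
    rw [inv_inv, em_inv eb hQQ, eb] at h3
    exact h3
  obtain ⟨c, hc⟩ := rg_eq_imp h1 h2 f1 e
  rw [conj_ring1 Q X hQX, conj_ring2 X Y hYX] at hc
  have E1 : X * (X + X * Q) = X * (c • (Y - X * Y)) := by rw [hc]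
  rw [mul_add, ← mul_assoc X X Q, hXX, zero_mul, add_zero, mul_smul_comm, mul_sub,
    ← mul_assoc X X Y, hXX, zero_mul, sub_zero] at E1
  have hc0 : c = 0 := by
    rcases smul_eq_zero.1 E1.symm with h | h
    · exact h
    · exact absurd h hXY
  rw [hc0, zero_smul] at hc
  have E2 : (X + X * Q) * Y = 0 := by rw [hc, zero_mul]
  rw [add_mul, mul_assoc X Q Y, hQY, mul_zero, add_zero] at E2
  exact hXY E2

end Mat

end Cfsg.Agent.Helper2.TvAbs
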