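import Mathlib
import Cfsg.Prelude.Def_RootSubgroups
import Cfsg.Agent.Helper2.SLGen
import Cfsg.Agent.Helper2.TvAbs

set_option autoImplicit false

/-!
Rank one matrices `vecMulVec u φ`, the embedding `M ↦ 1 + E (M - 1) F` of `2 × 2` matrices, the
abstract `SL₂`-pair lemma, and the instance for `SL_ι(k)`.
-/

namespace Cfsg.Agent.Helper2.TvAbs

open Matrix

section Vec
variable {k : Type*} [Field k] {ι : Type*} [Fintype ι] [DecidableEq ι]

theorem vv_mul' (u φ v ψ : ι → k) :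
    vecMulVec u φ * vecMulVec v ψ = (φ ⬝ᵥ v) • vecMulVec u ψ := by
  rw [Matrix.vecMulVec_mul_vecMulVec, Matrix.vecMulVec_smul]

theorem vv_sq' {u φ : ι → k} (h : φ ⬝ᵥ u = 0) : vecMulVec u φ * vecMulVec u φ = 0 := by
  rw [vv_mul', h, zero_smul]

theorem vv_triple (u φ v ψ : ι → k) :
    vecMulVec u φ * vecMulVec v ψ * vecMulVec u φ
      = ((φ ⬝ᵥ v) * (ψ ⬝ᵥ u)) • vecMulVec u φ := by
  rw [vv_mul', smul_mul_assoc, vv_mul', smul_smul]

theorem vv_ne_zero' {u φ : ι → k} (hu : u ≠ 0) (hφ : φ ≠ 0) : vecMulVec u φ ≠ 0 := by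
  intro h
  rcases Matrix.vecMulVec_eq_zero.1 h with h1 | h1
  · exact hu h1
  · exact hφ h1

theorem vv_data {u φ : ι → k} (hne : vecMulVec u φ ≠ 0)
    (hsq : vecMulVec u φ * vecMulVec u φ = 0) : u ≠ 0 ∧ φ ≠ 0 ∧ φ ⬝ᵥ u = 0 := by
  refine ⟨?_, ?_, ?_⟩
  · intro h
    apply hne
    rw [h, Matrix.zero_vecMulVec]
  · intro h
    apply hne
    rw [h, Matrix.vecMulVec_zero]
  · rw [vv_mul'] at hsq
    rcases smul_eq_zero.1 hsq with h | h
    · exact h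
    · exact absurd h hne

theorem vv_mulVec' (u φ x : ι → k) : vecMulVec u φ *ᵥ x = (φ ⬝ᵥ x) • u := by
  ext i
  rw [Matrix.vecMulVec_mulVec]
  simp [mul_comm]

theorem ei_ej {i j : ι} (hij : i ≠ j) :
    (Pi.single j (1 : k) : ι → k) ⬝ᵥ Pi.single i 1 = 0 := by
  rw [dotProduct_single, mul_one, Pi.single_eq_of_ne hij]

theorem ei_ei (i : ι) : (Pi.single i (1 : k) : ι → k) ⬝ᵥ Pi.single i 1 = 1 := by
  rw [dotProduct_single, mul_one, Pi.single_eq_same]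

theorem ei_ne (i : ι) : (Pi.single i (1 : k) : ι → k) ≠ 0 := by
  intro h
  have h1 := congrFun h i
  rw [Pi.single_eq_same, Pi.zero_apply] at h1
  exact one_ne_zero h1

theorem exists_w (φ ψ : ι → k) (hφ : φ ≠ 0) (hψ : ψ ≠ 0) :
    ∃ w : ι → k, φ ⬝ᵥ w ≠ 0 ∧ ψ ⬝ᵥ w ≠ 0 := by
  obtain ⟨i, hi⟩ := Function.ne_iff.1 hφ
  obtain ⟨j, hj⟩ := Function.ne_iff.1 hψ
  have h1 : φ ⬝ᵥ Pi.single i 1 ≠ 0 := by rw [dotProduct_single, mul_one]; exact hi
  have h2 : ψ ⬝ᵥ Pi.single j 1 ≠ 0 := by rw [dotProduct_single, mul_one]; exact hj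
  by_cases h3 : ψ ⬝ᵥ Pi.single i 1 = 0
  · by_cases h4 : φ ⬝ᵥ Pi.single j 1 = 0
    · refine ⟨Pi.single i 1 + Pi.single j 1, ?_, ?_⟩
      · rw [dotProduct_add, h4, add_zero]; exact h1
      · rw [dotProduct_add, h3, zero_add]; exact h2
    · exact ⟨_, h4, h2⟩
  · exact ⟨_, h1, h3⟩

theorem exists_chi (u v w φ ψ : ι → k) (hu : u ≠ 0) (hv : v ≠ 0) (hφu : φ ⬝ᵥ u = 0)
    (hψv : ψ ⬝ᵥ v = 0) (hφw : φ ⬝ᵥ w ≠ 0) (hψw : ψ ⬝ᵥ w ≠ 0) :
    ∃ χ : ι → k, χ ⬝ᵥ w = 0 ∧ χ ⬝ᵥ u ≠ 0 ∧ χ ⬝ᵥ v ≠ 0 := by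
  have key : ∀ (u φ : ι → k), u ≠ 0 → φ ⬝ᵥ u = 0 → φ ⬝ᵥ w ≠ 0 →
      ∃ χ : ι → k, χ ⬝ᵥ w = 0 ∧ χ ⬝ᵥ u ≠ 0 := by
    intro u φ hu hφu hφw
    obtain ⟨i, hi⟩ := Function.ne_iff.1 hu
    refine ⟨(φ ⬝ᵥ w) • Pi.single i 1 - w i • φ, ?_, ?_⟩
    · rw [sub_dotProduct, smul_dotProduct, smul_dotProduct, single_dotProduct, one_mul,
        smul_eq_mul, smul_eq_mul]
      ring
    · rw [sub_dotProduct, smul_dotProduct, smul_dotProduct, single_dotProduct, one_mul, hφu,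
        smul_zero, sub_zero, smul_eq_mul]
      exact mul_ne_zero hφw hi
  obtain ⟨χ₁, h1w, h1u⟩ := key u φ hu hφu hφw
  obtain ⟨χ₂, h2w, h2v⟩ := key v ψ hv hψv hψw
  by_cases h3 : χ₁ ⬝ᵥ v = 0
  · by_cases h4 : χ₂ ⬝ᵥ u = 0
    · refine ⟨χ₁ + χ₂, ?_, ?_, ?_⟩
      · rw [add_dotProduct, h1w, h2w, add_zero]
      · rw [add_dotProduct, h4, add_zero]; exact h1u
      · rw [add_dotProduct, h3, zero_add]; exact h2v
    · exact ⟨χ₂, h2w, h4, h2v⟩
  · exact ⟨χ₁, h1w, h1u, h3⟩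

/-! ### the embedding of `2 × 2` matrices -/

/-- the matrix with columns `u`, `v` -/
def Emat (u v : ι → k) : Matrix ι (Fin 2) k := Matrix.of fun i a => if a = 0 then u i else v i

/-- the matrix with rows `f₀`, `f₁` -/
def Fmat (f₀ f₁ : ι → k) : Matrix (Fin 2) ι k := Matrix.of fun a j => if a = 0 then f₀ j else f₁ j

theorem FE_eq_one {u v f₀ f₁ : ι → k} (h00 : f₀ ⬝ᵥ u = 1) (h01 : f₀ ⬝ᵥ v = 0)
    (h10 : f₁ ⬝ᵥ u = 0) (h11 : f₁ ⬝ᵥ v = 1) : Fmat f₀ f₁ * Emat u v = 1 := by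
  have key : ∀ a b : Fin 2, (Fmat f₀ f₁ * Emat u v) a b
      = (if a = 0 then f₀ else f₁) ⬝ᵥ (if b = 0 then u else v) := by
    intro a b
    rw [Matrix.mul_apply]
    unfold dotProduct
    apply Finset.sum_congr rfl
    intro j _
    simp only [Fmat, Emat, Matrix.of_apply]
    split_ifs <;> rfl
  ext a b
  rw [key]
  fin_cases a <;> fin_cases b <;> simp [h00, h01, h10, h11]

theorem rho_entry (E : Matrix ι (Fin 2) k) (Fm : Matrix (Fin 2) ι k)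
    (N : Matrix (Fin 2) (Fin 2) k) (i j : ι) :
    (E * N * Fm) i j = E i 0 * N 0 0 * Fm 0 j + E i 0 * N 0 1 * Fm 1 j + E i 1 * N 1 0 * Fm 0 j
      + E i 1 * N 1 1 * Fm 1 j := by
  rw [Matrix.mul_apply, Fin.sum_univ_two, Matrix.mul_apply, Matrix.mul_apply, Fin.sum_univ_two,
    Fin.sum_univ_two]
  ring

theorem E_single01 (u v f₀ f₁ : ι → k) :
    Emat u v * (Matrix.single 0 1 1 : Matrix (Fin 2) (Fin 2) k) * Fmat f₀ f₁ = vecMulVec u f₁ := by
  ext i j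
  rw [rho_entry]
  simp [Emat, Fmat, Matrix.vecMulVec_apply]

theorem E_single10 (u v f₀ f₁ : ι → k) :
    Emat u v * (Matrix.single 1 0 1 : Matrix (Fin 2) (Fin 2) k) * Fmat f₀ f₁ = vecMulVec v f₀ := by
  ext i j
  rw [rho_entry]
  simp [Emat, Fmat, Matrix.vecMulVec_apply]

/-- `M ↦ 1 + E (M - 1) F`, a monoid hom when `F E = 1` -/
def rhoM (E : Matrix ι (Fin 2) k) (Fm : Matrix (Fin 2) ι k) (hFE : Fm * E = 1) :
    Matrix (Fin 2) (Fin 2) k →* Matrix ι ι k where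
  toFun M := 1 + E * (M - 1) * Fm
  map_one' := by rw [sub_self, Matrix.mul_zero, Matrix.zero_mul, add_zero]
  map_mul' := by
    intro M N
    have h1 : E * (M - 1) * Fm * (E * (N - 1) * Fm) = E * ((M - 1) * (N - 1)) * Fm := by
      calc E * (M - 1) * Fm * (E * (N - 1) * Fm)
          = E * (M - 1) * (Fm * E) * (N - 1) * Fm := by simp only [Matrix.mul_assoc]
        _ = E * ((M - 1) * (N - 1)) * Fm := by
            rw [hFE, Matrix.mul_one]; simp only [Matrix.mul_assoc]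
    have h2 : M * N - 1 = (M - 1) + (N - 1) + (M - 1) * (N - 1) := by noncomm_ring
    show 1 + E * (M * N - 1) * Fm = (1 + E * (M - 1) * Fm) * (1 + E * (N - 1) * Fm)
    rw [one_add_mul_one_add, h1, h2, Matrix.mul_add, Matrix.mul_add, Matrix.add_mul,
      Matrix.add_mul]
    abel

theorem rhoM_apply (E : Matrix ι (Fin 2) k) (Fm : Matrix (Fin 2) ι k) (hFE : Fm * E = 1)
    (M : Matrix (Fin 2) (Fin 2) k) : rhoM E Fm hFE M = 1 + E * (M - 1) * Fm := rfl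

theorem det_rhoM (E : Matrix ι (Fin 2) k) (Fm : Matrix (Fin 2) ι k) (hFE : Fm * E = 1)
    (M : Matrix (Fin 2) (Fin 2) k) : det (rhoM E Fm hFE M) = det M := by
  rw [rhoM_apply, Matrix.mul_assoc, Matrix.det_one_add_mul_comm, Matrix.mul_assoc, hFE,
    Matrix.mul_one, add_sub_cancel]

/-- upper unitriangular element -/
def upT (c : k) : SpecialLinearGroup (Fin 2) k :=
  ⟨!![1, c; 0, 1], by rw [Matrix.det_fin_two_of]; ring⟩

/-- lower unitriangular element -/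
def loT (c : k) : SpecialLinearGroup (Fin 2) k :=
  ⟨!![1, 0; c, 1], by rw [Matrix.det_fin_two_of]; ring⟩

theorem sl2_gen (k : Type*) [Field k] :
    Cfsg.upperUnipotentSL2 k ⊔ Cfsg.lowerUnipotentSL2 k = ⊤ := by
  apply SLGen.eq_top_of_transvection_mem
  intro i j hij a
  fin_cases i <;> fin_cases j
  · exact absurd rfl hij
  · apply Subgroup.mem_sup_left
    apply Subgroup.subset_closure
    refine ⟨?_, ?_, ?_⟩ <;> simp [Matrix.SpecialLinearGroup.transvection_coe]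
  · apply Subgroup.mem_sup_right
    apply Subgroup.subset_closure
    refine ⟨?_, ?_, ?_⟩ <;> simp [Matrix.SpecialLinearGroup.transvection_coe]
  · exact absurd rfl hij

theorem psl2_pair {G : Type*} [Group G] {em : G →* Matrix ι ι k} (hem : Function.Injective em)
    {H K : Subgroup G} (E : Matrix ι (Fin 2) k) (Fm : Matrix (Fin 2) ι k) (hFE : Fm * E = 1)
    (ρ : SpecialLinearGroup (Fin 2) k →* G)
    (hρ : ∀ M : SpecialLinearGroup (Fin 2) k,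
      em (ρ M) = 1 + E * ((M : Matrix (Fin 2) (Fin 2) k) - 1) * Fm)
    (hH : IsRG em H (E * (Matrix.single 0 1 1 : Matrix (Fin 2) (Fin 2) k) * Fm))
    (hK : IsRG em K (E * (Matrix.single 1 0 1 : Matrix (Fin 2) (Fin 2) k) * Fm)) :
    Cfsg.IsPSL2PairOver k H K := by
  have hinj : ∀ M : SpecialLinearGroup (Fin 2) k, ρ M = 1 → M = 1 := by
    intro M hM
    have h1 : em (ρ M) = 1 := by rw [hM, map_one]
    rw [hρ] at h1
    have h2 : E * ((M : Matrix (Fin 2) (Fin 2) k) - 1) * Fm = 0 := one_add_eq h1.symm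
    have h3 : (M : Matrix (Fin 2) (Fin 2) k) - 1 = 0 := by
      calc (M : Matrix (Fin 2) (Fin 2) k) - 1
          = (Fm * E) * ((M : Matrix (Fin 2) (Fin 2) k) - 1) * (Fm * E) := by
            rw [hFE, Matrix.one_mul, Matrix.mul_one]
        _ = Fm * (E * ((M : Matrix (Fin 2) (Fin 2) k) - 1) * Fm) * E := by
            simp only [Matrix.mul_assoc]
        _ = 0 := by rw [h2, Matrix.mul_zero, Matrix.zero_mul]
    apply Subtype.ext
    show (M : Matrix (Fin 2) (Fin 2) k) = 1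
    exact sub_eq_zero.1 h3
  have hupper : ∀ g : SpecialLinearGroup (Fin 2) k, (g : Matrix (Fin 2) (Fin 2) k) 1 0 = 0 →
      (g : Matrix (Fin 2) (Fin 2) k) 0 0 = 1 → (g : Matrix (Fin 2) (Fin 2) k) 1 1 = 1 →
      em (ρ g) = 1 + (g : Matrix (Fin 2) (Fin 2) k) 0 1 • (E * (Matrix.single 0 1 1 : Matrix (Fin 2) (Fin 2) k) * Fm) := by
    intro g h10 h00 h11
    rw [hρ]
    have e : (g : Matrix (Fin 2) (Fin 2) k) - 1
        = (g : Matrix (Fin 2) (Fin 2) k) 0 1 • Matrix.single 0 1 1 := by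
      ext a b
      fin_cases a <;> fin_cases b <;> simp [h10, h00, h11]
    rw [e, Matrix.mul_smul, Matrix.smul_mul]
  have hlower : ∀ g : SpecialLinearGroup (Fin 2) k, (g : Matrix (Fin 2) (Fin 2) k) 0 1 = 0 →
      (g : Matrix (Fin 2) (Fin 2) k) 0 0 = 1 → (g : Matrix (Fin 2) (Fin 2) k) 1 1 = 1 →
      em (ρ g) = 1 + (g : Matrix (Fin 2) (Fin 2) k) 1 0 • (E * (Matrix.single 1 0 1 : Matrix (Fin 2) (Fin 2) k) * Fm) := by
    intro g h01 h00 h11
    rw [hρ]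
    have e : (g : Matrix (Fin 2) (Fin 2) k) - 1
        = (g : Matrix (Fin 2) (Fin 2) k) 1 0 • Matrix.single 1 0 1 := by
      ext a b
      fin_cases a <;> fin_cases b <;> simp [h01, h00, h11]
    rw [e, Matrix.mul_smul, Matrix.smul_mul]
  have hup : (Cfsg.upperUnipotentSL2 k).map ρ = H := by
    apply le_antisymm
    · rw [Cfsg.upperUnipotentSL2, MonoidHom.map_closure, Subgroup.closure_le]
      rintro _ ⟨g, ⟨h10, h00, h11⟩, rfl⟩
      exact (hH _).2 ⟨_, hupper g h10 h00 h11⟩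
    · intro t ht
      obtain ⟨c, hc⟩ := (hH t).1 ht
      have e01 : ((upT c : SpecialLinearGroup (Fin 2) k) : Matrix (Fin 2) (Fin 2) k) 0 1 = c := rfl
      refine Subgroup.mem_map.2 ⟨upT c, Subgroup.subset_closure ⟨rfl, rfl, rfl⟩, hem ?_⟩
      rw [hupper (upT c) rfl rfl rfl, e01, hc]
  have hlow : (Cfsg.lowerUnipotentSL2 k).map ρ = K := by
    apply le_antisymm
    · rw [Cfsg.lowerUnipotentSL2, MonoidHom.map_closure, Subgroup.closure_le]
      rintro _ ⟨g, ⟨h01, h00, h11⟩, rfl⟩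
      exact (hK _).2 ⟨_, hlower g h01 h00 h11⟩
    · intro t ht
      obtain ⟨c, hc⟩ := (hK t).1 ht
      have e10 : ((loT c : SpecialLinearGroup (Fin 2) k) : Matrix (Fin 2) (Fin 2) k) 1 0 = c := rfl
      refine Subgroup.mem_map.2 ⟨loT c, Subgroup.subset_closure ⟨rfl, rfl, rfl⟩, hem ?_⟩
      rw [hlower (loT c) rfl rfl rfl, e10, hc]
  refine ⟨ρ, ?_, ?_, hup, hlow⟩
  · rw [MonoidHom.range_eq_map, ← sl2_gen k, Subgroup.map_sup, hup, hlow]
  · intro M hM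
    rw [hinj M (MonoidHom.mem_ker.1 hM)]
    exact Subgroup.one_mem _

/-! ### the special linear group -/

/-- the inclusion of `SL` into matrices -/
def emSL : SpecialLinearGroup ι k →* Matrix ι ι k where
  toFun g := (g : Matrix ι ι k)
  map_one' := Matrix.SpecialLinearGroup.coe_one
  map_mul' := Matrix.SpecialLinearGroup.coe_mul

theorem emSL_inj : Function.Injective (emSL : SpecialLinearGroup ι k →* Matrix ι ι k) :=
  fun _ _ h => Subtype.ext h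

theorem det_tv (u φ : ι → k) (h : φ ⬝ᵥ u = 0) (c : k) : det (1 + c • vecMulVec u φ) = 1 := by
  rw [← Matrix.smul_vecMulVec, Matrix.vecMulVec_eq Unit,
    Matrix.det_one_add_replicateCol_mul_replicateRow, dotProduct_smul, h, smul_zero, add_zero]

theorem full_SL (u φ : ι → k) (h : φ ⬝ᵥ u = 0) :
    Full (emSL : SpecialLinearGroup ι k →* Matrix ι ι k) (vecMulVec u φ) :=
  fun c => ⟨⟨1 + c • vecMulVec u φ, det_tv u φ h c⟩, rfl⟩

/-- the embedding of `SL₂` into `SL_ι` attached to `E`, `F` -/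
def rhoSL (E : Matrix ι (Fin 2) k) (Fm : Matrix (Fin 2) ι k) (hFE : Fm * E = 1) :
    SpecialLinearGroup (Fin 2) k →* SpecialLinearGroup ι k where
  toFun M := ⟨rhoM E Fm hFE (M : Matrix (Fin 2) (Fin 2) k), by rw [det_rhoM]; exact M.2⟩
  map_one' := Subtype.ext (by
    show rhoM E Fm hFE ((1 : SpecialLinearGroup (Fin 2) k) : Matrix (Fin 2) (Fin 2) k) = 1
    rw [Matrix.SpecialLinearGroup.coe_one, map_one])
  map_mul' := fun M N => Subtype.ext (by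
    show rhoM E Fm hFE ((M * N : SpecialLinearGroup (Fin 2) k) : Matrix (Fin 2) (Fin 2) k)
      = rhoM E Fm hFE M * rhoM E Fm hFE N
    rw [Matrix.SpecialLinearGroup.coe_mul, map_mul])

theorem psl2_SL {A B : Subgroup (SpecialLinearGroup ι k)} {u φ v ψ : ι → k}
    (hA : IsRG emSL A (vecMulVec u φ)) (hB : IsRG emSL B (vecMulVec v ψ))
    (hφu : φ ⬝ᵥ u = 0) (hψv : ψ ⬝ᵥ v = 0) (hα : φ ⬝ᵥ v ≠ 0) (hβ : ψ ⬝ᵥ u ≠ 0) :
    Cfsg.IsPSL2PairOver k A B := by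
  have hFE : Fmat ((ψ ⬝ᵥ u)⁻¹ • ψ) ((φ ⬝ᵥ v)⁻¹ • φ) * Emat u v = 1 := by
    apply FE_eq_one
    · rw [smul_dotProduct, smul_eq_mul, inv_mul_cancel₀ hβ]
    · rw [smul_dotProduct, hψv, smul_zero]
    · rw [smul_dotProduct, hφu, smul_zero]
    · rw [smul_dotProduct, smul_eq_mul, inv_mul_cancel₀ hα]
  refine psl2_pair emSL_inj (Emat u v) (Fmat ((ψ ⬝ᵥ u)⁻¹ • ψ) ((φ ⬝ᵥ v)⁻¹ • φ)) hFE
    (rhoSL _ _ hFE) (fun M => rfl) ?_ ?_
  · rw [E_single01, Matrix.vecMulVec_smul]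
    exact rg_smul hA (inv_ne_zero hα)
  · rw [E_single10, Matrix.vecMulVec_smul]
    exact rg_smul hB (inv_ne_zero hβ)

end Vec

end Cfsg.Agent.Helper2.TvAbs
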