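import Mathlib
import Cfsg.Prelude.Def_RootSubgroups
import Cfsg.Agent.Helper2.SLGen
import Cfsg.Agent.Helper2.TvAbs
import Cfsg.Agent.Helper2.TvVec

set_option autoImplicit false

/-!
More of the abstract transvection calculus: a rank one pair is never in the commutator case, and
the embedding `M ↦ 1 + E (M - 1) F` lands in any submonoid containing the images of the two root
groups.
-/

namespace Cfsg.Agent.Helper2.TvAbs

open Matrix
open scoped commutatorElement

section Ring
variable {R : Type*} [Ring R]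

theorem PcP_zero (P c : R) (hPP : P * P = 0) (hc : c * (1 + P) = (1 + P) * c) :
    P * c * P = 0 := by
  have e1 : P * (c * (1 + P)) = P * ((1 + P) * c) := by rw [hc]
  have e2 : P * (c * (1 + P)) = P * c + P * c * P := by noncomm_ring
  have e3 : P * ((1 + P) * c) = P * c + P * P * c := by noncomm_ring
  rw [e2, e3, hPP, zero_mul, add_zero] at e1
  exact add_left_cancel (a := P * c) (by rw [add_zero]; exact e1)

theorem PcP_eq (P Q : R) (hPP : P * P = 0) (hQQ : Q * Q = 0) (hPQP : P * Q * P = P) :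
    P * ((1 + P) * (1 + Q) * (1 + -P) * (1 + -Q)) * P = P := by
  have h1 : (1 + -P) * ((1 + -Q) * P) = P + P - Q * P := by
    have e : (1 + -P) * ((1 + -Q) * P) = P - Q * P - P * P + P * Q * P := by noncomm_ring
    rw [e, hPP, hPQP]; abel
  have h2 : (1 + Q) * (P + P - Q * P) = P + P + Q * P := by
    have e : (1 + Q) * (P + P - Q * P) = P + P - Q * P + Q * P + Q * P - Q * Q * P := by
      noncomm_ring
    rw [e, hQQ, zero_mul]; abel
  have h3 : P * (1 + P) * (P + P + Q * P) = P := by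
    have e : P * (1 + P) * (P + P + Q * P)
        = P * P + P * P + P * Q * P + P * P * P + P * P * P + P * P * (Q * P) := by noncomm_ring
    rw [e, hPP, hPQP]; simp
  calc P * ((1 + P) * (1 + Q) * (1 + -P) * (1 + -Q)) * P
      = P * (1 + P) * ((1 + Q) * ((1 + -P) * ((1 + -Q) * P))) := by simp only [mul_assoc]
    _ = P := by rw [h1, h2, h3]

end Ring

section Mat
variable {k : Type*} [Field k] {ι : Type*} [Fintype ι] [DecidableEq ι]
variable {G : Type*} [Group G] {em : G →* Matrix ι ι k}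

theorem not_central_of_rank_one {H K : Subgroup G} {X Y : Matrix ι ι k}
    (hH : IsRG em H X) (hK : IsRG em K Y) (fH : Full em X) (fK : Full em Y)
    (hXX : X * X = 0) (hYY : Y * Y = 0) (hX0 : X ≠ 0) {γ : k} (hγ : γ ≠ 0)
    (hXYX : X * Y * X = γ • X) :
    ¬ (∀ c ∈ ⁅H, K⁆, ∀ x ∈ H ⊔ K, c * x = x * c) := by
  intro hcen
  obtain ⟨a, ea⟩ := fH 1
  have haH : a ∈ H := (hH a).2 ⟨1, ea⟩
  rw [one_smul] at ea
  obtain ⟨b, eb⟩ := fK γ⁻¹
  have hbK : b ∈ K := (hK b).2 ⟨_, eb⟩
  have hQQ : (γ⁻¹ • Y) * (γ⁻¹ • Y) = 0 := smul_sq hYY _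
  have hPQP : X * (γ⁻¹ • Y) * X = X := by
    rw [mul_smul_comm, smul_mul_assoc, hXYX, smul_smul, inv_mul_cancel₀ hγ, one_smul]
  have hc := hcen (a * b * a⁻¹ * b⁻¹) (Subgroup.commutator_mem_commutator haH hbK) a
    (Subgroup.mem_sup_left haH)
  have hc' := congrArg em hc
  simp only [map_mul] at hc'
  rw [em_inv ea hXX, em_inv eb hQQ, ea, eb] at hc'
  have h0 := PcP_zero X _ hXX hc'
  rw [PcP_eq X (γ⁻¹ • Y) hXX hQQ hPQP] at h0
  exact hX0 h0

theorem rhoM_mem (T : Submonoid (Matrix ι ι k))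
    (hinv : ∀ A ∈ T, ∀ B : Matrix ι ι k, B * A = 1 → B ∈ T)
    (E : Matrix ι (Fin 2) k) (Fm : Matrix (Fin 2) ι k) (hFE : Fm * E = 1)
    (h01 : ∀ a : k, 1 + a • (E * (Matrix.single 0 1 1 : Matrix (Fin 2) (Fin 2) k) * Fm) ∈ T)
    (h10 : ∀ a : k, 1 + a • (E * (Matrix.single 1 0 1 : Matrix (Fin 2) (Fin 2) k) * Fm) ∈ T)
    (M : Matrix.SpecialLinearGroup (Fin 2) k) :
    rhoM E Fm hFE (M : Matrix (Fin 2) (Fin 2) k) ∈ T := by
  obtain ⟨K', hK'⟩ : ∃ K' : Subgroup (Matrix.SpecialLinearGroup (Fin 2) k),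
      ∀ N, N ∈ K' ↔ rhoM E Fm hFE (N : Matrix (Fin 2) (Fin 2) k) ∈ T := by
    refine ⟨{ carrier := {N | rhoM E Fm hFE (N : Matrix (Fin 2) (Fin 2) k) ∈ T}
              mul_mem' := ?_
              one_mem' := ?_
              inv_mem' := ?_ }, fun N => Iff.rfl⟩
    · intro A B hA hB
      show rhoM E Fm hFE ((A * B : Matrix.SpecialLinearGroup (Fin 2) k) :
        Matrix (Fin 2) (Fin 2) k) ∈ T
      rw [Matrix.SpecialLinearGroup.coe_mul, map_mul]
      exact T.mul_mem hA hB
    · show rhoM E Fm hFE ((1 : Matrix.SpecialLinearGroup (Fin 2) k) :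
        Matrix (Fin 2) (Fin 2) k) ∈ T
      rw [Matrix.SpecialLinearGroup.coe_one, map_one]
      exact T.one_mem
    · intro A hA
      show rhoM E Fm hFE ((A⁻¹ : Matrix.SpecialLinearGroup (Fin 2) k) :
        Matrix (Fin 2) (Fin 2) k) ∈ T
      apply hinv _ hA
      rw [← map_mul, ← Matrix.SpecialLinearGroup.coe_mul, inv_mul_cancel,
        Matrix.SpecialLinearGroup.coe_one, map_one]
  have htop : K' = ⊤ := by
    apply SLGen.eq_top_of_transvection_mem
    intro i j hij a
    rw [hK']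
    have e : ∀ (i j : Fin 2), rhoM E Fm hFE (1 + Matrix.single i j a)
        = 1 + a • (E * (Matrix.single i j 1 : Matrix (Fin 2) (Fin 2) k) * Fm) := by
      intro i j
      rw [rhoM_apply, add_sub_cancel_left]
      have e' : (Matrix.single i j a : Matrix (Fin 2) (Fin 2) k) = a • Matrix.single i j 1 := by
        rw [Matrix.smul_single, smul_eq_mul, mul_one]
      rw [e', Matrix.mul_smul, Matrix.smul_mul]
    rw [Matrix.SpecialLinearGroup.transvection_coe, e]
    fin_cases i <;> fin_cases j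
    · exact absurd rfl hij
    · exact h01 a
    · exact h10 a
    · exact absurd rfl hij
  have hM : M ∈ K' := by rw [htop]; exact Subgroup.mem_top M
  exact (hK' M).1 hM

end Mat

end Cfsg.Agent.Helper2.TvAbs
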