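import Mathlib
import Cfsg.Prelude.Def_RootSubgroups
import Cfsg.Agent.Helper2.SLGen
import Cfsg.Agent.Helper2.TvAbs
import Cfsg.Agent.Helper2.TvVec
import Cfsg.Agent.Helper2.TvAbs2
import Cfsg.Agent.Helper2.TvAlg

set_option autoImplicit false

/-!
Second part of the algebra version of the transvection calculus: non-centrality for rank one
pairs, conjugacy along the rank one graph, and the `SL₂(L)`-pair lemma for matrices over an
extension field `F` of the parameter field `L`.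
-/

namespace Cfsg.Agent.Helper2.TvAlg

open Matrix
open scoped commutatorElement
open Cfsg.Agent.Helper2.TvAbs (conjBy_conjBy conjBy_of_comm PcP_zero PcP_eq Emat Fmat rhoM
  rhoM_apply upT loT sl2_gen emSL)

section Grp
variable {G : Type*} [Group G]

theorem conj_of_rop {A B : Subgroup G} (h : Cfsg.IsRankOnePair A B) (hA : A ≠ ⊥) :
    ∃ g : G, B = Cfsg.conjBy A g := by
  obtain ⟨a, ha, ha1⟩ : ∃ a ∈ A, a ≠ 1 := by
    by_contra hcon
    push_neg at hcon
    apply hA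
    rw [Subgroup.eq_bot_iff_forall]
    exact hcon
  obtain ⟨b, hb, hb1, e⟩ := h.cond_left a ha ha1
  refine ⟨a * b⁻¹, ?_⟩
  have e1 : Cfsg.conjBy (Cfsg.conjBy A b⁻¹) a = Cfsg.conjBy (Cfsg.conjBy B a⁻¹) a := by rw [e]
  rw [conjBy_conjBy, conjBy_conjBy, mul_inv_cancel] at e1
  rw [e1]
  exact (conjBy_of_comm (fun x _ => by rw [one_mul, mul_one])).symm

theorem conj_of_connected {S : Set (Subgroup G)} (hne : ∀ A ∈ S, A ≠ ⊥) {A B : Subgroup G}
    (h : Relation.ReflTransGen (Cfsg.FAdj S) A B) : ∃ g : G, B = Cfsg.conjBy A g := by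
  induction h with
  | refl => exact ⟨1, (conjBy_of_comm (fun x _ => by rw [one_mul, mul_one])).symm⟩
  | tail _ hbc ih =>
    obtain ⟨g, hg⟩ := ih
    obtain ⟨g', hg'⟩ := conj_of_rop hbc.2.2 (hne _ hbc.1)
    refine ⟨g' * g, ?_⟩
    rw [hg', hg, conjBy_conjBy]

theorem lift_hom {H R : Type*} [Group H] [Monoid R] (em : G →* R)
    (hem : Function.Injective em) (ρ₀ : H →* R) (h : ∀ x, ∃ t : G, em t = ρ₀ x) :
    ∃ ρ : H →* G, ∀ x, em (ρ x) = ρ₀ x := by
  classical
  choose r hr using h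
  refine ⟨{ toFun := r, map_one' := ?_, map_mul' := ?_ }, hr⟩
  · apply hem; rw [hr, map_one, map_one]
  · intro x y; apply hem; rw [hr, map_mul, map_mul, hr, hr]

theorem gen_top (S₀ : Set (Subgroup G)) :
    (⨆ A' ∈ (fun A : Subgroup G => A.subgroupOf (⨆ B ∈ S₀, B)) '' S₀, A') = ⊤ := by
  rw [eq_top_iff]
  intro x _
  have hle : (⨆ B ∈ S₀, B)
      ≤ (⨆ A' ∈ (fun A : Subgroup G => A.subgroupOf (⨆ B ∈ S₀, B)) '' S₀, A').map
          (⨆ B ∈ S₀, B).subtype := by
    apply iSup₂_le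
    intro B hB b hb
    have hbG : b ∈ ⨆ B ∈ S₀, B := (le_iSup₂ (f := fun B (_ : B ∈ S₀) => B) B hB) hb
    refine Subgroup.mem_map.2 ⟨⟨b, hbG⟩, ?_, rfl⟩
    have h1 : B.subgroupOf (⨆ B ∈ S₀, B)
        ≤ ⨆ A' ∈ (fun A : Subgroup G => A.subgroupOf (⨆ B ∈ S₀, B)) '' S₀, A' :=
      le_iSup₂_of_le _ ⟨B, hB, rfl⟩ le_rfl
    exact h1 (Subgroup.mem_subgroupOf.2 hb)
  obtain ⟨y, hy, hyx⟩ := Subgroup.mem_map.1 (hle x.2)
  have e : y = x := Subtype.ext hyx
  rw [← e]
  exact hy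

end Grp

section A
variable {k : Type*} [Field k] {R : Type*} [Ring R] [Algebra k R]
variable {G : Type*} [Group G] {em : G →* R}

theorem not_central_of_rank_one {H K : Subgroup G} {X Y : R}
    (hH : IsRG k em H X) (hK : IsRG k em K Y) (fH : Full k em X) (fK : Full k em Y)
    (hXX : X * X = 0) (hYY : Y * Y = 0) (hX0 : X ≠ 0) {γ : k} (hγ : γ ≠ 0)
    (hXYX : X * Y * X = γ • X) :
    ¬ (∀ c ∈ ⁅H, K⁆, ∀ x ∈ H ⊔ K, c * x = x * c) := by
  intro hcen
  obtain ⟨a, ea⟩ := fH 1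
  have haH : a ∈ H := (hH a).2 ⟨1, ea⟩
  rw [one_smul] at ea
  obtain ⟨b, eb⟩ := fK γ⁻¹
  have hbK : b ∈ K := (hK b).2 ⟨_, eb⟩
  have hQQ : (γ⁻¹ • Y) * (γ⁻¹ • Y) = 0 := smul_sq hYY _
  have hPQP : X * (γ⁻¹ • Y) * X = X := by
    rw [mul_smul_comm, smul_mul_assoc, hXYX, smul_smul, inv_mul_cancel₀ hγ, one_smul]
  have hc := hcen (a * b * a⁻¹ * b⁻¹) (Subgroup.commutator_mem_commutator haH hbK) a
    (Subgroup.mem_sup_left haH)
  have hc' := congrArg em hc
  simp only [map_mul] at hc'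
  rw [em_inv ea hXX, em_inv eb hQQ, ea, eb] at hc'
  have h0 := PcP_zero X _ hXX hc'
  rw [PcP_eq X (γ⁻¹ • Y) hXX hQQ hPQP] at h0
  exact hX0 h0

end A

section B
variable {L F : Type*} [Field L] [Field F] [Algebra L F] {ι : Type*} [Fintype ι] [DecidableEq ι]

/-- the hom `SL₂(L) → M_ι(F)`, `M ↦ 1 + E (M - 1) Fm` -/
def rhoL (E : Matrix ι (Fin 2) F) (Fm : Matrix (Fin 2) ι F) (hFE : Fm * E = 1) :
    Matrix.SpecialLinearGroup (Fin 2) L →* Matrix ι ι F :=
  (rhoM E Fm hFE).comp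
    (((algebraMap L F).mapMatrix :
        Matrix (Fin 2) (Fin 2) L →+* Matrix (Fin 2) (Fin 2) F).toMonoidHom.comp
      (emSL : Matrix.SpecialLinearGroup (Fin 2) L →* Matrix (Fin 2) (Fin 2) L))

theorem rhoL_apply (E : Matrix ι (Fin 2) F) (Fm : Matrix (Fin 2) ι F) (hFE : Fm * E = 1)
    (M : Matrix.SpecialLinearGroup (Fin 2) L) :
    rhoL E Fm hFE M
      = 1 + E * ((algebraMap L F).mapMatrix (M : Matrix (Fin 2) (Fin 2) L) - 1) * Fm := rfl

theorem rhoL_mem (T : Submonoid (Matrix ι ι F))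
    (hinv : ∀ A ∈ T, ∀ B : Matrix ι ι F, B * A = 1 → B ∈ T)
    (E : Matrix ι (Fin 2) F) (Fm : Matrix (Fin 2) ι F) (hFE : Fm * E = 1)
    (h01 : ∀ a : L, 1 + a • (E * (Matrix.single 0 1 1 : Matrix (Fin 2) (Fin 2) F) * Fm) ∈ T)
    (h10 : ∀ a : L, 1 + a • (E * (Matrix.single 1 0 1 : Matrix (Fin 2) (Fin 2) F) * Fm) ∈ T)
    (M : Matrix.SpecialLinearGroup (Fin 2) L) : rhoL E Fm hFE M ∈ T := by
  obtain ⟨K', hK'⟩ : ∃ K' : Subgroup (Matrix.SpecialLinearGroup (Fin 2) L),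
      ∀ N, N ∈ K' ↔ rhoL E Fm hFE N ∈ T := by
    refine ⟨{ carrier := {N | rhoL E Fm hFE N ∈ T}
              mul_mem' := ?_
              one_mem' := ?_
              inv_mem' := ?_ }, fun N => Iff.rfl⟩
    · intro A B hA hB
      show rhoL E Fm hFE (A * B) ∈ T
      rw [map_mul]
      exact T.mul_mem hA hB
    · show rhoL E Fm hFE 1 ∈ T
      rw [map_one]
      exact T.one_mem
    · intro A hA
      show rhoL E Fm hFE A⁻¹ ∈ T
      apply hinv _ hA
      rw [← map_mul, inv_mul_cancel, map_one]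
  have htop : K' = ⊤ := by
    apply SLGen.eq_top_of_transvection_mem
    intro i j hij a
    rw [hK']
    have e : rhoL (L := L) E Fm hFE (Matrix.SpecialLinearGroup.transvection hij a)
        = 1 + a • (E * (Matrix.single i j 1 : Matrix (Fin 2) (Fin 2) F) * Fm) := by
      rw [rhoL_apply]
      have e' : (algebraMap L F).mapMatrix
          ((Matrix.SpecialLinearGroup.transvection hij a : Matrix.SpecialLinearGroup (Fin 2) L) :
            Matrix (Fin 2) (Fin 2) L) - 1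
          = a • (Matrix.single i j 1 : Matrix (Fin 2) (Fin 2) F) := by
        rw [Matrix.SpecialLinearGroup.transvection_coe, map_add, map_one, add_sub_cancel_left]
        ext x y
        rw [RingHom.mapMatrix_apply, Matrix.map_apply, Matrix.smul_apply, Matrix.single_apply,
          Matrix.single_apply, Algebra.smul_def]
        split_ifs
        · rw [mul_one]
        · rw [map_zero, mul_zero]
      rw [e', Matrix.mul_smul, Matrix.smul_mul]
    rw [e]
    fin_cases i <;> fin_cases j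
    · exact absurd rfl hij
    · exact h01 a
    · exact h10 a
    · exact absurd rfl hij
  have hM : M ∈ K' := by rw [htop]; exact Subgroup.mem_top M
  exact (hK' M).1 hM

theorem psl2_pairL {G : Type*} [Group G] {em : G →* Matrix ι ι F}
    (hem : Function.Injective em)
    {H K : Subgroup G} (E : Matrix ι (Fin 2) F) (Fm : Matrix (Fin 2) ι F) (hFE : Fm * E = 1)
    (ρ : Matrix.SpecialLinearGroup (Fin 2) L →* G)
    (hρ : ∀ M : Matrix.SpecialLinearGroup (Fin 2) L, em (ρ M) = rhoL E Fm hFE M)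
    (hH : IsRG L em H (E * (Matrix.single 0 1 1 : Matrix (Fin 2) (Fin 2) F) * Fm))
    (hK : IsRG L em K (E * (Matrix.single 1 0 1 : Matrix (Fin 2) (Fin 2) F) * Fm)) :
    Cfsg.IsPSL2PairOver L H K := by
  have hinj : ∀ M : Matrix.SpecialLinearGroup (Fin 2) L, ρ M = 1 → M = 1 := by
    intro M hM
    have h1 : em (ρ M) = 1 := by rw [hM, map_one]
    rw [hρ, rhoL_apply] at h1
    have h2 : E * ((algebraMap L F).mapMatrix (M : Matrix (Fin 2) (Fin 2) L) - 1) * Fm = 0 :=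
      one_add_eq h1.symm
    have h3 : (algebraMap L F).mapMatrix (M : Matrix (Fin 2) (Fin 2) L) - 1 = 0 := by
      calc (algebraMap L F).mapMatrix (M : Matrix (Fin 2) (Fin 2) L) - 1
          = (Fm * E) * ((algebraMap L F).mapMatrix (M : Matrix (Fin 2) (Fin 2) L) - 1)
              * (Fm * E) := by rw [hFE, Matrix.one_mul, Matrix.mul_one]
        _ = Fm * (E * ((algebraMap L F).mapMatrix (M : Matrix (Fin 2) (Fin 2) L) - 1) * Fm)
              * E := by simp only [Matrix.mul_assoc]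
        _ = 0 := by rw [h2, Matrix.mul_zero, Matrix.zero_mul]
    have h4 : (algebraMap L F).mapMatrix (M : Matrix (Fin 2) (Fin 2) L)
        = (algebraMap L F).mapMatrix (1 : Matrix (Fin 2) (Fin 2) L) :=
      (sub_eq_zero.1 h3).trans (map_one _).symm
    have h5 : (M : Matrix (Fin 2) (Fin 2) L) = 1 :=
      Matrix.map_injective (algebraMap L F).injective h4
    apply Subtype.ext
    exact h5
  have hupper : ∀ g : Matrix.SpecialLinearGroup (Fin 2) L,
      (g : Matrix (Fin 2) (Fin 2) L) 1 0 = 0 → (g : Matrix (Fin 2) (Fin 2) L) 0 0 = 1 →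
      (g : Matrix (Fin 2) (Fin 2) L) 1 1 = 1 →
      em (ρ g) = 1 + (g : Matrix (Fin 2) (Fin 2) L) 0 1
        • (E * (Matrix.single 0 1 1 : Matrix (Fin 2) (Fin 2) F) * Fm) := by
    intro g h10 h00 h11
    rw [hρ, rhoL_apply]
    have e : (algebraMap L F).mapMatrix (g : Matrix (Fin 2) (Fin 2) L) - 1
        = (g : Matrix (Fin 2) (Fin 2) L) 0 1
          • (Matrix.single 0 1 1 : Matrix (Fin 2) (Fin 2) F) := by
      ext a b
      fin_cases a <;> fin_cases b <;> simp [h10, h00, h11, Algebra.smul_def]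
    rw [e, Matrix.mul_smul, Matrix.smul_mul]
  have hlower : ∀ g : Matrix.SpecialLinearGroup (Fin 2) L,
      (g : Matrix (Fin 2) (Fin 2) L) 0 1 = 0 → (g : Matrix (Fin 2) (Fin 2) L) 0 0 = 1 →
      (g : Matrix (Fin 2) (Fin 2) L) 1 1 = 1 →
      em (ρ g) = 1 + (g : Matrix (Fin 2) (Fin 2) L) 1 0
        • (E * (Matrix.single 1 0 1 : Matrix (Fin 2) (Fin 2) F) * Fm) := by
    intro g h01 h00 h11
    rw [hρ, rhoL_apply]
    have e : (algebraMap L F).mapMatrix (g : Matrix (Fin 2) (Fin 2) L) - 1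
        = (g : Matrix (Fin 2) (Fin 2) L) 1 0
          • (Matrix.single 1 0 1 : Matrix (Fin 2) (Fin 2) F) := by
      ext a b
      fin_cases a <;> fin_cases b <;> simp [h01, h00, h11, Algebra.smul_def]
    rw [e, Matrix.mul_smul, Matrix.smul_mul]
  have hup : (Cfsg.upperUnipotentSL2 L).map ρ = H := by
    apply le_antisymm
    · rw [Cfsg.upperUnipotentSL2, MonoidHom.map_closure, Subgroup.closure_le]
      rintro _ ⟨g, ⟨h10, h00, h11⟩, rfl⟩
      exact (hH _).2 ⟨_, hupper g h10 h00 h11⟩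
    · intro t ht
      obtain ⟨c, hc⟩ := (hH t).1 ht
      have e01 : ((upT c : Matrix.SpecialLinearGroup (Fin 2) L) :
          Matrix (Fin 2) (Fin 2) L) 0 1 = c := rfl
      refine Subgroup.mem_map.2 ⟨upT c, Subgroup.subset_closure ⟨rfl, rfl, rfl⟩, hem ?_⟩
      rw [hupper (upT c) rfl rfl rfl, e01, hc]
  have hlow : (Cfsg.lowerUnipotentSL2 L).map ρ = K := by
    apply le_antisymm
    · rw [Cfsg.lowerUnipotentSL2, MonoidHom.map_closure, Subgroup.closure_le]
      rintro _ ⟨g, ⟨h01, h00, h11⟩, rfl⟩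
      exact (hK _).2 ⟨_, hlower g h01 h00 h11⟩
    · intro t ht
      obtain ⟨c, hc⟩ := (hK t).1 ht
      have e10 : ((loT c : Matrix.SpecialLinearGroup (Fin 2) L) :
          Matrix (Fin 2) (Fin 2) L) 1 0 = c := rfl
      refine Subgroup.mem_map.2 ⟨loT c, Subgroup.subset_closure ⟨rfl, rfl, rfl⟩, hem ?_⟩
      rw [hlower (loT c) rfl rfl rfl, e10, hc]
  refine ⟨ρ, ?_, ?_, hup, hlow⟩
  · rw [MonoidHom.range_eq_map, ← sl2_gen L, Subgroup.map_sup, hup, hlow]
  · intro M hM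
    rw [hinj M (MonoidHom.mem_ker.1 hM)]
    exact Subgroup.one_mem _

end B

end Cfsg.Agent.Helper2.TvAlg
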