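import Mathlib
import Cfsg.Prelude.Def_RootSubgroups
import Cfsg.Agent.Helper2.TvAbs
import Cfsg.Agent.Helper2.TvAlg2

set_option autoImplicit false

/-!
Homomorphic images of sets of abstract root subgroups.
-/

namespace Cfsg.Agent.Helper2.RootImg

open Cfsg
open Cfsg.Agent.Helper2.TvAbs (nilp_of_comm conjBy_conjBy conjBy_of_comm)

variable {G H : Type*} [Group G] [Group H]

theorem map_conjBy (f : G →* H) (A : Subgroup G) (g : G) :
    (Cfsg.conjBy A g).map f = Cfsg.conjBy (A.map f) (f g) := by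
  ext y
  constructor
  · intro hy
    obtain ⟨x, hx, rfl⟩ := Subgroup.mem_map.1 hy
    obtain ⟨a, ha, rfl⟩ := Subgroup.mem_map.1 hx
    refine Subgroup.mem_map.2 ⟨f a, Subgroup.mem_map.2 ⟨a, ha, rfl⟩, ?_⟩
    show f g * f a * (f g)⁻¹ = f (g * a * g⁻¹)
    rw [map_mul, map_mul, map_inv]
  · intro hy
    obtain ⟨x, hx, rfl⟩ := Subgroup.mem_map.1 hy
    obtain ⟨a, ha, rfl⟩ := Subgroup.mem_map.1 hx
    refine Subgroup.mem_map.2 ⟨g * a * g⁻¹, Subgroup.mem_map.2 ⟨a, ha, rfl⟩, ?_⟩
    show f (g * a * g⁻¹) = f g * f a * (f g)⁻¹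
    rw [map_mul, map_mul, map_inv]

theorem roc_map {A B : Subgroup G} (f : G →* H) (h : Cfsg.RankOneCondition A B)
    (hne : A.map f ≠ B.map f) (hcA : ∀ x ∈ A, ∀ y ∈ A, x * y = y * x) :
    Cfsg.RankOneCondition (A.map f) (B.map f) := by
  intro a' ha' ha'1
  obtain ⟨a, ha, rfl⟩ := Subgroup.mem_map.1 ha'
  have ha1 : a ≠ 1 := by
    rintro rfl
    exact ha'1 (map_one f)
  obtain ⟨b, hb, hb1, e⟩ := h a ha ha1
  have e' : Cfsg.conjBy (A.map f) (f b)⁻¹ = Cfsg.conjBy (B.map f) (f a)⁻¹ := by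
    rw [← map_inv f b, ← map_inv f a, ← map_conjBy f A b⁻¹, ← map_conjBy f B a⁻¹, e]
  refine ⟨f b, Subgroup.mem_map.2 ⟨b, hb, rfl⟩, ?_, e'⟩
  intro hfb
  apply hne
  rw [hfb, inv_one] at e'
  have h1 : Cfsg.conjBy (A.map f) 1 = A.map f :=
    conjBy_of_comm (fun x _ => by rw [one_mul, mul_one])
  rw [h1] at e'
  have h2 : Cfsg.conjBy (A.map f) (f a) = A.map f := by
    apply conjBy_of_comm
    intro x hx
    obtain ⟨x₀, hx₀, rfl⟩ := Subgroup.mem_map.1 hx
    rw [← map_mul, ← map_mul, hcA a ha x₀ hx₀]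
  have h3 : Cfsg.conjBy (A.map f) (f a) = B.map f := by
    rw [e', conjBy_conjBy, mul_inv_cancel]
    exact conjBy_of_comm (fun x _ => by rw [one_mul, mul_one])
  rw [← h2, h3]

theorem cc_map {S : Set (Subgroup G)} {A B : Subgroup G} (f : G →* H)
    (h : Cfsg.RootCommutatorCase S A B) :
    Cfsg.RootCommutatorCase ((fun A : Subgroup G => A.map f) '' S) (A.map f) (B.map f) := by
  obtain ⟨h1, h2, h3, h4⟩ := h
  refine ⟨⟨⁅A, B⁆, h1, Subgroup.map_commutator A B f⟩, ?_, ?_, ?_⟩
  · intro c hc x hx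
    rw [← Subgroup.map_commutator] at hc
    rw [← Subgroup.map_sup] at hx
    obtain ⟨c₀, hc₀, rfl⟩ := Subgroup.mem_map.1 hc
    obtain ⟨x₀, hx₀, rfl⟩ := Subgroup.mem_map.1 hx
    rw [← map_mul, ← map_mul, h2 c₀ hc₀ x₀ hx₀]
  · intro a' ha' ha'1
    obtain ⟨a, ha, rfl⟩ := Subgroup.mem_map.1 ha'
    have ha1 : a ≠ 1 := by
      rintro rfl
      exact ha'1 (map_one f)
    have hset : (fun b' : H => f a * b' * (f a)⁻¹ * b'⁻¹) '' ((B.map f : Subgroup H) : Set H)
        = f '' ((fun b : G => a * b * a⁻¹ * b⁻¹) '' (B : Set G)) := by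
      rw [Subgroup.coe_map, Set.image_image, Set.image_image]
      apply Set.image_congr
      intro b _
      simp only [map_mul, map_inv]
    rw [hset, ← MonoidHom.map_closure, h3 a ha ha1, Subgroup.map_commutator]
  · intro b' hb' hb'1
    obtain ⟨b, hb, rfl⟩ := Subgroup.mem_map.1 hb'
    have hb1 : b ≠ 1 := by
      rintro rfl
      exact hb'1 (map_one f)
    have hset : (fun a' : H => a' * f b * a'⁻¹ * (f b)⁻¹) '' ((A.map f : Subgroup H) : Set H)
        = f '' ((fun a : G => a * b * a⁻¹ * b⁻¹) '' (A : Set G)) := by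
      rw [Subgroup.coe_map, Set.image_image, Set.image_image]
      apply Set.image_congr
      intro a _
      simp only [map_mul, map_inv]
    rw [hset, ← MonoidHom.map_closure, h4 b hb hb1, Subgroup.map_commutator]

theorem main {S : Set (Subgroup G)} (hS : Cfsg.IsRootSubgroupSet S)
    (hc : Cfsg.IsConnectedFamily (Cfsg.FAdj S) S) (f : G →* H) (hf : Function.Surjective f) :
    (Cfsg.IsRootSubgroupSet ((fun A : Subgroup G => A.map f) '' S) ∧
      Cfsg.IsConnectedFamily (Cfsg.FAdj ((fun A : Subgroup G => A.map f) '' S))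
        ((fun A : Subgroup G => A.map f) '' S)) ∨
    ∃ A ∈ S, A.map f = ⊤ := by
  classical
  by_cases hbot : ∃ A ∈ S, A.map f = ⊥
  · right
    obtain ⟨A, hA, hAb⟩ := hbot
    refine ⟨A, hA, ?_⟩
    have hall : ∀ B ∈ S, B.map f = ⊥ := by
      intro B hB
      obtain ⟨g, hg⟩ := Cfsg.Agent.Helper2.TvAlg.conj_of_connected hS.ne_bot (hc A hA B hB)
      rw [hg, map_conjBy, hAb]
      exact Subgroup.map_bot _
    have h1 : (⨆ A ∈ S, A).map f = ⊥ := by
      rw [Subgroup.map_iSup]
      apply le_bot_iff.1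
      apply iSup_le
      intro B
      rw [Subgroup.map_iSup]
      apply iSup_le
      intro hB
      exact (hall B hB).le
    rw [hS.generates, Subgroup.map_top_of_surjective f hf] at h1
    rw [hAb, h1]
  · left
    have hnb : ∀ A ∈ S, A.map f ≠ ⊥ := fun A hA h => hbot ⟨A, hA, h⟩
    have hcomm : ∀ A ∈ S, ∀ x ∈ A, ∀ y ∈ A, x * y = y * x := by
      intro A hA x hx y hy
      have h := (hS.commutative A hA).is_comm.comm ⟨x, hx⟩ ⟨y, hy⟩
      exact congrArg Subtype.val h
    have hcomm' : ∀ A ∈ S, ∀ x ∈ A.map f, ∀ y ∈ A.map f, x * y = y * x := by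
      intro A hA x hx y hy
      obtain ⟨x₀, hx₀, rfl⟩ := Subgroup.mem_map.1 hx
      obtain ⟨y₀, hy₀, rfl⟩ := Subgroup.mem_map.1 hy
      rw [← map_mul, ← map_mul, hcomm A hA x₀ hx₀ y₀ hy₀]
    have hpair : ∀ A ∈ S, ∀ B ∈ S, A.map f ≠ B.map f → IsRankOnePair A B →
        IsRankOnePair (A.map f) (B.map f) := by
      intro A hA B hB hne hr
      exact ⟨hne, nilp_of_comm (fun a b => Subtype.ext (hcomm' A hA a a.2 b b.2)),
        nilp_of_comm (fun a b => Subtype.ext (hcomm' B hB a a.2 b b.2)),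
        roc_map f hr.cond_left hne (hcomm A hA),
        roc_map f hr.cond_right (Ne.symm hne) (hcomm B hB)⟩
    constructor
    · refine ⟨?_, ?_, ?_, ?_, ?_⟩
      · rintro A' ⟨A, hA, rfl⟩
        show IsMulCommutative (A.map f)
        exact ⟨⟨fun a b => Subtype.ext (hcomm' A hA a a.2 b b.2)⟩⟩
      · rintro A' ⟨A, hA, rfl⟩
        exact hnb A hA
      · rw [eq_top_iff, ← Subgroup.map_top_of_surjective f hf, ← hS.generates,
          Subgroup.map_le_iff_le_comap]
        apply iSup₂_le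
        intro A hA
        rw [← Subgroup.map_le_iff_le_comap]
        exact le_iSup₂_of_le (A.map f) ⟨A, hA, rfl⟩ le_rfl
      · rintro A' ⟨A, hA, rfl⟩ h
        obtain ⟨g, rfl⟩ := hf h
        exact ⟨conjBy A g, hS.conj_mem A hA g, map_conjBy f A g⟩
      · rintro A' ⟨A, hA, rfl⟩ B' ⟨B, hB, rfl⟩
        rcases hS.pair A hA B hB with h | h | h
        · left
          show ⁅A.map f, B.map f⁆ = ⊥
          rw [← Subgroup.map_commutator, h, Subgroup.map_bot]
        · by_cases hne : A.map f = B.map f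
          · left
            show ⁅A.map f, B.map f⁆ = ⊥
            rw [← hne, Subgroup.commutator_eq_bot_iff_le_centralizer]
            intro x hx
            rw [Subgroup.mem_centralizer_iff]
            intro y hy
            exact hcomm' A hA y hy x hx
          · right; left
            exact hpair A hA B hB hne h
        · right; right
          exact cc_map f h
    · rintro A' ⟨A, hA, rfl⟩ B' ⟨B, hB, rfl⟩
      have key : ∀ X Y : Subgroup G, FAdj S X Y →
          Relation.ReflTransGen (FAdj ((fun A : Subgroup G => A.map f) '' S))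
            (X.map f) (Y.map f) := by
        intro X Y hXY
        by_cases hne : X.map f = Y.map f
        · exact Eq.subst (motive := fun Z => Relation.ReflTransGen
            (FAdj ((fun A : Subgroup G => A.map f) '' S)) (X.map f) Z) hne
            Relation.ReflTransGen.refl
        · exact Relation.ReflTransGen.single
            ⟨⟨X, hXY.1, rfl⟩, ⟨Y, hXY.2.1, rfl⟩, hpair X hXY.1 Y hXY.2.1 hne hXY.2.2⟩
      have key2 : ∀ X Y : Subgroup G, Relation.ReflTransGen (FAdj S) X Y →
          Relation.ReflTransGen (FAdj ((fun A : Subgroup G => A.map f) '' S))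
            (X.map f) (Y.map f) := by
        intro X Y h
        induction h with
        | refl => exact Relation.ReflTransGen.refl
        | tail _ hbc ih => exact Relation.ReflTransGen.trans ih (key _ _ hbc)
      exact key2 A B (hc A hA B hB)

end Cfsg.Agent.Helper2.RootImg
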