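import Mathlib
import Cfsg.Agent.S2579
import Cfsg.Prelude.Def_RootSubgroups
import Cfsg.Agent.Helper2.SLGen

set_option autoImplicit false

namespace Cfsg.Agent.Helper2.RootInv

open Matrix Module

section ring

variable {R : Type*} [Ring R] [CharP R 2]

theorem one_add_sq (A : R) (hAA : A * A = 0) : (1 + A) * (1 + A) = 1 := by
  have e : (1 + A) * (1 + A) = 1 + (A + A) + A * A := by
    simp only [mul_add, add_mul, mul_one, one_mul]; abel
  rw [e, hAA, CharTwo.add_self_eq_zero, add_zero, add_zero]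

theorem sq_ring1 (A B : R) (hAA : A * A = 0) (hBB : B * B = 0) (hBA : B * A = 0) :
    ((1 + A) * (1 + B)) * ((1 + A) * (1 + B)) = 1 + A * B := by
  have r1 : ∀ M, A * (A * M) = 0 := fun M => by rw [← mul_assoc, hAA, zero_mul]
  have r2 : ∀ M, B * (B * M) = 0 := fun M => by rw [← mul_assoc, hBB, zero_mul]
  have r3 : ∀ M, B * (A * M) = 0 := fun M => by rw [← mul_assoc, hBA, zero_mul]
  have e : ((1 + A) * (1 + B)) * ((1 + A) * (1 + B))
      = 1 + A * B + (A + A) + (B + B) + (A * B + A * B) := by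
    simp only [mul_add, add_mul, mul_one, one_mul, mul_assoc, hAA, hBB, hBA, r1, r2, r3,
      mul_zero, zero_mul, add_zero, zero_add]
    abel
  simp only [CharTwo.add_self_eq_zero, add_zero] at e
  exact e

theorem sq_ring2 (A B : R) (hAA : A * A = 0) (hBB : B * B = 0) (hAB : A * B = 0) :
    ((1 + A) * (1 + B)) * ((1 + A) * (1 + B)) = 1 + B * A := by
  have r1 : ∀ M, A * (A * M) = 0 := fun M => by rw [← mul_assoc, hAA, zero_mul]
  have r2 : ∀ M, B * (B * M) = 0 := fun M => by rw [← mul_assoc, hBB, zero_mul]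
  have r3 : ∀ M, A * (B * M) = 0 := fun M => by rw [← mul_assoc, hAB, zero_mul]
  have e : ((1 + A) * (1 + B)) * ((1 + A) * (1 + B))
      = 1 + B * A + (A + A) + (B + B) := by
    simp only [mul_add, add_mul, mul_one, one_mul, mul_assoc, hAA, hBB, hAB, r1, r2, r3,
      mul_zero, zero_mul, add_zero, zero_add]
    abel
  simp only [CharTwo.add_self_eq_zero, add_zero] at e
  exact e

theorem cube_ring (A B : R) (hAA : A * A = 0) (hBB : B * B = 0) (hABA : A * B * A = A)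
    (hBAB : B * A * B = B) :
    ((1 + A) * (1 + B)) * ((1 + A) * (1 + B)) * ((1 + A) * (1 + B)) = 1 := by
  have r1 : ∀ M, A * (A * M) = 0 := fun M => by rw [← mul_assoc, hAA, zero_mul]
  have r2 : ∀ M, B * (B * M) = 0 := fun M => by rw [← mul_assoc, hBB, zero_mul]
  have r3 : A * (B * A) = A := by rw [← mul_assoc]; exact hABA
  have r4 : ∀ M, A * (B * (A * M)) = A * M := fun M => by
    rw [← mul_assoc, ← mul_assoc, hABA]
  have r5 : B * (A * B) = B := by rw [← mul_assoc]; exact hBAB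
  have r6 : ∀ M, B * (A * (B * M)) = B * M := fun M => by
    rw [← mul_assoc, ← mul_assoc, hBAB]
  have hX : (1 + A) * (1 + B) = 1 + A + B + A * B := by
    simp only [mul_add, add_mul, mul_one, one_mul]; abel
  have e2 : (1 + A + B + A * B) * (1 + A + B + A * B)
      = (1 + A + B + B * A) + (A + A) + (B + B) + (A * B + A * B) + (A * B + A * B) := by
    simp only [mul_add, add_mul, mul_one, one_mul, mul_assoc, hAA, hBB, r1, r2, r3, r4, r5, r6,
      mul_zero, zero_mul, add_zero, zero_add]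
    abel
  simp only [CharTwo.add_self_eq_zero, add_zero] at e2
  have e3 : (1 + A + B + B * A) * (1 + A + B + A * B)
      = 1 + (A + A) + (B + B) + (B + B) + (A * B + A * B) + (B * A + B * A) := by
    simp only [mul_add, add_mul, mul_one, one_mul, mul_assoc, hAA, hBB, r1, r2, r3, r4, r5, r6,
      mul_zero, zero_mul, add_zero, zero_add]
    abel
  simp only [CharTwo.add_self_eq_zero, add_zero] at e3
  rw [hX, e2, e3]

end ring

variable {F : Type*} [Field F] {n : ℕ}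

theorem h01 : (0 : Fin (n + 3)) ≠ 1 := by
  intro h; have h' := congrArg Fin.val h
  rw [Fin.val_zero, Fin.val_one] at h'; omega

theorem h20 : (2 : Fin (n + 3)) ≠ 0 := by
  intro h; have h' := congrArg Fin.val h
  rw [Fin.val_two, Fin.val_zero] at h'; omega

theorem h21 : (2 : Fin (n + 3)) ≠ 1 := by
  intro h; have h' := congrArg Fin.val h
  rw [Fin.val_two, Fin.val_one] at h'; omega

theorem vv_mul {m : ℕ} (u φ v ψ : Fin m → F) :
    vecMulVec u φ * vecMulVec v ψ = vecMulVec ((φ ⬝ᵥ v) • u) ψ := by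
  rw [Matrix.vecMulVec_mul_vecMulVec]
  ext i j
  simp only [Matrix.vecMulVec_apply, Pi.smul_apply, smul_eq_mul]
  ring

theorem zero_vv {m : ℕ} (ψ : Fin m → F) : vecMulVec (0 : Fin m → F) ψ = 0 := by
  ext i j; simp [Matrix.vecMulVec_apply]

theorem vv_sq {m : ℕ} {u φ : Fin m → F} (h0 : φ ⬝ᵥ u = 0) :
    vecMulVec u φ * vecMulVec u φ = 0 := by
  rw [vv_mul, h0, zero_smul, zero_vv]

theorem vv_mulVec {m : ℕ} (u φ x : Fin m → F) : vecMulVec u φ *ᵥ x = (φ ⬝ᵥ x) • u := by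
  ext i
  rw [Matrix.vecMulVec_mulVec]
  simp [mul_comm]

theorem tv_mulVec {m : ℕ} (u φ x : Fin m → F) :
    (1 + vecMulVec u φ) *ᵥ x = x + (φ ⬝ᵥ x) • u := by
  rw [Matrix.add_mulVec, Matrix.one_mulVec, vv_mulVec]

theorem vv_ne_zero {m : ℕ} {u φ : Fin m → F} (hu : u ≠ 0) (hφ : φ ≠ 0) : vecMulVec u φ ≠ 0 := by
  obtain ⟨i, hi⟩ := Function.ne_iff.1 hu
  obtain ⟨j, hj⟩ := Function.ne_iff.1 hφ
  intro h
  have h1 := congrFun (congrFun h i) j
  rw [Matrix.vecMulVec_apply] at h1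
  exact mul_ne_zero hi hj h1

theorem single_vv {m : ℕ} (i j : Fin m) (c : F) :
    Matrix.single i j c = vecMulVec (Pi.single i c) (Pi.single j 1) := by
  ext i' j'
  rw [Matrix.vecMulVec_apply, Matrix.single_apply, Pi.single_apply, Pi.single_apply]
  by_cases hi : i' = i
  · by_cases hj : j' = j
    · rw [if_pos ⟨hi.symm, hj.symm⟩, if_pos hi, if_pos hj, mul_one]
    · rw [if_neg (fun h => hj h.2.symm), if_neg hj, mul_zero]
  · rw [if_neg (fun h => hi h.1.symm), if_neg hi, zero_mul]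

/-- transvection matrices: `1 + u φᵀ` with `φ u = 0` -/
def IsTv (M : Matrix (Fin (n + 3)) (Fin (n + 3)) F) : Prop :=
  ∃ u φ : Fin (n + 3) → F, u ≠ 0 ∧ φ ≠ 0 ∧ φ ⬝ᵥ u = 0 ∧ M = 1 + vecMulVec u φ

theorem norm_form (u φ : Fin (n + 3) → F) (hu : u ≠ 0) (hφ : φ ≠ 0) (h0 : φ ⬝ᵥ u = 0) :
    ∃ g : Matrix.SpecialLinearGroup (Fin (n + 3)) F,
      (1 + vecMulVec u φ) * (g : Matrix (Fin (n + 3)) (Fin (n + 3)) F)
        = (g : Matrix (Fin (n + 3)) (Fin (n + 3)) F) * Matrix.transvection 0 1 1 := by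
  classical
  have hV : Module.finrank F (Fin (n + 3) → F) = (n + 1) + 2 := by simp
  obtain ⟨N, hNdef⟩ : ∃ N : (Fin (n + 3) → F) →ₗ[F] (Fin (n + 3) → F),
      N = Matrix.mulVecLin (vecMulVec u φ) := ⟨_, rfl⟩
  have hNx : ∀ x, N x = (φ ⬝ᵥ x) • u := fun x => by
    rw [hNdef, Matrix.mulVecLin_apply, vv_mulVec]
  have hN : N ∘ₗ N = 0 := by
    apply LinearMap.ext
    intro x
    rw [LinearMap.comp_apply, hNx, hNx, dotProduct_smul, h0, smul_zero, zero_smul,
      LinearMap.zero_apply]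
  have hr : Module.finrank F (LinearMap.range N) = 1 := by
    have hrange : LinearMap.range N = Submodule.span F {u} := by
      apply le_antisymm
      · rintro _ ⟨x, rfl⟩
        rw [hNx]
        exact Submodule.smul_mem _ _ (Submodule.mem_span_singleton_self u)
      · rw [Submodule.span_singleton_le_iff_mem]
        obtain ⟨j, hj⟩ := Function.ne_iff.1 hφ
        refine ⟨(φ j)⁻¹ • Pi.single j 1, ?_⟩
        have h1 : φ ⬝ᵥ ((φ j)⁻¹ • Pi.single j 1) = 1 := by
          rw [dotProduct_smul, dotProduct_single, mul_one, smul_eq_mul]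
          exact inv_mul_cancel₀ hj
        rw [hNx, h1, one_smul]
    rw [hrange, finrank_span_singleton hu]
  obtain ⟨b, hb0, hb⟩ : ∃ b : Module.Basis (Fin (n + 3)) F (Fin (n + 3) → F),
      N (b 0) = b 1 ∧ ∀ i, i ≠ 0 → N (b i) = 0 := S2579.adapted_basis (n + 1) hV N hr hN
  obtain ⟨e, he⟩ : ∃ e : Module.Basis (Fin (n + 3)) F (Fin (n + 3) → F),
      ∀ i, e i = Pi.single i 1 := ⟨Pi.basisFun F _, fun i => by simp⟩
  obtain ⟨b1, hb1⟩ : ∃ b1 : Module.Basis (Fin (n + 3)) F (Fin (n + 3) → F),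
      ∀ i, b1 i = b (Equiv.swap 0 1 i) :=
    ⟨b.reindex (Equiv.swap 0 1), fun i => by rw [Module.Basis.reindex_apply, Equiv.symm_swap]⟩
  have hN1 : N (b1 1) = b1 0 := by
    rw [hb1, hb1, Equiv.swap_apply_right, Equiv.swap_apply_left]; exact hb0
  have hNi : ∀ i, i ≠ 1 → N (b1 i) = 0 := by
    intro i hi
    rw [hb1]
    apply hb
    intro h
    apply hi
    have h' := congrArg (Equiv.swap (0 : Fin (n + 3)) 1) h
    rw [Equiv.swap_apply_self, Equiv.swap_apply_left] at h'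
    exact h'
  have hd : e.det ⇑b1 ≠ 0 := (e.isUnit_det b1).ne_zero
  obtain ⟨w, hw⟩ : ∃ w : Fin (n + 3) → Fˣ,
      w = fun i => if i = 2 then (Units.mk0 _ hd)⁻¹ else 1 := ⟨_, rfl⟩
  have hw2 : (w 2 : F) = (e.det ⇑b1)⁻¹ := by rw [hw]; simp
  have hwi : ∀ i, i ≠ 2 → w i = 1 := by
    intro i hi
    rw [hw]
    simp [hi]
  obtain ⟨b2, hb2⟩ : ∃ b2 : Module.Basis (Fin (n + 3)) F (Fin (n + 3) → F),
      ∀ i, b2 i = (w i : F) • b1 i :=
    ⟨b1.unitsSMul w, fun i => by rw [Module.Basis.unitsSMul_apply, Units.smul_def]⟩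
  obtain ⟨gL, hgL⟩ : ∃ g : (Fin (n + 3) → F) ≃ₗ[F] (Fin (n + 3) → F), ∀ i, g (e i) = b2 i :=
    ⟨e.equiv b2 (Equiv.refl _), fun i => by simp⟩
  have hdet : LinearMap.det (gL : (Fin (n + 3) → F) →ₗ[F] (Fin (n + 3) → F)) = 1 := by
    have h1 := e.det_comp (gL : (Fin (n + 3) → F) →ₗ[F] (Fin (n + 3) → F)) ⇑e
    rw [Module.Basis.det_self, mul_one] at h1
    rw [← h1]
    have h2 : (⇑(gL : (Fin (n + 3) → F) →ₗ[F] (Fin (n + 3) → F)) ∘ ⇑e)
        = fun i => (w i : F) • b1 i := by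
      funext i
      simp only [Function.comp_apply, LinearEquiv.coe_coe, hgL, hb2]
    rw [h2, AlternatingMap.map_smul_univ]
    have h3 : ∏ i, (w i : F) = (e.det ⇑b1)⁻¹ := by
      rw [Finset.prod_eq_single 2]
      · exact hw2
      · intro i _ hi
        rw [hwi i hi, Units.val_one]
      · intro h
        exact absurd (Finset.mem_univ _) h
    rw [h3, smul_eq_mul]
    exact inv_mul_cancel₀ hd
  have hE : ∀ x : Fin (n + 3) → F,
      (vecMulVec (Pi.single 0 1) (Pi.single 1 1) : Matrix (Fin (n + 3)) (Fin (n + 3)) F) *ᵥ x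
        = x 1 • Pi.single 0 1 := by
    intro x
    rw [vv_mulVec, single_one_dotProduct]
  have hint : N ∘ₗ (gL : (Fin (n + 3) → F) →ₗ[F] (Fin (n + 3) → F))
      = (gL : (Fin (n + 3) → F) →ₗ[F] (Fin (n + 3) → F)) ∘ₗ
        Matrix.mulVecLin (vecMulVec (Pi.single 0 1) (Pi.single 1 1)) := by
    apply e.ext
    intro i
    simp only [LinearMap.comp_apply, LinearEquiv.coe_coe, Matrix.mulVecLin_apply]
    rw [hE, hgL, hb2, map_smul, map_smul, ← he 0, hgL, hb2, hwi 0 h20.symm, Units.val_one,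
      one_smul, he i]
    by_cases hi : i = 1
    · subst hi
      rw [Pi.single_eq_same, one_smul, hN1, hwi 1 h21.symm, Units.val_one, one_smul]
    · rw [hNi i hi, smul_zero, Pi.single_eq_of_ne (Ne.symm hi), zero_smul]
  obtain ⟨g, hg⟩ : ∃ g : Matrix.SpecialLinearGroup (Fin (n + 3)) F,
      (g : Matrix (Fin (n + 3)) (Fin (n + 3)) F)
        = LinearMap.toMatrix' (gL : (Fin (n + 3) → F) →ₗ[F] (Fin (n + 3) → F)) :=
    ⟨⟨LinearMap.toMatrix' (gL : (Fin (n + 3) → F) →ₗ[F] (Fin (n + 3) → F)), by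
      rw [LinearMap.det_toMatrix']; exact hdet⟩, rfl⟩
  refine ⟨g, ?_⟩
  have h1 := congrArg LinearMap.toMatrix' hint
  rw [LinearMap.toMatrix'_comp, LinearMap.toMatrix'_comp] at h1
  have h2 : ∀ M : Matrix (Fin (n + 3)) (Fin (n + 3)) F,
      LinearMap.toMatrix' (Matrix.mulVecLin M) = M := fun M => LinearMap.toMatrix'_toLin' M
  rw [hNdef, h2, h2, ← hg] at h1
  rw [Matrix.transvection, Matrix.single_eq_single_vecMulVec_single, add_mul, mul_add, one_mul,
    mul_one, h1]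

/-- the set of the statement -/
def Dset (F : Type*) [Field F] (n : ℕ) : Set (Matrix.SpecialLinearGroup (Fin (n + 3)) F) :=
  {t | ∃ c : F, c ≠ 0 ∧ ∃ g : Matrix.SpecialLinearGroup (Fin (n + 3)) F,
    ((g⁻¹ * t * g : Matrix.SpecialLinearGroup (Fin (n + 3)) F) :
      Matrix (Fin (n + 3)) (Fin (n + 3)) F) = Matrix.transvection 0 1 c}

theorem mem_D_def (t : Matrix.SpecialLinearGroup (Fin (n + 3)) F) :
    t ∈ Dset F n ↔ ∃ c : F, c ≠ 0 ∧ ∃ g : Matrix.SpecialLinearGroup (Fin (n + 3)) F,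
    ((g⁻¹ * t * g : Matrix.SpecialLinearGroup (Fin (n + 3)) F) :
      Matrix (Fin (n + 3)) (Fin (n + 3)) F) = Matrix.transvection 0 1 c := Iff.rfl

theorem conj_of_tv (t : Matrix.SpecialLinearGroup (Fin (n + 3)) F)
    (ht : IsTv (t : Matrix (Fin (n + 3)) (Fin (n + 3)) F)) :
    ∃ g : Matrix.SpecialLinearGroup (Fin (n + 3)) F,
      ((g⁻¹ * t * g : Matrix.SpecialLinearGroup (Fin (n + 3)) F) :
        Matrix (Fin (n + 3)) (Fin (n + 3)) F) = Matrix.transvection 0 1 1 := by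
  obtain ⟨u, φ, hu, hφ, h0, hM⟩ := ht
  obtain ⟨g, hg⟩ := norm_form u φ hu hφ h0
  refine ⟨g, ?_⟩
  rw [← hM] at hg
  rw [Matrix.SpecialLinearGroup.coe_mul, Matrix.SpecialLinearGroup.coe_mul, Matrix.mul_assoc,
    hg, ← Matrix.mul_assoc, ← Matrix.SpecialLinearGroup.coe_mul, inv_mul_cancel,
    Matrix.SpecialLinearGroup.coe_one, Matrix.one_mul]

theorem mem_D_of_tv (t : Matrix.SpecialLinearGroup (Fin (n + 3)) F)
    (ht : IsTv (t : Matrix (Fin (n + 3)) (Fin (n + 3)) F)) : t ∈ Dset F n := by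
  obtain ⟨g, hg⟩ := conj_of_tv t ht
  exact (mem_D_def t).2 ⟨1, one_ne_zero, g, hg⟩

theorem tv_of_mem_D (t : Matrix.SpecialLinearGroup (Fin (n + 3)) F) (ht : t ∈ Dset F n) :
    IsTv (t : Matrix (Fin (n + 3)) (Fin (n + 3)) F) := by
  obtain ⟨c, hc, g, hg⟩ := (mem_D_def t).1 ht
  have hGG : (g : Matrix (Fin (n + 3)) (Fin (n + 3)) F)
      * ((g⁻¹ : Matrix.SpecialLinearGroup (Fin (n + 3)) F) :
        Matrix (Fin (n + 3)) (Fin (n + 3)) F) = 1 := by
    rw [← Matrix.SpecialLinearGroup.coe_mul, mul_inv_cancel, Matrix.SpecialLinearGroup.coe_one]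
  have hGG' : ((g⁻¹ : Matrix.SpecialLinearGroup (Fin (n + 3)) F) :
        Matrix (Fin (n + 3)) (Fin (n + 3)) F) * (g : Matrix (Fin (n + 3)) (Fin (n + 3)) F) = 1 := by
    rw [← Matrix.SpecialLinearGroup.coe_mul, inv_mul_cancel, Matrix.SpecialLinearGroup.coe_one]
  rw [Matrix.SpecialLinearGroup.coe_mul, Matrix.SpecialLinearGroup.coe_mul] at hg
  obtain ⟨G, hG⟩ : ∃ G : Matrix (Fin (n + 3)) (Fin (n + 3)) F,
      G = (g : Matrix (Fin (n + 3)) (Fin (n + 3)) F) := ⟨_, rfl⟩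
  obtain ⟨Gi, hGi⟩ : ∃ Gi : Matrix (Fin (n + 3)) (Fin (n + 3)) F,
      Gi = ((g⁻¹ : Matrix.SpecialLinearGroup (Fin (n + 3)) F) :
        Matrix (Fin (n + 3)) (Fin (n + 3)) F) := ⟨_, rfl⟩
  rw [← hG, ← hGi] at hGG hGG' hg
  have ht' : (t : Matrix (Fin (n + 3)) (Fin (n + 3)) F)
      = G * Matrix.transvection 0 1 c * Gi := by
    rw [← hg]
    have e : G * (Gi * (t : Matrix (Fin (n + 3)) (Fin (n + 3)) F) * G) * Gi
        = (G * Gi) * (t : Matrix (Fin (n + 3)) (Fin (n + 3)) F) * (G * Gi) := by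
      simp only [Matrix.mul_assoc]
    rw [e, hGG, Matrix.one_mul, Matrix.mul_one]
  refine ⟨G *ᵥ Pi.single 0 c, Pi.single 1 1 ᵥ* Gi, ?_, ?_, ?_, ?_⟩
  · intro h
    have h1 := congrArg (fun y => Gi *ᵥ y) h
    simp only [Matrix.mulVec_mulVec, hGG', Matrix.one_mulVec, Matrix.mulVec_zero] at h1
    have h2 := congrFun h1 0
    rw [Pi.single_eq_same] at h2
    exact hc h2
  · intro h
    have h1 := congrArg (fun y => y ᵥ* G) h
    simp only [Matrix.vecMul_vecMul, hGG', Matrix.vecMul_one, Matrix.zero_vecMul] at h1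
    have h2 := congrFun h1 1
    rw [Pi.single_eq_same] at h2
    exact one_ne_zero h2
  · rw [← Matrix.dotProduct_mulVec, Matrix.mulVec_mulVec, hGG', Matrix.one_mulVec,
      single_one_dotProduct, Pi.single_eq_of_ne h01.symm]
  · rw [ht', Matrix.transvection, single_vv, Matrix.mul_add, Matrix.add_mul, Matrix.mul_one, hGG,
      Matrix.mul_vecMulVec, Matrix.vecMulVec_mul]

theorem tv_sq [CharP F 2] (t : Matrix.SpecialLinearGroup (Fin (n + 3)) F)
    (ht : IsTv (t : Matrix (Fin (n + 3)) (Fin (n + 3)) F)) : t * t = 1 := by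
  obtain ⟨u, φ, hu, hφ, h0, hM⟩ := ht
  apply Subtype.ext
  rw [Matrix.SpecialLinearGroup.coe_mul, hM, Matrix.SpecialLinearGroup.coe_one]
  exact one_add_sq _ (vv_sq h0)

theorem tv_ne_one (t : Matrix.SpecialLinearGroup (Fin (n + 3)) F)
    (ht : IsTv (t : Matrix (Fin (n + 3)) (Fin (n + 3)) F)) : t ≠ 1 := by
  obtain ⟨u, φ, hu, hφ, h0, hM⟩ := ht
  intro h
  rw [h, Matrix.SpecialLinearGroup.coe_one] at hM
  exact vv_ne_zero hu hφ (add_left_cancel (a := (1 : Matrix (Fin (n + 3)) (Fin (n + 3)) F))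
    (by rw [add_zero]; exact hM.symm))

theorem ord4 [CharP F 2] (x : Matrix.SpecialLinearGroup (Fin (n + 3)) F)
    (w χ : Fin (n + 3) → F) (hw : w ≠ 0) (hχ : χ ≠ 0) (h0 : χ ⬝ᵥ w = 0)
    (hx : (x : Matrix (Fin (n + 3)) (Fin (n + 3)) F) * (x : Matrix (Fin (n + 3)) (Fin (n + 3)) F)
      = 1 + vecMulVec w χ) :
    orderOf x = 4 ∧ IsTv ((x ^ 2 : Matrix.SpecialLinearGroup (Fin (n + 3)) F) :
      Matrix (Fin (n + 3)) (Fin (n + 3)) F) := by
  have hx2 : ((x ^ 2 : Matrix.SpecialLinearGroup (Fin (n + 3)) F) :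
      Matrix (Fin (n + 3)) (Fin (n + 3)) F) = 1 + vecMulVec w χ := by
    rw [sq, Matrix.SpecialLinearGroup.coe_mul, hx]
  refine ⟨?_, w, χ, hw, hχ, h0, hx2⟩
  have hnot : ¬ x ^ 2 ^ 1 = 1 := by
    rw [pow_one]
    intro h
    rw [h, Matrix.SpecialLinearGroup.coe_one] at hx2
    exact vv_ne_zero hw hχ (add_left_cancel (a := (1 : Matrix (Fin (n + 3)) (Fin (n + 3)) F))
      (by rw [add_zero]; exact hx2.symm))
  have hfin : x ^ 2 ^ (1 + 1) = 1 := by
    have e : x ^ 2 ^ (1 + 1) = x ^ 2 * x ^ 2 := pow_add x 2 2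
    rw [e]
    apply Subtype.ext
    rw [Matrix.SpecialLinearGroup.coe_mul, hx2, Matrix.SpecialLinearGroup.coe_one]
    exact one_add_sq _ (vv_sq h0)
  have h := orderOf_eq_prime_pow hnot hfin
  rw [h]
  norm_num

theorem odd_case [Fintype F] [CharP F 2] (a b : Matrix.SpecialLinearGroup (Fin (n + 3)) F)
    (u φ v ψ : Fin (n + 3) → F) (hu : u ≠ 0) (hv : v ≠ 0) (hφu : φ ⬝ᵥ u = 0) (hψv : ψ ⬝ᵥ v = 0)
    (hα : φ ⬝ᵥ v ≠ 0) (hβ : ψ ⬝ᵥ u ≠ 0)
    (hA : (a : Matrix (Fin (n + 3)) (Fin (n + 3)) F) = 1 + vecMulVec u φ)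
    (hB : (b : Matrix (Fin (n + 3)) (Fin (n + 3)) F) = 1 + vecMulVec v ψ)
    (haa : a * a = 1) (hbb : b * b = 1) : Odd (orderOf (a * b)) := by
  classical
  rw [← Nat.not_even_iff_odd]
  rintro ⟨k, hk⟩
  have hpos : 0 < orderOf (a * b) := orderOf_pos (a * b)
  obtain ⟨z, hz⟩ : ∃ z, z = (a * b) ^ k := ⟨_, rfl⟩
  have hz1 : z ≠ 1 := by
    rw [hz]; exact pow_ne_one_of_lt_orderOf (by omega) (by omega)
  have hz2 : z * z = 1 := by
    rw [hz, ← pow_add, ← hk, pow_orderOf_eq_one]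
  have hainv : a⁻¹ = a := inv_eq_of_mul_eq_one_left haa
  have hbinv : b⁻¹ = b := inv_eq_of_mul_eq_one_left hbb
  have hzinv : z⁻¹ = z := inv_eq_of_mul_eq_one_left hz2
  have hab_inv : (a * b)⁻¹ = b * a := by rw [_root_.mul_inv_rev, hainv, hbinv]
  have hca : a * z = z * a := by
    have h1 : a * z * a⁻¹ = z := by
      rw [hz, ← conj_pow,
        show a * (a * b) * a⁻¹ = (a * b)⁻¹ by rw [hab_inv, hainv, ← mul_assoc, haa, one_mul],
        inv_pow, ← hz]
      exact hzinv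
    exact mul_inv_eq_iff_eq_mul.1 h1
  have hcb : b * z = z * b := by
    have h1 : b * z * b⁻¹ = z := by
      rw [hz, ← conj_pow,
        show b * (a * b) * b⁻¹ = (a * b)⁻¹ by
          rw [hab_inv, mul_assoc, mul_assoc, mul_inv_cancel, mul_one],
        inv_pow, ← hz]
      exact hzinv
    exact mul_inv_eq_iff_eq_mul.1 h1
  obtain ⟨Z, hZ⟩ : ∃ Z : Matrix (Fin (n + 3)) (Fin (n + 3)) F,
      Z = (z : Matrix (Fin (n + 3)) (Fin (n + 3)) F) := ⟨_, rfl⟩
  have hZZ : Z * Z = 1 := by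
    rw [hZ, ← Matrix.SpecialLinearGroup.coe_mul, hz2, Matrix.SpecialLinearGroup.coe_one]
  have hZa : Z * (1 + vecMulVec u φ) = (1 + vecMulVec u φ) * Z := by
    rw [hZ, ← hA, ← Matrix.SpecialLinearGroup.coe_mul, ← Matrix.SpecialLinearGroup.coe_mul, hca]
  have hZb : Z * (1 + vecMulVec v ψ) = (1 + vecMulVec v ψ) * Z := by
    rw [hZ, ← hB, ← Matrix.SpecialLinearGroup.coe_mul, ← Matrix.SpecialLinearGroup.coe_mul, hcb]
  have hS : ∀ x : Fin (n + 3) → F, ∃ s t : F, Z *ᵥ x = x + s • u + t • v := by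
    have hab : ∀ x : Fin (n + 3) → F, ∃ s t : F,
        ((a * b : Matrix.SpecialLinearGroup (Fin (n + 3)) F) :
          Matrix (Fin (n + 3)) (Fin (n + 3)) F) *ᵥ x = x + s • u + t • v := by
      intro x
      refine ⟨φ ⬝ᵥ (x + (ψ ⬝ᵥ x) • v), ψ ⬝ᵥ x, ?_⟩
      rw [Matrix.SpecialLinearGroup.coe_mul, hA, hB, ← Matrix.mulVec_mulVec, tv_mulVec, tv_mulVec]
      abel
    have hpow : ∀ k : ℕ, ∀ x : Fin (n + 3) → F, ∃ s t : F,
        (((a * b) ^ k : Matrix.SpecialLinearGroup (Fin (n + 3)) F) :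
          Matrix (Fin (n + 3)) (Fin (n + 3)) F) *ᵥ x = x + s • u + t • v := by
      intro k
      induction k with
      | zero => intro x; exact ⟨0, 0, by simp⟩
      | succ k ih =>
        intro x
        obtain ⟨s1, t1, h1⟩ := hab x
        obtain ⟨s2, t2, h2⟩ := ih (((a * b : Matrix.SpecialLinearGroup (Fin (n + 3)) F) :
          Matrix (Fin (n + 3)) (Fin (n + 3)) F) *ᵥ x)
        refine ⟨s1 + s2, t1 + t2, ?_⟩
        rw [pow_succ, Matrix.SpecialLinearGroup.coe_mul, ← Matrix.mulVec_mulVec, h2, h1,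
          add_smul, add_smul]
        abel
    intro x
    rw [hZ, hz]
    exact hpow k x
  have h1 : ∀ x, (φ ⬝ᵥ x) • (Z *ᵥ u) = (φ ⬝ᵥ (Z *ᵥ x)) • u := by
    intro x
    have e := congrArg (fun M : Matrix (Fin (n + 3)) (Fin (n + 3)) F => M *ᵥ x) hZa
    simp only [← Matrix.mulVec_mulVec, tv_mulVec, Matrix.mulVec_add, Matrix.mulVec_smul] at e
    exact add_left_cancel e
  have h2 : ∀ x, (ψ ⬝ᵥ x) • (Z *ᵥ v) = (ψ ⬝ᵥ (Z *ᵥ x)) • v := by
    intro x
    have e := congrArg (fun M : Matrix (Fin (n + 3)) (Fin (n + 3)) F => M *ᵥ x) hZb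
    simp only [← Matrix.mulVec_mulVec, tv_mulVec, Matrix.mulVec_add, Matrix.mulVec_smul] at e
    exact add_left_cancel e
  obtain ⟨lam, hlam⟩ : ∃ lam : F, Z *ᵥ u = lam • u := by
    refine ⟨(φ ⬝ᵥ v)⁻¹ * (φ ⬝ᵥ (Z *ᵥ v)), ?_⟩
    rw [mul_smul, ← h1 v, inv_smul_smul₀ hα]
  have hlam2 : lam * lam = 1 := by
    have e : Z *ᵥ (Z *ᵥ u) = u := by rw [Matrix.mulVec_mulVec, hZZ, Matrix.one_mulVec]
    rw [hlam, Matrix.mulVec_smul, hlam, smul_smul] at e
    have e2 : (lam * lam - 1) • u = 0 := by rw [sub_smul, e, one_smul, sub_self]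
    rcases smul_eq_zero.1 e2 with h | h
    · exact sub_eq_zero.1 h
    · exact absurd h hu
  have hl1 : lam = 1 := by
    have h : (lam + 1) * (lam + 1) = 0 := by
      linear_combination hlam2 + (lam + 1) * (CharTwo.two_eq_zero : (2 : F) = 0)
    have h' : lam + 1 = 0 := mul_self_eq_zero.1 h
    linear_combination h' - (CharTwo.two_eq_zero : (2 : F) = 0)
  rw [hl1, one_smul] at hlam
  have hZv : Z *ᵥ v = v := by
    have e := h2 u
    rw [hlam] at e
    exact smul_right_injective _ hβ e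
  have hall : ∀ x, Z *ᵥ x = x := by
    intro x
    obtain ⟨s, t, hx⟩ := hS x
    have e1 := h1 x
    rw [hlam, hx, dotProduct_add, dotProduct_add, dotProduct_smul, dotProduct_smul, hφu,
      smul_zero, add_zero] at e1
    have e2 := h2 x
    rw [hZv, hx, dotProduct_add, dotProduct_add, dotProduct_smul, dotProduct_smul, hψv,
      smul_zero, add_zero] at e2
    have ht : t = 0 := by
      have e3 : (t * (φ ⬝ᵥ v)) • u = 0 := by
        have e4 : (φ ⬝ᵥ x + t • (φ ⬝ᵥ v)) • u - (φ ⬝ᵥ x) • u = 0 := by rw [← e1, sub_self]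
        rw [← sub_smul, add_sub_cancel_left, smul_eq_mul] at e4
        exact e4
      rcases smul_eq_zero.1 e3 with h | h
      · exact (mul_eq_zero.1 h).resolve_right hα
      · exact absurd h hu
    have hs : s = 0 := by
      have e3 : (s * (ψ ⬝ᵥ u)) • v = 0 := by
        have e4 : (ψ ⬝ᵥ x + s • (ψ ⬝ᵥ u)) • v - (ψ ⬝ᵥ x) • v = 0 := by rw [← e2, sub_self]
        rw [← sub_smul, add_sub_cancel_left, smul_eq_mul] at e4
        exact e4
      rcases smul_eq_zero.1 e3 with h | h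
      · exact (mul_eq_zero.1 h).resolve_right hβ
      · exact absurd h hv
    rw [hx, hs, ht, zero_smul, zero_smul, add_zero, add_zero]
  have hZ1 : Z = 1 := by
    ext i j
    have h := congrFun (hall (Pi.single j 1)) i
    rw [Matrix.mulVec_single_one, Pi.single_apply] at h
    rw [Matrix.one_apply]
    exact h
  apply hz1
  apply Subtype.ext
  rw [Matrix.SpecialLinearGroup.coe_one, ← hZ, hZ1]

theorem pair_main [Fintype F] [CharP F 2] (a b : Matrix.SpecialLinearGroup (Fin (n + 3)) F)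
    (ha : IsTv (a : Matrix (Fin (n + 3)) (Fin (n + 3)) F))
    (hb : IsTv (b : Matrix (Fin (n + 3)) (Fin (n + 3)) F)) :
    (a * b = b * a ∧ (a * b) ^ 2 = 1) ∨
    (orderOf (a * b) = 4 ∧ IsTv (((a * b) ^ 2 : Matrix.SpecialLinearGroup (Fin (n + 3)) F) :
      Matrix (Fin (n + 3)) (Fin (n + 3)) F)) ∨
    (Odd (orderOf (a * b)) ∧ (Fintype.card F = 2 → (a * b) ^ 3 = 1)) := by
  have haa := tv_sq a ha
  have hbb := tv_sq b hb
  obtain ⟨u, φ, hu, hφ, hφu, hA⟩ := ha
  obtain ⟨v, ψ, hv, hψ, hψv, hB⟩ := hb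
  have hAA : vecMulVec u φ * vecMulVec u φ = 0 := vv_sq hφu
  have hBB : vecMulVec v ψ * vecMulVec v ψ = 0 := vv_sq hψv
  have hab : ((a * b : Matrix.SpecialLinearGroup (Fin (n + 3)) F) :
      Matrix (Fin (n + 3)) (Fin (n + 3)) F) = (1 + vecMulVec u φ) * (1 + vecMulVec v ψ) := by
    rw [Matrix.SpecialLinearGroup.coe_mul, hA, hB]
  by_cases hα : φ ⬝ᵥ v = 0
  · have hAB : vecMulVec u φ * vecMulVec v ψ = 0 := by rw [vv_mul, hα, zero_smul, zero_vv]
    by_cases hβ : ψ ⬝ᵥ u = 0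
    · left
      have hBA : vecMulVec v ψ * vecMulVec u φ = 0 := by rw [vv_mul, hβ, zero_smul, zero_vv]
      have hcomm : a * b = b * a := by
        apply Subtype.ext
        rw [Matrix.SpecialLinearGroup.coe_mul, Matrix.SpecialLinearGroup.coe_mul, hA, hB]
        simp only [mul_add, add_mul, mul_one, one_mul, hAB, hBA, add_zero]
        abel
      refine ⟨hcomm, ?_⟩
      rw [sq]
      have e1 : a * b * (a * b) = a * b * (b * a) := congrArg (fun x => a * b * x) hcomm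
      rw [e1, show a * b * (b * a) = a * (b * b) * a by group, hbb, mul_one, haa]
    · right; left
      have hX : ((a * b : Matrix.SpecialLinearGroup (Fin (n + 3)) F) :
            Matrix (Fin (n + 3)) (Fin (n + 3)) F)
          * ((a * b : Matrix.SpecialLinearGroup (Fin (n + 3)) F) :
            Matrix (Fin (n + 3)) (Fin (n + 3)) F) = 1 + vecMulVec ((ψ ⬝ᵥ u) • v) φ := by
        rw [hab, sq_ring2 _ _ hAA hBB hAB, vv_mul]
      exact ord4 (a * b) ((ψ ⬝ᵥ u) • v) φ (smul_ne_zero hβ hv) hφ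
        (by rw [dotProduct_smul, hα, smul_zero]) hX
  · by_cases hβ : ψ ⬝ᵥ u = 0
    · right; left
      have hBA : vecMulVec v ψ * vecMulVec u φ = 0 := by rw [vv_mul, hβ, zero_smul, zero_vv]
      have hX : ((a * b : Matrix.SpecialLinearGroup (Fin (n + 3)) F) :
            Matrix (Fin (n + 3)) (Fin (n + 3)) F)
          * ((a * b : Matrix.SpecialLinearGroup (Fin (n + 3)) F) :
            Matrix (Fin (n + 3)) (Fin (n + 3)) F) = 1 + vecMulVec ((φ ⬝ᵥ v) • u) ψ := by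
        rw [hab, sq_ring1 _ _ hAA hBB hBA, vv_mul]
      exact ord4 (a * b) ((φ ⬝ᵥ v) • u) ψ (smul_ne_zero hα hu) hψ
        (by rw [dotProduct_smul, hβ, smul_zero]) hX
    · right; right
      refine ⟨odd_case a b u φ v ψ hu hv hφu hψv hα hβ hA hB haa hbb, ?_⟩
      intro hcard
      have h1 : ∀ x : F, x ≠ 0 → x = 1 := by
        intro x hx
        have h := FiniteField.pow_card_sub_one_eq_one x hx
        rw [hcard] at h
        simpa using h
      have hα1 := h1 _ hα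
      have hβ1 := h1 _ hβ
      have hABA : vecMulVec u φ * vecMulVec v ψ * vecMulVec u φ = vecMulVec u φ := by
        rw [vv_mul, vv_mul, hα1, hβ1, one_smul, one_smul]
      have hBAB : vecMulVec v ψ * vecMulVec u φ * vecMulVec v ψ = vecMulVec v ψ := by
        rw [vv_mul, vv_mul, hα1, hβ1, one_smul, one_smul]
      apply Subtype.ext
      rw [show (a * b) ^ 3 = (a * b) * (a * b) * (a * b) by rw [pow_succ, pow_succ, pow_one]]
      rw [Matrix.SpecialLinearGroup.coe_mul, Matrix.SpecialLinearGroup.coe_mul, hab,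
        Matrix.SpecialLinearGroup.coe_one]
      exact cube_ring _ _ hAA hBB hABA hBAB

theorem rootInvSet (F : Type*) [Field F] [Fintype F] [CharP F 2] (n : ℕ) :
    Cfsg.IsRootInvolutionSet (Dset F n) := by
  classical
  refine ⟨?_, ?_, ?_, ?_⟩
  · intro d hd
    have ht := tv_of_mem_D d hd
    exact orderOf_eq_prime (by rw [sq]; exact tv_sq d ht) (tv_ne_one d ht)
  · apply SLGen.eq_top_of_transvection_mem
    intro i j hij c
    by_cases hc : c = 0
    · rw [hc, Matrix.SpecialLinearGroup.transvection_coeff_zero]; exact Subgroup.one_mem _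
    · apply Subgroup.subset_closure
      apply mem_D_of_tv
      refine ⟨Pi.single i c, Pi.single j 1, ?_, ?_, ?_, ?_⟩
      · intro h
        have h2 := congrFun h i
        rw [Pi.single_eq_same] at h2
        exact hc h2
      · intro h
        have h2 := congrFun h j
        rw [Pi.single_eq_same] at h2
        exact one_ne_zero h2
      · rw [single_one_dotProduct, Pi.single_eq_of_ne (Ne.symm hij)]
      · rw [Matrix.SpecialLinearGroup.transvection_coe, single_vv]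
  · intro d hd g
    obtain ⟨c, hc, g0, hg0⟩ := (mem_D_def d).1 hd
    refine (mem_D_def _).2 ⟨c, hc, g * g0, ?_⟩
    rw [show (g * g0)⁻¹ * (g * d * g⁻¹) * (g * g0) = g0⁻¹ * d * g0 by group]
    exact hg0
  · intro a ha b hb
    rcases pair_main a b (tv_of_mem_D a ha) (tv_of_mem_D b hb) with h | h | h
    · left; exact h.1
    · right; right; exact ⟨h.1, mem_D_of_tv _ h.2⟩
    · right; left; exact h.1

theorem nonempty_D : (Dset F n).Nonempty := by
  refine ⟨Matrix.SpecialLinearGroup.transvection h01 1, ?_⟩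
  exact (mem_D_def _).2 ⟨1, one_ne_zero, 1, by
    rw [inv_one, one_mul, mul_one, Matrix.SpecialLinearGroup.transvection_coe]; rfl⟩

theorem single_class : ∀ a ∈ Dset F n, ∀ b ∈ Dset F n,
    ∃ g : Matrix.SpecialLinearGroup (Fin (n + 3)) F, b = g * a * g⁻¹ := by
  intro a ha b hb
  obtain ⟨ga, hga⟩ := conj_of_tv a (tv_of_mem_D a ha)
  obtain ⟨gb, hgb⟩ := conj_of_tv b (tv_of_mem_D b hb)
  have e : ga⁻¹ * a * ga = gb⁻¹ * b * gb := Subtype.ext (hga.trans hgb.symm)
  refine ⟨gb * ga⁻¹, ?_⟩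
  have hb' : b = gb * (gb⁻¹ * b * gb) * gb⁻¹ := by group
  rw [hb', ← e]
  group

theorem three_four [Fintype F] [CharP F 2] (hcard : Fintype.card F = 2) :
    ∀ a ∈ Dset F n, ∀ b ∈ Dset F n, Odd (orderOf (a * b)) →
      orderOf (a * b) = 1 ∨ orderOf (a * b) = 3 := by
  intro a ha b hb hodd
  rcases pair_main a b (tv_of_mem_D a ha) (tv_of_mem_D b hb) with h | h | h
  · left
    have hdvd : orderOf (a * b) ∣ 2 := orderOf_dvd_of_pow_eq_one h.2
    rcases Nat.prime_two.eq_one_or_self_of_dvd _ hdvd with h1 | h1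
    · exact h1
    · rw [h1] at hodd; exact absurd hodd (by decide)
  · rw [h.1] at hodd; exact absurd hodd (by decide)
  · have hdvd : orderOf (a * b) ∣ 3 := orderOf_dvd_of_pow_eq_one (h.2 hcard)
    exact Nat.prime_three.eq_one_or_self_of_dvd _ hdvd

end Cfsg.Agent.Helper2.RootInv
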