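import Mathlib

set_option autoImplicit false

namespace Cfsg.Agent.Helper2.S3T

/-- the embedding of `Fin 3` with prescribed distinct values -/
def emb3 {α : Type*} (u v w : α) (huv : u ≠ v) (huw : u ≠ w) (hvw : v ≠ w) : Fin 3 ↪ α :=
  ⟨![u, v, w], by
    intro i j hij
    fin_cases i <;> fin_cases j <;> simp_all⟩

theorem eq_one_of_conj_eq_one {G : Type*} [Group G] {g w : G} (h : g * w * g⁻¹ = 1) : w = 1 := by
  have h2 : g⁻¹ * (g * w * g⁻¹) * g = w := by group
  rw [← h2, h]; group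

/-- in a sharply 3-transitive group a two-point stabiliser has at most one subgroup of order 3 -/
theorem main {α : Type*} [Fintype α] [DecidableEq α] (h6 : 3 ≤ Fintype.card α)
    (G : Subgroup (Equiv.Perm α)) (h3 : MulAction.IsMultiplyPretransitive G α 3)
    (hsharp : ∀ x : Fin 3 ↪ α, MulAction.stabilizer G x = ⊥) {a b : α} (hab : a ≠ b)
    (A B : Subgroup G) (hA : A ≤ MulAction.stabilizer G a ⊓ MulAction.stabilizer G b)
    (hB : B ≤ MulAction.stabilizer G a ⊓ MulAction.stabilizer G b)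
    (hA3 : Nat.card A = 3) (hB3 : Nat.card B = 3) : A = B := by
  classical
  haveI : Fintype ↥G := Fintype.ofFinite _
  have F1 : ∀ (g : ↥G) (u v w : α), u ≠ v → u ≠ w → v ≠ w → g • u = u → g • v = v →
      g • w = w → g = 1 := by
    intro g u v w huv huw hvw h1 h2 h3'
    have hmem : g ∈ MulAction.stabilizer G (emb3 u v w huv huw hvw) := by
      rw [MulAction.mem_stabilizer_iff]
      ext i
      fin_cases i
      · exact h1
      · exact h2
      · exact h3'
    rw [hsharp] at hmem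
    exact Subgroup.mem_bot.mp hmem
  have F2 : ∀ (u v w u' v' w' : α), u ≠ v → u ≠ w → v ≠ w → u' ≠ v' → u' ≠ w' → v' ≠ w' →
      ∃ g : ↥G, g • u = u' ∧ g • v = v' ∧ g • w = w' := by
    intro u v w u' v' w' h1 h2 h3' h4 h5 h6'
    obtain ⟨g, hg⟩ := h3.exists_smul_eq (emb3 u v w h1 h2 h3') (emb3 u' v' w' h4 h5 h6')
    exact ⟨g, DFunLike.congr_fun hg 0, DFunLike.congr_fun hg 1, DFunLike.congr_fun hg 2⟩
  obtain ⟨c, hca, hcb⟩ : ∃ c : α, c ≠ a ∧ c ≠ b := by
    have hlt : ({a, b} : Finset α).card < (Finset.univ : Finset α).card :=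
      lt_of_le_of_lt Finset.card_le_two (by rw [Finset.card_univ]; omega)
    obtain ⟨e, -, he⟩ := Finset.exists_mem_notMem_of_card_lt_card hlt
    exact ⟨e, fun h => he (by rw [h]; simp), fun h => he (by rw [h]; simp)⟩
  obtain ⟨Pc, hPc⟩ : ∃ Pc : Finset (α × α), Pc = (Finset.univ.erase c).offDiag := ⟨_, rfl⟩
  obtain ⟨EH, hEH⟩ : ∃ EH : Finset ↥G, EH = Finset.univ.filter
      (fun g : ↥G => g ≠ 1 ∧ g ^ 3 = 1 ∧ g • a = a ∧ g • b = b) := ⟨_, rfl⟩
  obtain ⟨E, hE⟩ : ∃ E : Finset ↥G, E = Finset.univ.filter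
      (fun g : ↥G => g ≠ 1 ∧ g ^ 3 = 1 ∧ g • c ≠ c) := ⟨_, rfl⟩
  have memPc : ∀ q : α × α, q ∈ Pc ↔ q.1 ≠ c ∧ q.2 ≠ c ∧ q.1 ≠ q.2 := by
    intro q
    rw [hPc, Finset.mem_offDiag, Finset.mem_erase, Finset.mem_erase]
    exact ⟨fun h => ⟨h.1.1, h.2.1.1, h.2.2⟩,
      fun h => ⟨⟨h.1, Finset.mem_univ _⟩, ⟨h.2.1, Finset.mem_univ _⟩, h.2.2⟩⟩
  have memEH : ∀ g : ↥G, g ∈ EH ↔ g ≠ 1 ∧ g ^ 3 = 1 ∧ g • a = a ∧ g • b = b := by
    intro g
    rw [hEH, Finset.mem_filter]
    exact ⟨fun h => h.2, fun h => ⟨Finset.mem_univ _, h⟩⟩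
  have memE : ∀ g : ↥G, g ∈ E ↔ g ≠ 1 ∧ g ^ 3 = 1 ∧ g • c ≠ c := by
    intro g
    rw [hE, Finset.mem_filter]
    exact ⟨fun h => h.2, fun h => ⟨Finset.mem_univ _, h⟩⟩
  have hc3 : ∀ g : ↥G, g ^ 3 = 1 → ∀ x : α, g • g • g • x = x := by
    intro g hg x
    rw [← mul_smul, ← mul_smul, ← pow_three', hg, one_smul]
  have conjfix : ∀ (γ e : ↥G) (x x' : α), γ • x = x' → e • x = x →
      (γ * e * γ⁻¹) • x' = x' := by
    intro γ e x x' h he
    rw [mul_smul, mul_smul, inv_smul_eq_iff.mpr h.symm, he, h]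
  have ex : ∀ q : α × α, ∃ γ : ↥G, q ∈ Pc → γ • a = q.1 ∧ γ • b = q.2 ∧ γ • c = c := by
    intro q
    by_cases hq : q ∈ Pc
    · obtain ⟨h1, h2, h3'⟩ := (memPc q).mp hq
      obtain ⟨γ, e1, e2, e3⟩ := F2 a b c q.1 q.2 c hab hca.symm hcb.symm h3' h1 h2
      exact ⟨γ, fun _ => ⟨e1, e2, e3⟩⟩
    · exact ⟨1, fun h => absurd h hq⟩
  choose γ hγ using ex
  have K3 : E.card ≤ Pc.card := by
    apply Finset.card_le_card_of_injOn (fun g : ↥G => (g • c, g • g • c))
    · intro g hg
      obtain ⟨hg1, hg3, hgc⟩ := (memE g).mp (Finset.mem_coe.mp hg)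
      apply Finset.mem_coe.mpr
      rw [memPc]
      refine ⟨hgc, ?_, ?_⟩
      · intro h
        have h' : g • g • c = c := h
        apply hgc
        have h2 := hc3 g hg3 c
        rw [h'] at h2
        exact h2
      · intro h
        have h' : g • c = g • g • c := h
        exact hgc (smul_left_cancel g h').symm
    · intro g hg g' hg' heq
      obtain ⟨hg1, hg3, hgc⟩ := (memE g).mp (Finset.mem_coe.mp hg)
      obtain ⟨hg1', hg3', hgc'⟩ := (memE g').mp (Finset.mem_coe.mp hg')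
      have h1 : g • c = g' • c := congrArg Prod.fst heq
      have h2 : g • g • c = g' • g' • c := congrArg Prod.snd heq
      have hk : g'⁻¹ * g = 1 := by
        apply F1 (g'⁻¹ * g) c (g • c) (g • g • c)
        · exact fun h => hgc h.symm
        · intro h
          apply hgc
          have h5 := hc3 g hg3 c
          rw [← h] at h5
          exact h5
        · intro h
          exact hgc (smul_left_cancel g h).symm
        · rw [mul_smul, h1, inv_smul_smul]
        · rw [mul_smul, h2, inv_smul_smul, h1]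
        · rw [mul_smul, hc3 g hg3 c, inv_smul_eq_iff, h2, hc3 g' hg3' c]
      exact (inv_mul_eq_one.mp hk).symm
  have K2 : (E.sigma (fun g : ↥G => Finset.univ.filter (fun u : α => g • u = u))).card
      ≤ E.card * 2 := by
    rw [Finset.card_sigma]
    calc ∑ g ∈ E, (Finset.univ.filter (fun u : α => g • u = u)).card
        ≤ ∑ _g ∈ E, 2 := by
          apply Finset.sum_le_sum
          intro g hg
          obtain ⟨hg1, -, -⟩ := (memE g).mp hg
          by_contra hcon
          obtain ⟨u, hu, v, hv, w, hw, huv, huw, hvw⟩ :=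
            Finset.two_lt_card.mp (not_le.mp hcon)
          exact hg1 (F1 g u v w huv huw hvw (Finset.mem_filter.mp hu).2
            (Finset.mem_filter.mp hv).2 (Finset.mem_filter.mp hw).2)
      _ = E.card * 2 := by rw [Finset.sum_const, smul_eq_mul]
  have K1 : (Pc ×ˢ EH).card
      ≤ (E.sigma (fun g : ↥G => Finset.univ.filter (fun u : α => g • u = u))).card := by
    apply Finset.card_le_card_of_injOn
      (fun t : (α × α) × ↥G => (⟨γ t.1 * t.2 * (γ t.1)⁻¹, t.1.1⟩ : Σ _ : ↥G, α))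
    · rintro ⟨q, e⟩ ht
      obtain ⟨hq, he⟩ := Finset.mem_product.mp (Finset.mem_coe.mp ht)
      obtain ⟨he1, he3, hea, heb⟩ := (memEH e).mp he
      obtain ⟨e1, e2, e3⟩ := hγ q hq
      apply Finset.mem_coe.mpr
      rw [Finset.mem_sigma]
      refine ⟨(memE _).mpr ⟨?_, ?_, ?_⟩,
        Finset.mem_filter.mpr ⟨Finset.mem_univ _, conjfix (γ q) e a q.1 e1 hea⟩⟩
      · intro h
        exact he1 (eq_one_of_conj_eq_one h)
      · show (γ q * e * (γ q)⁻¹) ^ 3 = 1
        rw [conj_pow, he3, mul_one, mul_inv_cancel]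
      · intro h
        have h1 : (γ q * e * (γ q)⁻¹) • c = γ q • e • c := by
          rw [mul_smul, mul_smul, inv_smul_eq_iff.mpr e3.symm]
        have h' : (γ q * e * (γ q)⁻¹) • c = c := h
        rw [h1] at h'
        have h2 : e • c = c := smul_left_cancel (γ q) (h'.trans e3.symm)
        exact he1 (F1 e a b c hab hca.symm hcb.symm hea heb h2)
    · rintro ⟨q, e⟩ ht ⟨q', e'⟩ ht' heq
      obtain ⟨hq, he⟩ := Finset.mem_product.mp (Finset.mem_coe.mp ht)
      obtain ⟨hq', he'⟩ := Finset.mem_product.mp (Finset.mem_coe.mp ht')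
      obtain ⟨he1, he3, hea, heb⟩ := (memEH e).mp he
      obtain ⟨he1', he3', hea', heb'⟩ := (memEH e').mp he'
      obtain ⟨e1, e2, e3⟩ := hγ q hq
      obtain ⟨e1', e2', e3'⟩ := hγ q' hq'
      simp only [Sigma.mk.injEq, heq_eq_eq] at heq
      obtain ⟨hg, hu⟩ := heq
      have hv : q.2 = q'.2 := by
        by_contra hne
        obtain ⟨hq1, hq2, hq3⟩ := (memPc q).mp hq
        obtain ⟨hq1', hq2', hq3'⟩ := (memPc q').mp hq'
        have f1 := conjfix (γ q) e a q.1 e1 hea
        have f2 := conjfix (γ q) e b q.2 e2 heb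
        have f3 := conjfix (γ q') e' b q'.2 e2' heb'
        rw [← hg] at f3
        have h1 := F1 _ q.1 q.2 q'.2 hq3 (by rw [hu]; exact hq3') hne f1 f2 f3
        exact he1 (eq_one_of_conj_eq_one h1)
      have hqq : q = q' := Prod.ext hu hv
      subst hqq
      have hee : e = e' := mul_left_cancel (mul_right_cancel hg)
      rw [hee]
  have hPcpos : 0 < Pc.card :=
    Finset.card_pos.mpr ⟨(a, b), (memPc (a, b)).mpr ⟨hca.symm, hcb.symm, hab⟩⟩
  have hEH2 : EH.card ≤ 2 := by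
    have h1 : Pc.card * EH.card ≤ Pc.card * 2 := by
      calc Pc.card * EH.card = (Pc ×ˢ EH).card := (Finset.card_product _ _).symm
        _ ≤ _ := K1
        _ ≤ E.card * 2 := K2
        _ ≤ Pc.card * 2 := Nat.mul_le_mul_right 2 K3
    exact Nat.le_of_mul_le_mul_left h1 hPcpos
  have sub : ∀ X : Subgroup ↥G, X ≤ MulAction.stabilizer G a ⊓ MulAction.stabilizer G b →
      Nat.card X = 3 → (Finset.univ.filter (fun g : ↥G => g ∈ X)).erase 1 = EH := by
    intro X hX hX3
    apply Finset.eq_of_subset_of_card_le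
    · intro g hg
      obtain ⟨hg1, hg2⟩ := Finset.mem_erase.mp hg
      have hgX : g ∈ X := (Finset.mem_filter.mp hg2).2
      have hst := Subgroup.mem_inf.mp (hX hgX)
      refine (memEH g).mpr ⟨hg1, ?_, MulAction.mem_stabilizer_iff.mp hst.1,
        MulAction.mem_stabilizer_iff.mp hst.2⟩
      have h5 : (⟨g, hgX⟩ : ↥X) ^ Nat.card ↥X = 1 := pow_card_eq_one'
      rw [hX3] at h5
      exact congrArg Subtype.val h5
    · have hcardX : (Finset.univ.filter (fun g : ↥G => g ∈ X)).card = 3 := by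
        rw [← hX3, Nat.card_eq_fintype_card]
        exact (Fintype.card_of_subtype _ (fun x =>
          ⟨fun h => (Finset.mem_filter.mp h).2,
            fun h => Finset.mem_filter.mpr ⟨Finset.mem_univ _, h⟩⟩)).symm
      rw [Finset.card_erase_of_mem (Finset.mem_filter.mpr ⟨Finset.mem_univ _, X.one_mem⟩),
        hcardX]
      exact hEH2
  have hAB : (Finset.univ.filter (fun g : ↥G => g ∈ A)).erase 1
      = (Finset.univ.filter (fun g : ↥G => g ∈ B)).erase 1 := by
    rw [sub A hA hA3, sub B hB hB3]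
  ext g
  by_cases hg1 : g = 1
  · rw [hg1]; exact iff_of_true A.one_mem B.one_mem
  · constructor
    · intro hg
      have h1 : g ∈ (Finset.univ.filter (fun g : ↥G => g ∈ A)).erase 1 :=
        Finset.mem_erase.mpr ⟨hg1, Finset.mem_filter.mpr ⟨Finset.mem_univ _, hg⟩⟩
      rw [hAB] at h1
      exact (Finset.mem_filter.mp (Finset.mem_erase.mp h1).2).2
    · intro hg
      have h1 : g ∈ (Finset.univ.filter (fun g : ↥G => g ∈ B)).erase 1 :=
        Finset.mem_erase.mpr ⟨hg1, Finset.mem_filter.mpr ⟨Finset.mem_univ _, hg⟩⟩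
      rw [← hAB] at h1
      exact (Finset.mem_filter.mp (Finset.mem_erase.mp h1).2).2

end Cfsg.Agent.Helper2.S3T
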