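import Mathlib
import Cfsg.Prelude.Def_GeometricClasses
import Cfsg.Agent.Helper2.Parab
import Cfsg.Agent.S0766

/-!
# The symplectic similarity group is maximal in `SL_n`

For a non-degenerate alternating form `f` on `F^ι`, a subgroup of `GL` containing the
similarities of `f` of determinant one and an element that is not a similarity contains `SL`.
-/

set_option autoImplicit false

namespace Cfsg.Agent.Helper2

namespace SLSp

open Matrix

variable {F : Type*} [Field F] {ι : Type} [Fintype ι] [DecidableEq ι]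

/-- The form as a Mathlib bilinear form. -/
noncomputable def bform (f : (ι → F) → (ι → F) → F) (hb : Cfsg.Geo.IsBilinearForm f) :
    LinearMap.BilinForm F (ι → F) :=
  LinearMap.mk₂ F f hb.add_left (fun c x v => by rw [hb.smul_left, smul_eq_mul])
    hb.add_right (fun c v x => by rw [hb.smul_right, smul_eq_mul])

theorem bform_apply (f : (ι → F) → (ι → F) → F) (hb : Cfsg.Geo.IsBilinearForm f)
    (u v : ι → F) : bform f hb u v = f u v := rfl

/-- The row vector representing `f u ·`. -/
def phi (f : (ι → F) → (ι → F) → F) (u : ι → F) : ι → F :=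
  fun i => f u (fun j => if i = j then 1 else 0)

theorem phi_dot (f : (ι → F) → (ι → F) → F) (hb : Cfsg.Geo.IsBilinearForm f) (u x : ι → F) :
    phi f u ⬝ᵥ x = f u x := by
  have h := LinearMap.pi_apply_eq_sum_univ (bform f hb u) x
  have h2 : f u x = ∑ i, x i • f u (fun j => if i = j then 1 else 0) := h
  rw [h2]
  show ∑ i, f u (fun j => if i = j then 1 else 0) * x i = _
  exact Finset.sum_congr rfl (fun i _ => by rw [smul_eq_mul, mul_comm])

theorem phi_smul (f : (ι → F) → (ι → F) → F) (hb : Cfsg.Geo.IsBilinearForm f) (c : F)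
    (d : ι → F) : phi f (c • d) = c • phi f d := by
  funext i
  show f (c • d) _ = c * f d _
  exact hb.smul_left c d _

theorem exists_rep (f : (ι → F) → (ι → F) → F) (hf : Cfsg.Geo.IsSymplecticForm f) (ψ : ι → F) :
    ∃ u, phi f u = ψ := by
  have hb := hf.bilinear
  let Φ : (ι → F) →ₗ[F] (ι → F) :=
    LinearMap.pi (fun i => (bform f hb).flip (fun j => if i = j then 1 else 0))
  have hΦ : ∀ u, Φ u = phi f u := fun u => rfl
  have hinj : Function.Injective Φ := by
    rw [← LinearMap.ker_eq_bot, LinearMap.ker_eq_bot']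
    intro u hu
    by_contra hne
    obtain ⟨x, hx⟩ := (hf.nondegenerate u hne).2
    apply hx
    rw [← phi_dot f hb u x, ← hΦ u, hu, zero_dotProduct]
  obtain ⟨u, hu⟩ := LinearMap.injective_iff_surjective.1 hinj ψ
  exact ⟨u, by rw [← hΦ u, hu]⟩

theorem key (f : (ι → F) → (ι → F) → F) (hf : Cfsg.Geo.IsSymplecticForm f) (v x y : ι → F)
    (b : F) : f (x + (b * f v x) • v) (y + (b * f v y) • v) = f x y := by
  have hb := hf.bilinear
  simp only [hb.add_left, hb.add_right, hb.smul_left, hb.smul_right, hf.alternating]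
  linear_combination (b * f v y) * hf.skew x v

theorem two_fun (f : (ι → F) → (ι → F) → F) (hf : Cfsg.Geo.IsSymplecticForm f) (p q : ι → F)
    (hp : p ≠ 0) (hq : q ≠ 0) : ∃ y, f p y ≠ 0 ∧ f q y ≠ 0 := by
  have hb := hf.bilinear
  obtain ⟨y₁, h1p⟩ := (hf.nondegenerate p hp).2
  obtain ⟨y₂, h2q⟩ := (hf.nondegenerate q hq).2
  by_cases h3 : f q y₁ = 0
  · by_cases h4 : f p y₂ = 0
    · refine ⟨y₁ + y₂, ?_, ?_⟩
      · rw [hb.add_right, h4, add_zero]
        exact h1p
      · rw [hb.add_right, h3, zero_add]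
        exact h2q
    · exact ⟨y₂, h4, h2q⟩
  · exact ⟨y₁, h1p, h3⟩

/-- **Key lemma**: a subgroup containing the determinant-one similarities of a symplectic form
and a non-similarity contains `SL`. -/
theorem sl_le_of_sim [Nontrivial ι] (f : (ι → F) → (ι → F) → F)
    (hf : Cfsg.Geo.IsSymplecticForm f)
    (K : Subgroup (Matrix.GeneralLinearGroup ι F))
    (hK : Cfsg.Geo.similarityGroup f ⊓ Cfsg.Geo.specialLinear ι F ≤ K)
    (hex : ∃ g ∈ K, g ∉ Cfsg.Geo.similarityGroup f) :
    Cfsg.Geo.specialLinear ι F ≤ K := by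
  have hb := hf.bilinear
  have f0r : ∀ x, f x 0 = 0 := by
    intro x
    have := hb.smul_right 0 x 0
    rw [zero_smul, zero_mul] at this
    exact this
  have f0l : ∀ x, f 0 x = 0 := by
    intro x
    have := hb.smul_left 0 0 x
    rw [zero_smul, zero_mul] at this
    exact this
  -- S1: symplectic transvections
  have S1 : ∀ (v : ι → F) (b : F), Parab.InK K v (phi f (b • v)) := by
    intro v b g hg
    apply hK
    refine Subgroup.mem_inf.2 ⟨?_, ?_⟩
    · show ∃ c : Fˣ, ∀ u w, f ((g : Matrix ι ι F) *ᵥ u) ((g : Matrix ι ι F) *ᵥ w)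
        = (c : F) * f u w
      refine ⟨1, fun u w => ?_⟩
      rw [hg, Parab.tmat_mulVec, Parab.tmat_mulVec, phi_dot f hb, phi_dot f hb, hb.smul_left,
        hb.smul_left, Units.val_one, one_mul]
      exact key f hf v u w b
    · rw [Parab.mem_sl_iff, hg, Parab.tmat_det, phi_dot f hb, hb.smul_left, hf.alternating,
        mul_zero, add_zero]
  obtain ⟨g, hgK, hg⟩ := hex
  -- S2: one more "transvection" in K
  have S2 : ∃ v₁ u₁ : ι → F, LinearIndependent F ![v₁, u₁] ∧ f v₁ u₁ = 0 ∧
      Parab.InK K v₁ (phi f u₁) := by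
    by_contra hcon
    apply hg
    have hd : ∀ d : ι → F, d ≠ 0 → ∃ c : F, c ≠ 0 ∧ ∀ y,
        f ((g : Matrix ι ι F) *ᵥ d) ((g : Matrix ι ι F) *ᵥ y) = c * f d y := by
      intro d hd0
      obtain ⟨u', hu'⟩ := exists_rep f hf
        (phi f d ᵥ* ((g⁻¹ : Matrix.GeneralLinearGroup ι F) : Matrix ι ι F))
      have hH : Parab.InK K d (phi f u' ᵥ* (g : Matrix ι ι F)) := by
        rw [hu', Matrix.vecMul_vecMul, Units.inv_mul, Matrix.vecMul_one]
        have h1 := S1 d 1
        rw [one_smul] at h1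
        exact h1
      have hIn := Parab.inK_conj K g hgK d (phi f u') hH
      have hfu : ∀ x, f u' x
          = f d (((g⁻¹ : Matrix.GeneralLinearGroup ι F) : Matrix ι ι F) *ᵥ x) := by
        intro x
        rw [← phi_dot f hb u' x, hu', ← Matrix.dotProduct_mulVec, phi_dot f hb]
      have hgd0 : (g : Matrix ι ι F) *ᵥ d ≠ 0 := by
        intro h
        apply hd0
        apply Parab.gl_mulVec_inj g
        rw [h, Matrix.mulVec_zero]
      have h0 : f ((g : Matrix ι ι F) *ᵥ d) u' = 0 := by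
        rw [hf.skew, hfu, Parab.inv_mulVec_mulVec, hf.alternating, neg_zero]
      have hnli : ¬ LinearIndependent F ![(g : Matrix ι ι F) *ᵥ d, u'] := by
        intro hli
        exact hcon ⟨_, _, hli, h0, hIn⟩
      rw [LinearIndependent.pair_iff' hgd0] at hnli
      obtain ⟨a, ha⟩ := not_forall.1 hnli
      have ha' : a • ((g : Matrix ι ι F) *ᵥ d) = u' := not_not.1 ha
      have hfy : ∀ y, f d y
          = a * f ((g : Matrix ι ι F) *ᵥ d) ((g : Matrix ι ι F) *ᵥ y) := by
        intro y
        have h1 := hfu ((g : Matrix ι ι F) *ᵥ y)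
        rw [Parab.inv_mulVec_mulVec, ← ha', hb.smul_left] at h1
        exact h1.symm
      have ha0 : a ≠ 0 := by
        intro h
        obtain ⟨y, hy⟩ := (hf.nondegenerate d hd0).2
        apply hy
        rw [hfy y, h, zero_mul]
      refine ⟨a⁻¹, inv_ne_zero ha0, fun y => ?_⟩
      rw [hfy y, ← mul_assoc, inv_mul_cancel₀ ha0, one_mul]
    have hcc : ∀ (p q : ι → F) (cp cq : F),
        (∀ y, f ((g : Matrix ι ι F) *ᵥ p) ((g : Matrix ι ι F) *ᵥ y) = cp * f p y) →
        (∀ y, f ((g : Matrix ι ι F) *ᵥ q) ((g : Matrix ι ι F) *ᵥ y) = cq * f q y) →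
        f p q ≠ 0 → cp = cq := by
      intro p q cp cq hp hq hpq
      have h1 := hp q
      have h2 := hq p
      have s1 := hf.skew ((g : Matrix ι ι F) *ᵥ p) ((g : Matrix ι ι F) *ᵥ q)
      have s2 := hf.skew p q
      have h3 : (cp - cq) * f p q = 0 := by
        linear_combination (-1 : F) * h1 + s1 - h2 - cq * s2
      rcases mul_eq_zero.1 h3 with h | h
      · exact sub_eq_zero.1 h
      · exact absurd h hpq
    obtain ⟨i₀⟩ := (inferInstance : Nonempty ι)
    have he0 : (Pi.single i₀ 1 : ι → F) ≠ 0 := by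
      intro h
      have := congrFun h i₀
      rw [Pi.single_eq_same, Pi.zero_apply] at this
      exact one_ne_zero this
    obtain ⟨c₀, hc₀, hd₀⟩ := hd _ he0
    have hall : ∀ u v, f ((g : Matrix ι ι F) *ᵥ u) ((g : Matrix ι ι F) *ᵥ v) = c₀ * f u v := by
      intro u v
      by_cases hu0 : u = 0
      · rw [hu0, Matrix.mulVec_zero, f0l, f0l, mul_zero]
      · obtain ⟨c, hc, hdc⟩ := hd u hu0
        obtain ⟨y', hy1, hy2⟩ := two_fun f hf u (Pi.single i₀ 1) hu0 he0
        have hy0 : y' ≠ 0 := by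
          intro h
          apply hy1
          rw [h, f0r]
        obtain ⟨c', hc', hdc'⟩ := hd y' hy0
        have e1 : c = c' := hcc u y' c c' hdc hdc' hy1
        have e2 : c₀ = c' := hcc (Pi.single i₀ 1) y' c₀ c' hd₀ hdc' hy2
        rw [hdc v, e1, ← e2]
    show ∃ c : Fˣ, ∀ u v, f ((g : Matrix ι ι F) *ᵥ u) ((g : Matrix ι ι F) *ᵥ v)
      = (c : F) * f u v
    exact ⟨Units.mk0 c₀ hc₀, fun u v => by rw [Units.val_mk0]; exact hall u v⟩
  obtain ⟨v₁, u₁, hli₁, h1, hIn₁⟩ := S2
  -- S3: transport by Witt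
  have hB : (bform f hb).Nondegenerate := by
    refine ⟨fun x hx => ?_, fun y hy => ?_⟩
    · by_contra hne
      obtain ⟨z, hz⟩ := (hf.nondegenerate x hne).2
      exact hz (hx z)
    · by_contra hne
      obtain ⟨z, hz⟩ := (hf.nondegenerate y hne).1
      exact hz (hy z)
  have hA : (bform f hb).IsAlt := fun x => hf.alternating x
  let T : Set ((ι → F) →ₗ[F] (ι → F)) :=
    {t | ∃ k ∈ K, ∀ x, t x = (k : Matrix ι ι F) *ᵥ x}
  have hT1 : LinearMap.id ∈ T :=
    ⟨1, K.one_mem, fun x => by rw [Units.val_one, Matrix.one_mulVec]; rfl⟩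
  have hTmul : ∀ g₁ ∈ T, ∀ g₂ ∈ T, g₁ ∘ₗ g₂ ∈ T := by
    rintro g₁ ⟨k₁, hk₁, e₁⟩ g₂ ⟨k₂, hk₂, e₂⟩
    exact ⟨k₁ * k₂, K.mul_mem hk₁ hk₂, fun x => by
      rw [LinearMap.comp_apply, e₁, e₂, Units.val_mul, Matrix.mulVec_mulVec]⟩
  have hTt : ∀ (d : ι → F) (c : F) (t : (ι → F) →ₗ[F] (ι → F)),
      (∀ v, t v = v + (c * bform f hb d v) • d) → t ∈ T := by
    intro d c t ht
    have hne : 1 + phi f (c • d) ⬝ᵥ d ≠ 0 := by
      rw [phi_dot f hb, hb.smul_left, hf.alternating, mul_zero, add_zero]
      exact one_ne_zero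
    refine ⟨Parab.tgl d (phi f (c • d)) hne, S1 d c _ (Parab.tgl_val _ _ _), fun x => ?_⟩
    have ht' : t x = x + (c * f d x) • d := ht x
    rw [ht', Parab.tgl_val, Parab.tmat_mulVec, phi_dot f hb, hb.smul_left]
  have S3 : ∀ v u : ι → F, LinearIndependent F ![v, u] → f v u = 0 →
      Parab.InK K v (phi f u) := by
    intro v u hli hvu
    have hxy : ∀ i j, bform f hb (![v, u] i) (![v, u] j)
        = bform f hb (![v₁, u₁] i) (![v₁, u₁] j) := by
      intro i j
      fin_cases i <;> fin_cases j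
      · show f v v = f v₁ v₁
        rw [hf.alternating, hf.alternating]
      · show f v u = f v₁ u₁
        rw [hvu, h1]
      · show f u v = f u₁ v₁
        rw [hf.skew u v, hf.skew u₁ v₁, hvu, h1]
      · show f u u = f u₁ u₁
        rw [hf.alternating, hf.alternating]
    obtain ⟨t, ⟨k, hkK, hk⟩, hiso, hmap⟩ :=
      S0766.witt_gen (bform f hb) hB hA T hT1 hTmul hTt ![v₁, u₁] ![v, u] hli₁ hli hxy
    have hkv : (k : Matrix ι ι F) *ᵥ v₁ = v := by
      rw [← hk]
      exact hmap 0
    have hku : (k : Matrix ι ι F) *ᵥ u₁ = u := by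
      rw [← hk]
      exact hmap 1
    have hkiso : ∀ a b, f ((k : Matrix ι ι F) *ᵥ a) ((k : Matrix ι ι F) *ᵥ b) = f a b := by
      intro a b
      rw [← hk, ← hk]
      exact hiso a b
    have hphi : phi f u ᵥ* (k : Matrix ι ι F) = phi f u₁ := by
      apply dotProduct_eq
      intro x
      rw [← Matrix.dotProduct_mulVec, phi_dot f hb, phi_dot f hb]
      have h2 := hkiso u₁ x
      rw [hku] at h2
      exact h2
    have h3 := Parab.inK_conj K k hkK v₁ (phi f u) (by rw [hphi]; exact hIn₁)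
    rw [hkv] at h3
    exact h3
  -- S4: elementary transvections
  have step4 : ∀ (i j : ι) (hij : i ≠ j) (a : F),
      Matrix.SpecialLinearGroup.toGL (Matrix.SpecialLinearGroup.transvection hij a) ∈ K := by
    intro i j hij a
    have hs : (Matrix.single i j a : Matrix ι ι F)
        = Matrix.vecMulVec (Pi.single i 1) (a • Pi.single j 1) := by
      rw [Matrix.vecMulVec_smul, ← Matrix.single_eq_single_vecMulVec_single, Matrix.smul_single,
        smul_eq_mul, mul_one]
    have hφ : (a • (Pi.single j 1 : ι → F)) ⬝ᵥ (Pi.single i 1 : ι → F) = 0 := by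
      rw [smul_dotProduct, single_dotProduct, Pi.single_apply, if_neg hij.symm, mul_zero,
        smul_zero]
    obtain ⟨u, hu⟩ := exists_rep f hf (a • (Pi.single j 1 : ι → F))
    have hval : ((Matrix.SpecialLinearGroup.toGL
        (Matrix.SpecialLinearGroup.transvection hij a) : Matrix.GeneralLinearGroup ι F) :
          Matrix ι ι F) = 1 + Matrix.vecMulVec (Pi.single i 1) (phi f u) := by
      rw [hu, ← hs]
      rfl
    have h0 : f (Pi.single i 1) u = 0 := by
      rw [hf.skew, ← phi_dot f hb, hu, hφ, neg_zero]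
    have hei : (Pi.single i 1 : ι → F) ≠ 0 := by
      intro h
      have := congrFun h i
      rw [Pi.single_eq_same, Pi.zero_apply] at this
      exact one_ne_zero this
    by_cases hli : LinearIndependent F ![(Pi.single i 1 : ι → F), u]
    · exact S3 _ _ hli h0 _ hval
    · rw [LinearIndependent.pair_iff' hei] at hli
      obtain ⟨b, hb'⟩ := not_forall.1 hli
      have hb'' : b • (Pi.single i 1 : ι → F) = u := not_not.1 hb'
      have h5 := S1 (Pi.single i 1) b
      rw [hb''] at h5
      exact h5 _ hval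
  have htop : K.comap (Matrix.SpecialLinearGroup.toGL :
      Matrix.SpecialLinearGroup ι F →* Matrix.GeneralLinearGroup ι F) = ⊤ := by
    apply SLGen.eq_top_of_transvection_mem
    intro i j hij a
    exact step4 i j hij a
  intro g' hg'
  rw [Parab.mem_sl_iff] at hg'
  have h1' : ∀ s : Matrix.SpecialLinearGroup ι F, Matrix.SpecialLinearGroup.toGL s ∈ K := by
    intro s
    have h3 : s ∈ K.comap (Matrix.SpecialLinearGroup.toGL :
        Matrix.SpecialLinearGroup ι F →* Matrix.GeneralLinearGroup ι F) := by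
      rw [htop]
      exact Subgroup.mem_top _
    exact h3
  have h2 : Matrix.SpecialLinearGroup.toGL
      (⟨(g' : Matrix ι ι F), hg'⟩ : Matrix.SpecialLinearGroup ι F) = g' := Units.ext rfl
  rw [← h2]
  exact h1' _

/-- A determinant-one non-similarity. -/
theorem exists_sl_not_sim (f : (ι → F) → (ι → F) → F) (hf : Cfsg.Geo.IsSymplecticForm f)
    (i0 i1 i2 : ι) (h01 : i0 ≠ i1) (h02 : i0 ≠ i2) (h12 : i1 ≠ i2) :
    ∃ g ∈ Cfsg.Geo.specialLinear ι F, g ∉ Cfsg.Geo.similarityGroup f := by
  have hb := hf.bilinear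
  have hu : ∃ u : ι → F, u ≠ 0 ∧ u i0 = 0 ∧ f (Pi.single i0 1) u = 0 := by
    by_cases h1 : f (Pi.single i0 1) (Pi.single i1 1) = 0
    · refine ⟨Pi.single i1 1, ?_, ?_, h1⟩
      · intro h
        have := congrFun h i1
        rw [Pi.single_eq_same, Pi.zero_apply] at this
        exact one_ne_zero this
      · exact Pi.single_eq_of_ne h01 _
    · refine ⟨Pi.single i2 1 - (f (Pi.single i0 1) (Pi.single i2 1) /
          f (Pi.single i0 1) (Pi.single i1 1)) • Pi.single i1 1, ?_, ?_, ?_⟩
      · intro h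
        have := congrFun h i2
        rw [Pi.sub_apply, Pi.smul_apply, Pi.single_eq_same, Pi.single_eq_of_ne h12.symm,
          smul_zero, sub_zero, Pi.zero_apply] at this
        exact one_ne_zero this
      · rw [Pi.sub_apply, Pi.smul_apply, Pi.single_eq_of_ne h02, Pi.single_eq_of_ne h01,
          smul_zero, sub_zero]
      · rw [sub_eq_add_neg, ← neg_smul, hb.add_right, hb.smul_right, neg_mul,
          div_mul_cancel₀ _ h1, add_neg_cancel]
  obtain ⟨u, hu0, hui, hvu⟩ := hu
  have hv0 : (Pi.single i0 1 : ι → F) ≠ 0 := by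
    intro h
    have := congrFun h i0
    rw [Pi.single_eq_same, Pi.zero_apply] at this
    exact one_ne_zero this
  generalize hv : (Pi.single i0 1 : ι → F) = v at hvu hv0
  have hvi : v i0 = 1 := by rw [← hv, Pi.single_eq_same]
  have huv : f u v = 0 := by rw [hf.skew, hvu, neg_zero]
  have hne : 1 + phi f u ⬝ᵥ v ≠ 0 := by
    rw [phi_dot f hb, huv, add_zero]
    exact one_ne_zero
  refine ⟨Parab.tgl v (phi f u) hne, ?_, ?_⟩
  · rw [Parab.mem_sl_iff, Parab.tgl_val, Parab.tmat_det, phi_dot f hb, huv, add_zero]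
  · intro hmem
    obtain ⟨c, hc⟩ : ∃ c : Fˣ, ∀ a b,
        f ((Parab.tgl v (phi f u) hne : Matrix ι ι F) *ᵥ a)
          ((Parab.tgl v (phi f u) hne : Matrix ι ι F) *ᵥ b) = (c : F) * f a b := hmem
    have hg : ∀ x, (Parab.tgl v (phi f u) hne : Matrix ι ι F) *ᵥ x = x + f u x • v := by
      intro x
      rw [Parab.tgl_val, Parab.tmat_mulVec, phi_dot f hb]
    have hc' : ∀ x y, f (x + f u x • v) (y + f u y • v) = (c : F) * f x y := by
      intro x y
      rw [← hg, ← hg]
      exact hc x y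
    have hexp : ∀ x y, f (x + f u x • v) (y + f u y • v)
        = f x y + f u y * f x v + f u x * f v y := by
      intro x y
      simp only [hb.add_left, hb.add_right, hb.smul_left, hb.smul_right, hf.alternating]
      ring
    obtain ⟨y₀, hy₀⟩ := (hf.nondegenerate v hv0).2
    have hc1 : (c : F) = 1 := by
      have h1 := hc' v y₀
      rw [hexp, huv, hf.alternating] at h1
      have h2 : ((c : F) - 1) * f v y₀ = 0 := by linear_combination -h1
      rcases mul_eq_zero.1 h2 with h3 | h3
      · exact sub_eq_zero.1 h3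
      · exact absurd h3 hy₀
    obtain ⟨x₁, hx₁⟩ := (hf.nondegenerate u hu0).2
    have hw : f u x₁ • v - f v x₁ • u ≠ 0 := by
      intro h
      have := congrFun h i0
      rw [Pi.sub_apply, Pi.smul_apply, Pi.smul_apply, hui, hvi, smul_eq_mul, smul_eq_mul,
        mul_one, mul_zero, sub_zero, Pi.zero_apply] at this
      exact hx₁ this
    obtain ⟨z, hz⟩ := (hf.nondegenerate _ hw).2
    apply hz
    have h1 := hc' x₁ z
    rw [hexp, hc1, one_mul] at h1
    rw [sub_eq_add_neg, ← neg_smul, hb.add_left, hb.smul_left, hb.smul_left]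
    linear_combination h1 - (f u z) * hf.skew x₁ v

end SLSp

end Cfsg.Agent.Helper2
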