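import Mathlib
import Cfsg.Prelude.Def_GeometricClasses
import Cfsg.Agent.Helper2.SpDecomp2

/-!
# `Sp_2(2) wr S_m` is not maximal in `Sp_2m(2)`

The quadratic form "number of non-zero components mod 2" attached to a decomposition into
hyperbolic planes over the field with two elements.
-/

set_option autoImplicit false

namespace Cfsg.Agent.Helper2

namespace SpDecomp

open Matrix

section quad

variable {F V : Type*} [Field F] [AddCommGroup V] [Module F V]

/-- The quadratic form attached to a hyperbolic family. -/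
def Qf (B : LinearMap.BilinForm F V) {t : ℕ} (P Q : Fin t → V) (u : V) : F :=
  ∑ i, (B u (Q i) ^ 2 + B u (Q i) * B u (P i) + B u (P i) ^ 2)

theorem hyp_proj (B : LinearMap.BilinForm F V) (hB : B.IsAlt) {j : ℕ} (p q : Fin j → V)
    (h : Hyp B p q) (z : V) :
    (∀ l, B (z - (∑ i, B z (q i) • p i - ∑ i, B z (p i) • q i)) (p l) = 0) ∧
    (∀ l, B (z - (∑ i, B z (q i) • p i - ∑ i, B z (p i) • q i)) (q l) = 0) := by
  classical
  have skew : ∀ a b : V, B a b = - B b a := fun a b => (hB.neg_eq b a).symm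
  obtain ⟨hpp, hqq, hpq⟩ := h
  have hqp : ∀ i l, B (q i) (p l) = if i = l then -1 else 0 := by
    intro i l
    rw [skew, hpq]
    by_cases h : l = i
    · rw [if_pos h, if_pos h.symm]
    · rw [if_neg h, if_neg (Ne.symm h), neg_zero]
  have hprojq : ∀ l, B (∑ i, B z (q i) • p i - ∑ i, B z (p i) • q i) (q l) = B z (q l) := by
    intro l
    rw [map_sub, LinearMap.sub_apply, map_sum, map_sum, LinearMap.sum_apply,
      LinearMap.sum_apply]
    have h2 : ∑ i, B (B z (q i) • p i) (q l) = B z (q l) := by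
      rw [Finset.sum_eq_single l]
      · rw [map_smul, LinearMap.smul_apply, hpq, if_pos rfl, smul_eq_mul, mul_one]
      · intro i _ hil
        rw [map_smul, LinearMap.smul_apply, hpq, if_neg hil, smul_zero]
      · intro h
        exact absurd (Finset.mem_univ l) h
    have h3 : ∑ i, B (B z (p i) • q i) (q l) = 0 := by
      apply Finset.sum_eq_zero
      intro i _
      rw [map_smul, LinearMap.smul_apply, hqq, smul_zero]
    rw [h2, h3, sub_zero]
  have hprojp : ∀ l, B (∑ i, B z (q i) • p i - ∑ i, B z (p i) • q i) (p l) = B z (p l) := by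
    intro l
    rw [map_sub, LinearMap.sub_apply, map_sum, map_sum, LinearMap.sum_apply,
      LinearMap.sum_apply]
    have h2 : ∑ i, B (B z (q i) • p i) (p l) = 0 := by
      apply Finset.sum_eq_zero
      intro i _
      rw [map_smul, LinearMap.smul_apply, hpp, smul_zero]
    have h3 : ∑ i, B (B z (p i) • q i) (p l) = - B z (p l) := by
      rw [Finset.sum_eq_single l]
      · rw [map_smul, LinearMap.smul_apply, hqp, if_pos rfl, smul_eq_mul, mul_neg, mul_one]
      · intro i _ hil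
        rw [map_smul, LinearMap.smul_apply, hqp, if_neg hil, smul_zero]
      · intro h
        exact absurd (Finset.mem_univ l) h
    rw [h2, h3, zero_sub, neg_neg]
  refine ⟨fun l => ?_, fun l => ?_⟩
  · rw [map_sub, LinearMap.sub_apply, hprojp, sub_self]
  · rw [map_sub, LinearMap.sub_apply, hprojq, sub_self]

theorem Qf_zero (B : LinearMap.BilinForm F V) {t : ℕ} (P Q : Fin t → V) : Qf B P Q 0 = 0 := by
  unfold Qf
  apply Finset.sum_eq_zero
  intro i _
  rw [map_zero, LinearMap.zero_apply, LinearMap.zero_apply]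
  ring

theorem Qf_polar (B : LinearMap.BilinForm F V) (hB : B.IsAlt) {t : ℕ} (P Q : Fin t → V)
    (h : Hyp B P Q)
    (hN : ∀ w, (∀ l, B w (P l) = 0) → (∀ l, B w (Q l) = 0) → w = 0) (h2 : (2 : F) = 0)
    (u v : V) : Qf B P Q (u + v) = Qf B P Q u + Qf B P Q v + B u v := by
  have skew : ∀ a b : V, B a b = - B b a := fun a b => (hB.neg_eq b a).symm
  have hu : u = ∑ i, B u (Q i) • P i - ∑ i, B u (P i) • Q i :=
    sub_eq_zero.1 (hN _ (hyp_proj B hB P Q h u).1 (hyp_proj B hB P Q h u).2)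
  have h1 : B u v = B (∑ i, B u (Q i) • P i - ∑ i, B u (P i) • Q i) v :=
    congrArg (fun z => B z v) hu
  rw [map_sub, LinearMap.sub_apply, map_sum, map_sum, LinearMap.sum_apply, LinearMap.sum_apply,
    ← Finset.sum_sub_distrib] at h1
  unfold Qf
  rw [h1, ← Finset.sum_add_distrib, ← Finset.sum_add_distrib]
  apply Finset.sum_congr rfl
  intro i _
  simp only [map_add, LinearMap.add_apply, map_smul, LinearMap.smul_apply, smul_eq_mul]
  rw [skew (P i) v, skew (Q i) v]
  linear_combination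
    (B u (Q i) * B v (Q i) + B u (P i) * B v (P i) + B u (Q i) * B v (P i)) * h2

theorem Qf_sum (B : LinearMap.BilinForm F V) {t : ℕ} (P Q : Fin t → V)
    (hpol : ∀ u v, Qf B P Q (u + v) = Qf B P Q u + Qf B P Q v + B u v) (ν : Fin t → V)
    (s : Finset (Fin t)) (ho : ∀ i ∈ s, ∀ l ∈ s, i ≠ l → B (ν i) (ν l) = 0) :
    Qf B P Q (∑ i ∈ s, ν i) = ∑ i ∈ s, Qf B P Q (ν i) := by
  classical
  induction s using Finset.induction_on with
  | empty =>
    rw [Finset.sum_empty, Finset.sum_empty]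
    exact Qf_zero B P Q
  | insert a s ha ih =>
    have h0 : B (ν a) (∑ i ∈ s, ν i) = 0 := by
      rw [map_sum]
      exact Finset.sum_eq_zero (fun i hi => ho a (Finset.mem_insert_self a s) i
        (Finset.mem_insert_of_mem hi) (fun h => ha (h ▸ hi)))
    rw [Finset.sum_insert ha, Finset.sum_insert ha, hpol,
      ih (fun i hi l hl => ho i (Finset.mem_insert_of_mem hi) l (Finset.mem_insert_of_mem hl)),
      h0, add_zero]

theorem not_mem_of_two' {t : ℕ} (D : Fin t → Submodule F V) (hind : iSupIndep D)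
    (a : Fin t) (u r : V) (hu : u ∈ D a) (hr : r ∈ ⨆ j, ⨆ (_ : j ≠ a), D j) (hu0 : u ≠ 0)
    (hr0 : r ≠ 0) (l : Fin t) : u + r ∉ D l := by
  intro hl
  by_cases hla : l = a
  · rw [hla] at hl
    apply hr0
    have h1 : r ∈ D a := by
      have := (D a).sub_mem hl hu
      rwa [add_sub_cancel_left] at this
    exact Submodule.disjoint_def.1 (hind a) r h1 hr
  · apply hu0
    have h1 : u ∈ ⨆ j, ⨆ (_ : j ≠ a), D j := by
      have e : u = (u + r) - r := by abel
      rw [e]
      exact Submodule.sub_mem _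
        ((le_iSup₂_of_le l hla le_rfl : D l ≤ ⨆ j, ⨆ (_ : j ≠ a), D j) hl) hr
    exact Submodule.disjoint_def.1 (hind a) u hu h1

end quad

variable {F : Type*} [Field F] {m : ℕ}

theorem tv_not_stab {t : ℕ} (D : Fin t → Submodule F (Fin m ⊕ Fin m → F)) (hind : iSupIndep D)
    (hnd : ∀ i, ∀ a ∈ D i, a ≠ 0 → ∃ w ∈ D i, S0766.sB m F a w ≠ 0)
    (a : Fin t) (x r : Fin m ⊕ Fin m → F) (hx : x ∈ D a) (hx0 : x ≠ 0)
    (hr : r ∈ ⨆ j, ⨆ (_ : j ≠ a), D j) (hr0 : r ≠ 0)
    (hxr : ∀ d ∈ D a, S0766.sB m F d r = 0) :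
    SpParab.tv m (x + r) 1 ∉ Cfsg.Geo.decompositionStabilizer D := by
  obtain ⟨v, hv, hvx⟩ := ex_one (S0766.sB m F) (D a) (hnd a) x hx hx0
  intro hmem
  obtain ⟨σ, hσ⟩ : ∃ σ : Equiv.Perm (Fin t), ∀ l, (D l).map (Matrix.toLin'
    ((SpParab.tv m (x + r) 1 : Matrix.GeneralLinearGroup (Fin m ⊕ Fin m) F) :
      Matrix (Fin m ⊕ Fin m) (Fin m ⊕ Fin m) F)) = D (σ l) := hmem
  have h1 : ((SpParab.tv m (x + r) 1 : Matrix.GeneralLinearGroup (Fin m ⊕ Fin m) F) :
      Matrix (Fin m ⊕ Fin m) (Fin m ⊕ Fin m) F) *ᵥ v ∈ D (σ a) := by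
    rw [← hσ a]
    exact ⟨v, hv, by rw [Matrix.toLin'_apply]⟩
  have h3 : S0766.sB m F v (x + r) = -1 := by
    rw [map_add, hxr v hv, add_zero, SpParab.sB_skew, hvx]
  rw [SpParab.tv_mulVec, h3, one_mul] at h1
  have e : v + (-1 : F) • (x + r) = (v - x) + (-r) := by
    rw [neg_one_smul]
    abel
  rw [e] at h1
  refine not_mem_of_two' D hind a (v - x) (-r) ((D a).sub_mem hv hx) (Submodule.neg_mem _ hr) ?_
    (neg_ne_zero.2 hr0) (σ a) h1
  intro h
  rw [sub_eq_zero.1 h, (S0766.sB_alt m F) x] at hvx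
  exact zero_ne_one hvx

/-- Over the field with two elements the stabiliser of a decomposition into hyperbolic planes
lies strictly inside an orthogonal group, which lies strictly inside `Sp`. -/
theorem exists_between [Fintype F] (hm : 7 ≤ m) (hq : Fintype.card F = 2) {t : ℕ}
    (D : Fin t → Submodule F (Fin m ⊕ Fin m → F))
    (hD : Cfsg.Geo.IsNondegenerateMDecomposition (Cfsg.sympForm m F) 2 D) :
    ∃ K : Subgroup (Matrix.GeneralLinearGroup (Fin m ⊕ Fin m) F),
      Cfsg.Geo.decompositionStabilizer D ⊓ Cfsg.spGL m F < K ∧ K < Cfsg.spGL m F := by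
  classical
  have hnd := nd_of D hD
  have horth := orth_of D hD
  have hB := S0766.sB_alt m F
  have E : ∀ a : F, a = 0 ∨ a = 1 := by
    intro a
    have h1 : ({0, 1} : Finset F) = Finset.univ := by
      apply Finset.eq_univ_of_card
      rw [Finset.card_pair zero_ne_one, hq]
    have h2 : a ∈ ({0, 1} : Finset F) := by
      rw [h1]
      exact Finset.mem_univ a
    simpa using h2
  have h2 : (2 : F) = 0 := by
    rcases E 2 with h | h
    · exact h
    · exfalso
      have : (1 : F) = 0 := by linear_combination h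
      exact one_ne_zero this
  have hpair : ∀ i, ∃ p q : Fin m ⊕ Fin m → F, p ∈ D i ∧ q ∈ D i ∧ S0766.sB m F p q = 1 ∧
      ∀ w, S0766.sB m F w p = 0 → S0766.sB m F w q = 0 → ∀ x ∈ D i, S0766.sB m F w x = 0 := by
    intro i
    obtain ⟨j, p, q, hH, hp, hq', hsp⟩ := darboux (S0766.sB m F) hB (D i) (hnd i)
    have e1 := finrank_span_eq_card (hyp_li _ p q hH)
    rw [hsp, hD.decomp.finrank_eq, Fintype.card_sum, Fintype.card_fin] at e1
    have hj : j = 1 := by omega
    subst hj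
    refine ⟨p 0, q 0, hp 0, hq' 0, ?_, ?_⟩
    · rw [hH.2.2 0 0, if_pos rfl]
    · intro w hwp hwq x hx
      have hle : Submodule.span F (Set.range (Sum.elim p q))
          ≤ LinearMap.ker (S0766.sB m F w) := by
        rw [Submodule.span_le]
        rintro _ ⟨l, rfl⟩
        cases l with
        | inl l =>
          show S0766.sB m F w (p l) = 0
          rw [Subsingleton.elim l 0]
          exact hwp
        | inr l =>
          show S0766.sB m F w (q l) = 0
          rw [Subsingleton.elim l 0]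
          exact hwq
      rw [← hsp] at hx
      exact hle hx
  choose P Q hP hQ hPQ hPQsp using hpair
  have hH : Hyp (S0766.sB m F) P Q := by
    refine ⟨fun i l => ?_, fun i l => ?_, fun i l => ?_⟩
    · by_cases h : i = l
      · rw [h]
        exact hB _
      · exact horth i l h _ (hP i) _ (hP l)
    · by_cases h : i = l
      · rw [h]
        exact hB _
      · exact horth i l h _ (hQ i) _ (hQ l)
    · by_cases h : i = l
      · rw [h, if_pos rfl]
        exact hPQ l
      · rw [if_neg h]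
        exact horth i l h _ (hP i) _ (hQ l)
  have hsum := exists_sum D hD.decomp.iSup_eq_top
  have hN : ∀ w, (∀ l, S0766.sB m F w (P l) = 0) → (∀ l, S0766.sB m F w (Q l) = 0) →
      w = 0 := by
    intro w hwP hwQ
    apply (S0766.sB_nondeg m F).1 w
    intro z
    obtain ⟨μ, hμ, hz⟩ := hsum z
    rw [hz, map_sum]
    exact Finset.sum_eq_zero (fun i _ => hPQsp i w (hwP i) (hwQ i) (μ i) (hμ i))
  have hpol := Qf_polar (S0766.sB m F) hB P Q hH hN h2
  have hone : ∀ i, ∀ x ∈ D i, x ≠ 0 → Qf (S0766.sB m F) P Q x = 1 := by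
    intro i x hx hx0
    have hs : Qf (S0766.sB m F) P Q x = S0766.sB m F x (Q i) ^ 2 +
        S0766.sB m F x (Q i) * S0766.sB m F x (P i) + S0766.sB m F x (P i) ^ 2 := by
      unfold Qf
      apply Finset.sum_eq_single i
      · intro l _ hl
        rw [horth i l (Ne.symm hl) x hx _ (hQ l), horth i l (Ne.symm hl) x hx _ (hP l)]
        ring
      · intro h
        exact absurd (Finset.mem_univ i) h
    rw [hs]
    have hne : ¬ (S0766.sB m F x (P i) = 0 ∧ S0766.sB m F x (Q i) = 0) := by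
      rintro ⟨h1, h2'⟩
      obtain ⟨w, hw, hxw⟩ := hnd i x hx hx0
      exact hxw (hPQsp i x h1 h2' w hw)
    rcases E (S0766.sB m F x (P i)) with hb | hb <;>
      rcases E (S0766.sB m F x (Q i)) with ha | ha
    · exact absurd ⟨hb, ha⟩ hne
    · rw [ha, hb]
      ring
    · rw [ha, hb]
      ring
    · rw [ha, hb]
      linear_combination h2
  have hinv : ∀ h ∈ Cfsg.Geo.decompositionStabilizer D ⊓ Cfsg.spGL m F, ∀ v,
      Qf (S0766.sB m F) P Q ((h : Matrix (Fin m ⊕ Fin m) (Fin m ⊕ Fin m) F) *ᵥ v)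
        = Qf (S0766.sB m F) P Q v := by
    intro h hh v
    obtain ⟨hst, hsp⟩ := Subgroup.mem_inf.1 hh
    obtain ⟨σ, hσ⟩ : ∃ σ : Equiv.Perm (Fin t), ∀ l, (D l).map (Matrix.toLin'
      (h : Matrix (Fin m ⊕ Fin m) (Fin m ⊕ Fin m) F)) = D (σ l) := hst
    have hiso : ∀ a b, S0766.sB m F ((h : Matrix (Fin m ⊕ Fin m) (Fin m ⊕ Fin m) F) *ᵥ a)
        ((h : Matrix (Fin m ⊕ Fin m) (Fin m ⊕ Fin m) F) *ᵥ b) = S0766.sB m F a b := by
      intro a b
      rw [S0766.sB_apply, S0766.sB_apply]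
      exact (SpParab.mem_spGL_iff h).1 hsp a b
    obtain ⟨μ, hμ, hv⟩ := hsum v
    have e1 : (h : Matrix (Fin m ⊕ Fin m) (Fin m ⊕ Fin m) F) *ᵥ v
        = ∑ i, (h : Matrix (Fin m ⊕ Fin m) (Fin m ⊕ Fin m) F) *ᵥ μ i := by
      rw [hv, ← Matrix.toLin'_apply, map_sum]
      simp only [Matrix.toLin'_apply]
    have o1 : ∀ i ∈ (Finset.univ : Finset (Fin t)), ∀ l ∈ (Finset.univ : Finset (Fin t)),
        i ≠ l → S0766.sB m F (μ i) (μ l) = 0 :=
      fun i _ l _ hil => horth i l hil _ (hμ i) _ (hμ l)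
    have o2 : ∀ i ∈ (Finset.univ : Finset (Fin t)), ∀ l ∈ (Finset.univ : Finset (Fin t)),
        i ≠ l → S0766.sB m F ((h : Matrix (Fin m ⊕ Fin m) (Fin m ⊕ Fin m) F) *ᵥ μ i)
          ((h : Matrix (Fin m ⊕ Fin m) (Fin m ⊕ Fin m) F) *ᵥ μ l) = 0 :=
      fun i _ l _ hil => by
        rw [hiso]
        exact horth i l hil _ (hμ i) _ (hμ l)
    have s2 : Qf (S0766.sB m F) P Q
        (∑ i, (h : Matrix (Fin m ⊕ Fin m) (Fin m ⊕ Fin m) F) *ᵥ μ i)
        = ∑ i, Qf (S0766.sB m F) P Q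
          ((h : Matrix (Fin m ⊕ Fin m) (Fin m ⊕ Fin m) F) *ᵥ μ i) :=
      Qf_sum _ P Q hpol
        (fun i => (h : Matrix (Fin m ⊕ Fin m) (Fin m ⊕ Fin m) F) *ᵥ μ i) Finset.univ o2
    have s1 : Qf (S0766.sB m F) P Q (∑ i, μ i) = ∑ i, Qf (S0766.sB m F) P Q (μ i) :=
      Qf_sum _ P Q hpol μ Finset.univ o1
    rw [e1, hv, s2, s1]
    apply Finset.sum_congr rfl
    intro i _
    by_cases h0 : μ i = 0
    · rw [h0, Matrix.mulVec_zero]
    · have hmem : (h : Matrix (Fin m ⊕ Fin m) (Fin m ⊕ Fin m) F) *ᵥ μ i ∈ D (σ i) := by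
        rw [← hσ i]
        exact ⟨μ i, hμ i, by rw [Matrix.toLin'_apply]⟩
      have hne : (h : Matrix (Fin m ⊕ Fin m) (Fin m ⊕ Fin m) F) *ᵥ μ i ≠ 0 := by
        intro h'
        apply h0
        apply Parab.gl_mulVec_inj h
        rw [h', Matrix.mulVec_zero]
      rw [hone (σ i) _ hmem hne, hone i _ (hμ i) h0]
  have ht : 7 ≤ t := by
    have htop : Submodule.span F (Set.range (Sum.elim P Q)) = ⊤ := by
      rw [eq_top_iff]
      intro u _
      have hu : u = ∑ i, S0766.sB m F u (Q i) • P i - ∑ i, S0766.sB m F u (P i) • Q i :=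
        sub_eq_zero.1 (hN _ (hyp_proj _ hB P Q hH u).1 (hyp_proj _ hB P Q hH u).2)
      rw [hu]
      exact Submodule.sub_mem _
        (Submodule.sum_mem _ (fun i _ => Submodule.smul_mem _ _
          (Submodule.subset_span ⟨Sum.inl i, rfl⟩)))
        (Submodule.sum_mem _ (fun i _ => Submodule.smul_mem _ _
          (Submodule.subset_span ⟨Sum.inr i, rfl⟩)))
    have h1 : Module.finrank F (Submodule.span F (Set.range (Sum.elim P Q)))
        ≤ Fintype.card (Fin t ⊕ Fin t) := finrank_range_le_card (Sum.elim P Q)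
    rw [htop, finrank_top, SpParab.finrank_space, Fintype.card_sum, Fintype.card_fin] at h1
    omega
  have hab : (⟨0, by omega⟩ : Fin t) ≠ ⟨1, by omega⟩ := Fin.ne_of_val_ne (by norm_num)
  have hac : (⟨0, by omega⟩ : Fin t) ≠ ⟨2, by omega⟩ := Fin.ne_of_val_ne (by norm_num)
  have hbc : (⟨1, by omega⟩ : Fin t) ≠ ⟨2, by omega⟩ := Fin.ne_of_val_ne (by norm_num)
  generalize (⟨0, by omega⟩ : Fin t) = a at hab hac
  generalize (⟨1, by omega⟩ : Fin t) = b at hab hbc
  generalize (⟨2, by omega⟩ : Fin t) = c at hac hbc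
  have hPne : ∀ i, P i ≠ 0 := by
    intro i h
    have h3 := hPQ i
    rw [h, map_zero, LinearMap.zero_apply] at h3
    exact zero_ne_one h3
  have hPb : P b ∈ ⨆ j, ⨆ (_ : j ≠ a), D j :=
    (le_iSup₂_of_le b hab.symm le_rfl : D b ≤ ⨆ j, ⨆ (_ : j ≠ a), D j) (hP b)
  have hPc : P c ∈ ⨆ j, ⨆ (_ : j ≠ a), D j :=
    (le_iSup₂_of_le c hac.symm le_rfl : D c ≤ ⨆ j, ⨆ (_ : j ≠ a), D j) (hP c)
  have hbc0 : P b + P c ≠ 0 := by
    intro h
    have h3 : S0766.sB m F (P b + P c) (Q b) = 1 := by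
      rw [map_add, LinearMap.add_apply, hPQ b, horth c b hbc.symm _ (hP c) _ (hQ b), add_zero]
    rw [h, map_zero, LinearMap.zero_apply] at h3
    exact zero_ne_one h3
  -- values of the form
  have hy3 : Qf (S0766.sB m F) P Q (P a + (P b + P c)) = 1 := by
    rw [hpol, hpol, hone a _ (hP a) (hPne a), hone b _ (hP b) (hPne b),
      hone c _ (hP c) (hPne c), map_add, horth a b hab _ (hP a) _ (hP b),
      horth a c hac _ (hP a) _ (hP c), horth b c hbc _ (hP b) _ (hP c)]
    linear_combination h2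
  have hy2 : Qf (S0766.sB m F) P Q (P a + P b) = 0 := by
    rw [hpol, hone a _ (hP a) (hPne a), hone b _ (hP b) (hPne b),
      horth a b hab _ (hP a) _ (hP b)]
    linear_combination h2
  have hvy : S0766.sB m F (Q a) (P a + P b) = 1 := by
    rw [map_add, SpParab.sB_skew (Q a) (P a), hPQ a, horth a b hab _ (hQ a) _ (hP b)]
    linear_combination (-1 : F) * h2
  refine ⟨Cfsg.Geo.quadSimilarityGroup (Qf (S0766.sB m F) P Q) ⊓ Cfsg.spGL m F, ?_, ?_⟩
  · rw [SetLike.lt_iff_le_and_exists]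
    refine ⟨?_, SpParab.tv m (P a + (P b + P c)) 1, Subgroup.mem_inf.2 ⟨?_, SpParab.tv_mem _ _⟩,
      fun h => ?_⟩
    · intro h hh
      refine Subgroup.mem_inf.2 ⟨?_, hh.2⟩
      show ∃ c : Fˣ, ∀ v, Qf (S0766.sB m F) P Q
        ((h : Matrix (Fin m ⊕ Fin m) (Fin m ⊕ Fin m) F) *ᵥ v)
          = (c : F) * Qf (S0766.sB m F) P Q v
      exact ⟨1, fun v => by rw [Units.val_one, one_mul]; exact hinv h hh v⟩
    · show ∃ c₁ : Fˣ, ∀ v, Qf (S0766.sB m F) P Q
        (((SpParab.tv m (P a + (P b + P c)) 1 : Matrix.GeneralLinearGroup (Fin m ⊕ Fin m) F) :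
          Matrix (Fin m ⊕ Fin m) (Fin m ⊕ Fin m) F) *ᵥ v)
          = (c₁ : F) * Qf (S0766.sB m F) P Q v
      refine ⟨1, fun v => ?_⟩
      rw [SpParab.tv_mulVec, Units.val_one, one_mul, one_mul]
      rcases E (S0766.sB m F v (P a + (P b + P c))) with hβ | hβ
      · rw [hβ, zero_smul, add_zero]
      · rw [hβ, one_smul, hpol, hy3, hβ]
        linear_combination h2
    · refine tv_not_stab D hD.decomp.indep hnd a (P a) (P b + P c) (hP a) (hPne a)
        (Submodule.add_mem _ hPb hPc) hbc0 ?_ h.1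
      intro d hd
      rw [map_add, horth a b hab d hd _ (hP b), horth a c hac d hd _ (hP c), add_zero]
  · rw [SetLike.lt_iff_le_and_exists]
    refine ⟨inf_le_right, SpParab.tv m (P a + P b) 1, SpParab.tv_mem _ _, fun h => ?_⟩
    obtain ⟨c', hc⟩ : ∃ c : Fˣ, ∀ v, Qf (S0766.sB m F) P Q
        (((SpParab.tv m (P a + P b) 1 : Matrix.GeneralLinearGroup (Fin m ⊕ Fin m) F) :
          Matrix (Fin m ⊕ Fin m) (Fin m ⊕ Fin m) F) *ᵥ v)
          = (c : F) * Qf (S0766.sB m F) P Q v := h.1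
    have hc1 : (c' : F) = 1 := by
      rcases E (c' : F) with h' | h'
      · exact absurd h' c'.ne_zero
      · exact h'
    have h3 := hc (Q a)
    rw [SpParab.tv_mulVec, hc1, one_mul, one_mul, hvy, one_smul, hpol, hy2, hvy] at h3
    have h4 : (1 : F) = 0 := by linear_combination h3
    exact one_ne_zero h4

end SpDecomp

end Cfsg.Agent.Helper2
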