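import Mathlib
import Cfsg.Prelude.Def_GeometricClasses
import Cfsg.Agent.Helper2.SpParab2
import Cfsg.Agent.S0767

/-!
# Orthogonal groups are maximal in symplectic groups in characteristic two

For a finite field `F` of characteristic two and a quadratic form `Q` on `F^(2m)` polarising to
the standard alternating form, a subgroup of `Sp_2m(F)` containing all isometries of `Q` and an
element that is not a similarity of `Q` is all of `Sp_2m(F)`.
-/

set_option autoImplicit false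

namespace Cfsg.Agent.Helper2

namespace SpParab

open Matrix

variable {F : Type*} [Field F] {m : ℕ}

theorem exB1 (w : Fin m ⊕ Fin m → F) (hw : w ≠ 0) : ∃ x, S0766.sB m F x w = 1 := by
  have h1 : ∃ x, S0766.sB m F x w ≠ 0 := by
    by_contra hcon
    apply hw
    apply (S0766.sB_nondeg m F).2 w
    intro x
    by_contra hne
    exact hcon ⟨x, hne⟩
  obtain ⟨x, hx⟩ := h1
  refine ⟨(S0766.sB m F x w)⁻¹ • x, ?_⟩
  rw [map_smul, LinearMap.smul_apply, smul_eq_mul, inv_mul_cancel₀ hx]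

theorem two_fun (p q : Fin m ⊕ Fin m → F) (hp : p ≠ 0) (hq : q ≠ 0) :
    ∃ y, S0766.sB m F p y ≠ 0 ∧ S0766.sB m F q y ≠ 0 := by
  have h1 : ∀ w : Fin m ⊕ Fin m → F, w ≠ 0 → ∃ y, S0766.sB m F w y ≠ 0 := by
    intro w hw
    by_contra hcon
    apply hw
    apply (S0766.sB_nondeg m F).1 w
    intro y
    by_contra hne
    exact hcon ⟨y, hne⟩
  obtain ⟨y₁, h1p⟩ := h1 p hp
  obtain ⟨y₂, h2q⟩ := h1 q hq
  by_cases h3 : S0766.sB m F q y₁ = 0
  · by_cases h4 : S0766.sB m F p y₂ = 0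
    · refine ⟨y₁ + y₂, ?_, ?_⟩
      · rw [map_add, h4, add_zero]
        exact h1p
      · rw [map_add, h3, zero_add]
        exact h2q
    · exact ⟨y₂, h4, h2q⟩
  · exact ⟨y₁, h1p, h3⟩

/-- A non-singular vector orthogonal to two given vectors. -/
theorem quad_L1 (hm : 3 ≤ m) (Q : (Fin m ⊕ Fin m → F) → F)
    (hpol : ∀ u v, Q (u + v) = Q u + Q v + S0766.sB m F u v)
    (p q : Fin m ⊕ Fin m → F) :
    ∃ u, S0766.sB m F u p = 0 ∧ S0766.sB m F u q = 0 ∧ Q u ≠ 0 := by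
  have hnd := S0766.sB_nondeg m F
  by_contra hcon
  have hcon' : ∀ u, S0766.sB m F u p = 0 → S0766.sB m F u q = 0 → Q u = 0 := by
    intro u h1 h2
    by_contra h3
    exact hcon ⟨u, h1, h2, h3⟩
  obtain ⟨U, hU⟩ : ∃ U : Submodule F (Fin m ⊕ Fin m → F),
      U = (S0766.sB m F).orthogonal (Submodule.span F (Set.range ![p, q])) := ⟨_, rfl⟩
  have hmemU : ∀ u ∈ U, S0766.sB m F u p = 0 ∧ S0766.sB m F u q = 0 := by
    intro u hu
    rw [hU, LinearMap.BilinForm.mem_orthogonal_iff] at hu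
    constructor
    · rw [sB_skew, hu p (Submodule.subset_span ⟨0, rfl⟩), neg_zero]
    · rw [sB_skew, hu q (Submodule.subset_span ⟨1, rfl⟩), neg_zero]
  have hiso : U ≤ (S0766.sB m F).orthogonal U := by
    intro v hv
    rw [LinearMap.BilinForm.mem_orthogonal_iff]
    intro u hu
    have h1 := hpol u v
    have hu' := hmemU u hu
    have hv' := hmemU v hv
    have huv := hmemU (u + v) (U.add_mem hu hv)
    rw [hcon' _ huv.1 huv.2, hcon' _ hu'.1 hu'.2, hcon' _ hv'.1 hv'.2, zero_add, zero_add] at h1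
    exact h1.symm
  have h5 := Submodule.finrank_mono hiso
  have h6 := LinearMap.BilinForm.finrank_orthogonal hnd U
  have h7 : Module.finrank F U = Module.finrank F (Fin m ⊕ Fin m → F) -
      Module.finrank F (Submodule.span F (Set.range ![p, q])) := by
    rw [hU]
    exact LinearMap.BilinForm.finrank_orthogonal hnd _
  have h8 : Module.finrank F (Submodule.span F (Set.range ![p, q])) ≤ 2 :=
    (finrank_range_le_card (R := F) ![p, q]).trans (by simp)
  have h9 := finrank_space (F := F) (m := m)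
  omega

theorem tv_zero (w : Fin m ⊕ Fin m → F) : tv m w 0 = 1 := by
  apply Units.ext
  rw [tv_val]
  unfold Cfsg.sympTransvection
  rw [zero_smul, add_zero]
  rfl

/-- **Key lemma**: `O(Q)` is maximal in `Sp` in characteristic two. -/
theorem sp_le_of_quad [Fintype F] (hm : 3 ≤ m) (h2F : ringChar F = 2)
    (Q : (Fin m ⊕ Fin m → F) → F)
    (hsmul : ∀ (c : F) (v : Fin m ⊕ Fin m → F), Q (c • v) = c ^ 2 * Q v)
    (hpol : ∀ u v, Q (u + v) = Q u + Q v + S0766.sB m F u v)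
    (K : Subgroup (Matrix.GeneralLinearGroup (Fin m ⊕ Fin m) F))
    (hK : Cfsg.Geo.quadSimilarityGroup Q ⊓ Cfsg.spGL m F ≤ K) (hK2 : K ≤ Cfsg.spGL m F)
    (hex : ∃ g ∈ K, g ∉ Cfsg.Geo.quadSimilarityGroup Q) : Cfsg.spGL m F ≤ K := by
  haveI : CharP F 2 := ringChar.of_eq h2F
  have two0 : (2 : F) = 0 := CharTwo.two_eq_zero
  have vadd : ∀ v : Fin m ⊕ Fin m → F, v + v = 0 := fun v => by
    rw [← two_smul F v, two0, zero_smul]
  have skew : ∀ a b : Fin m ⊕ Fin m → F, S0766.sB m F a b = S0766.sB m F b a := fun a b => by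
    rw [sB_skew a b, CharTwo.neg_eq]
  have halt : ∀ a : Fin m ⊕ Fin m → F, S0766.sB m F a a = 0 :=
    (S0766.sB_alt m F).self_eq_zero
  have Q1 : ∀ (x w : Fin m ⊕ Fin m → F) (a : F),
      Q (x + a • w) = Q x + a ^ 2 * Q w + a * S0766.sB m F x w := by
    intro x w a
    rw [hpol, hsmul, map_smul, smul_eq_mul]
  have Q2 : ∀ (w : Fin m ⊕ Fin m → F) (c : F) (x : Fin m ⊕ Fin m → F),
      Q (((tv m w c : Matrix.GeneralLinearGroup (Fin m ⊕ Fin m) F) :
        Matrix (Fin m ⊕ Fin m) (Fin m ⊕ Fin m) F) *ᵥ x)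
        = Q x + c * S0766.sB m F x w ^ 2 * (c * Q w + 1) := by
    intro w c x
    rw [tv_mulVec, Q1]
    ring
  have Q0 : Q 0 = 0 := by
    have h := hsmul 0 0
    rw [zero_smul] at h
    rw [h]
    ring
  have hrefl : ∀ u, Q u ≠ 0 → tv m u (Q u)⁻¹ ∈ K := by
    intro u hu
    apply hK
    refine Subgroup.mem_inf.2 ⟨?_, tv_mem u _⟩
    show ∃ c : Fˣ, ∀ v, Q (((tv m u (Q u)⁻¹ : Matrix.GeneralLinearGroup (Fin m ⊕ Fin m) F) :
        Matrix (Fin m ⊕ Fin m) (Fin m ⊕ Fin m) F) *ᵥ v) = (c : F) * Q v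
    refine ⟨1, fun v => ?_⟩
    rw [Q2, inv_mul_cancel₀ hu, Units.val_one, one_mul]
    linear_combination ((Q u)⁻¹ * S0766.sB m F v u ^ 2) * two0
  have hadd : ∀ (w : Fin m ⊕ Fin m → F) (c d : F), tv m w c ∈ K → tv m w d ∈ K →
      tv m w (c + d) ∈ K := by
    intro w c d h1 h2
    have e : tv m w c * tv m w d = tv m w (c + d) := by
      apply Units.ext
      rw [Units.val_mul, tv_val, tv_val, tv_val]
      exact (S0767.result m w).1 c d
    rw [← e]
    exact K.mul_mem h1 h2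
  have hconj : ∀ k ∈ K, ∀ (w : Fin m ⊕ Fin m → F) (c : F), tv m w c ∈ K →
      tv m ((k : Matrix (Fin m ⊕ Fin m) (Fin m ⊕ Fin m) F) *ᵥ w) c ∈ K := by
    intro k hk w c h
    rw [tv_conj k (hK2 hk)]
    exact K.mul_mem (K.mul_mem hk h) (K.inv_mem hk)
  -- Step 1
  have step1 : ∃ (w₀ : Fin m ⊕ Fin m → F) (c₀ : F), w₀ ≠ 0 ∧ tv m w₀ c₀ ∈ K ∧ c₀ ≠ 0 ∧
      c₀ * Q w₀ ≠ 1 := by
    obtain ⟨g, hgK, hg⟩ := hex
    have hv : ∃ v, Q ((g : Matrix (Fin m ⊕ Fin m) (Fin m ⊕ Fin m) F) *ᵥ v) ≠ Q v := by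
      by_contra hcon
      apply hg
      show ∃ c : Fˣ, ∀ v, Q ((g : Matrix (Fin m ⊕ Fin m) (Fin m ⊕ Fin m) F) *ᵥ v) = (c : F) * Q v
      refine ⟨1, fun v => ?_⟩
      rw [Units.val_one, one_mul]
      by_contra hne
      exact hcon ⟨v, hne⟩
    obtain ⟨v, hv⟩ := hv
    by_cases hQv : Q v = 0
    · have hQw : Q ((g : Matrix (Fin m ⊕ Fin m) (Fin m ⊕ Fin m) F) *ᵥ v) ≠ 0 := by
        rw [hQv] at hv
        exact hv
      have h1 := hconj g⁻¹ (K.inv_mem hgK) _ _ (hrefl _ hQw)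
      rw [Parab.inv_mulVec_mulVec] at h1
      refine ⟨v, _, ?_, h1, inv_ne_zero hQw, ?_⟩
      · intro h0
        apply hQw
        rw [h0, Matrix.mulVec_zero, Q0]
      · rw [hQv, mul_zero]
        exact zero_ne_one
    · refine ⟨(g : Matrix (Fin m ⊕ Fin m) (Fin m ⊕ Fin m) F) *ᵥ v, (Q v)⁻¹, ?_,
        hconj g hgK _ _ (hrefl v hQv), inv_ne_zero hQv, ?_⟩
      · intro h0
        have h3 : v = 0 := Parab.gl_mulVec_inj g (by rw [h0, Matrix.mulVec_zero])
        exact hQv (by rw [h3, Q0])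
      · intro h1
        apply hv
        calc Q ((g : Matrix (Fin m ⊕ Fin m) (Fin m ⊕ Fin m) F) *ᵥ v)
            = Q v * ((Q v)⁻¹ * Q ((g : Matrix (Fin m ⊕ Fin m) (Fin m ⊕ Fin m) F) *ᵥ v)) := by
              rw [← mul_assoc, mul_inv_cancel₀ hQv, one_mul]
          _ = Q v := by rw [h1, mul_one]
  -- Step 2
  have step2 : ∃ (w₁ : Fin m ⊕ Fin m → F) (c₁ : F), w₁ ≠ 0 ∧ Q w₁ = 0 ∧ tv m w₁ c₁ ∈ K ∧
      c₁ ≠ 0 := by
    obtain ⟨w₀, c₀, hw₀, hS, hc₀, hne⟩ := step1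
    by_cases hQ0 : Q w₀ = 0
    · exact ⟨w₀, c₀, hw₀, hQ0, hS, hc₀⟩
    · have he := hadd _ _ _ hS (hrefl w₀ hQ0)
      obtain ⟨e₀, he₀⟩ : ∃ e₀ : F, e₀ = c₀ + (Q w₀)⁻¹ := ⟨_, rfl⟩
      rw [← he₀] at he
      have hθ : e₀ * Q w₀ + 1 = c₀ * Q w₀ := by
        rw [he₀, add_mul, inv_mul_cancel₀ hQ0]
        linear_combination two0
      have he₀0 : e₀ ≠ 0 := by
        intro h0
        rw [h0, zero_mul, zero_add] at hθ
        exact hne hθ.symm
      have hκ : e₀ * (e₀ * Q w₀ + 1) ≠ 0 := by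
        rw [hθ]
        exact mul_ne_zero he₀0 (mul_ne_zero hc₀ hQ0)
      obtain ⟨x₀, hx₀⟩ := exB1 w₀ hw₀
      obtain ⟨u, hu1, hu2, hQu⟩ := quad_L1 hm Q hpol w₀ x₀
      obtain ⟨b, hb⟩ := FiniteField.isSquare_of_char_two h2F
        ((e₀ * (e₀ * Q w₀ + 1) + Q x₀) / Q u)
      have hBw : S0766.sB m F (x₀ + b • u) w₀ = 1 := by
        rw [map_add, LinearMap.add_apply, map_smul, LinearMap.smul_apply, hx₀, hu1, smul_zero,
          add_zero]
      have hQw : Q (x₀ + b • u) = e₀ * (e₀ * Q w₀ + 1) := by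
        rw [Q1, skew x₀ u, hu2, mul_zero, add_zero, pow_two, ← hb, div_mul_cancel₀ _ hQu]
        linear_combination (Q x₀) * two0
      have hw_ne : Q (x₀ + b • u) ≠ 0 := by
        rw [hQw]
        exact hκ
      refine ⟨((tv m w₀ e₀ : Matrix.GeneralLinearGroup (Fin m ⊕ Fin m) F) :
        Matrix (Fin m ⊕ Fin m) (Fin m ⊕ Fin m) F) *ᵥ (x₀ + b • u), (Q (x₀ + b • u))⁻¹, ?_, ?_,
        hconj _ he _ _ (hrefl _ hw_ne), inv_ne_zero hw_ne⟩
      · intro h0
        have h3 : x₀ + b • u = 0 := Parab.gl_mulVec_inj _ (by rw [h0, Matrix.mulVec_zero])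
        rw [h3, Q0] at hw_ne
        exact hw_ne rfl
      · rw [Q2, hBw, hQw]
        linear_combination (e₀ * (e₀ * Q w₀ + 1)) * two0
  -- Step 3
  have step3 : ∃ w₁ : Fin m ⊕ Fin m → F, w₁ ≠ 0 ∧ Q w₁ = 0 ∧ w₁ ∈ TK K := by
    obtain ⟨w₁, c₁, hw₁, hQw₁, hS, hc₁⟩ := step2
    refine ⟨w₁, hw₁, hQw₁, ?_⟩
    obtain ⟨x₀, hx₀⟩ := exB1 w₁ hw₁
    obtain ⟨x, hx⟩ : ∃ x : Fin m ⊕ Fin m → F, x = x₀ + Q x₀ • w₁ := ⟨_, rfl⟩
    have hBx : S0766.sB m F x w₁ = 1 := by
      rw [hx, map_add, LinearMap.add_apply, map_smul, LinearMap.smul_apply, hx₀, halt, smul_zero,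
        add_zero]
    have hQx : Q x = 0 := by
      rw [hx, Q1, hQw₁, hx₀]
      linear_combination (Q x₀) * two0
    have hscale : ∀ b : F, b ≠ 0 → tv m (b • w₁) c₁ ∈ K := by
      intro b hb
      have hQ1 : Q (w₁ + b • x) = b := by
        rw [Q1, hQw₁, hQx, skew w₁ x, hBx]
        ring
      have hQ2 : Q (w₁ + x) = 1 := by
        have h := Q1 w₁ x 1
        rw [one_smul] at h
        rw [h, hQw₁, hQx, skew w₁ x, hBx]
        ring
      have h1 : ((tv m (w₁ + b • x) b⁻¹ : Matrix.GeneralLinearGroup (Fin m ⊕ Fin m) F) :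
          Matrix (Fin m ⊕ Fin m) (Fin m ⊕ Fin m) F) *ᵥ w₁ = b • x := by
        rw [tv_mulVec]
        have h3 : S0766.sB m F w₁ (w₁ + b • x) = b := by
          rw [map_add, map_smul, halt, skew w₁ x, hBx, smul_eq_mul, mul_one, zero_add]
        rw [h3, inv_mul_cancel₀ hb, one_smul, ← add_assoc, vadd w₁, zero_add]
      have h2 : ((tv m (w₁ + x) 1 : Matrix.GeneralLinearGroup (Fin m ⊕ Fin m) F) :
          Matrix (Fin m ⊕ Fin m) (Fin m ⊕ Fin m) F) *ᵥ (b • x) = b • w₁ := by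
        rw [tv_mulVec]
        have h3 : S0766.sB m F (b • x) (w₁ + x) = b := by
          rw [map_smul, LinearMap.smul_apply, map_add, hBx, halt, add_zero, smul_eq_mul, mul_one]
        rw [h3, one_mul, smul_add, add_comm (b • w₁) (b • x), ← add_assoc, vadd (b • x), zero_add]
      have hk1 : tv m (w₁ + b • x) b⁻¹ ∈ K := by
        have h := hrefl (w₁ + b • x) (by rw [hQ1]; exact hb)
        rw [hQ1] at h
        exact h
      have hk2 : tv m (w₁ + x) 1 ∈ K := by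
        have h := hrefl (w₁ + x) (by rw [hQ2]; exact one_ne_zero)
        rw [hQ2, inv_one] at h
        exact h
      have h3 := hconj _ hk2 _ _ (hconj _ hk1 _ _ hS)
      rw [h1, h2] at h3
      exact h3
    rw [mem_TK]
    intro c
    by_cases hc : c = 0
    · rw [hc, tv_zero]
      exact K.one_mem
    · obtain ⟨b, hb⟩ := FiniteField.isSquare_of_char_two h2F (c / c₁)
      have hb0 : b ≠ 0 := by
        intro h0
        rw [h0, mul_zero] at hb
        exact (div_ne_zero hc hc₁) hb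
      have h4 := hscale b hb0
      have e : c₁ * b * b = c := by
        rw [mul_assoc, ← hb]
        field_simp
      rw [tv_smul, e] at h4
      exact h4
  -- Step 4
  obtain ⟨w₁, hw₁, hQw₁, hT⟩ := step3
  have P : ∀ y ∈ TK K, ∀ t ∈ TK K, S0766.sB m F y t ≠ 0 → ∀ b : F, y + b • t ∈ TK K := by
    intro y hy t ht hne b
    have h := TK_transv K y hy t ht (b / S0766.sB m F y t)
    rw [div_mul_cancel₀ b hne] at h
    exact h
  have Tsm : ∀ y ∈ TK K, ∀ a : F, a • y ∈ TK K := by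
    intro y hy a
    rw [mem_TK]
    intro c
    rw [tv_smul]
    exact hy _
  have hα : ∀ u, Q u ≠ 0 → S0766.sB m F w₁ u ≠ 0 → u ∈ TK K := by
    intro u hQu hB
    have h1 : ((tv m u (Q u)⁻¹ : Matrix.GeneralLinearGroup (Fin m ⊕ Fin m) F) :
        Matrix (Fin m ⊕ Fin m) (Fin m ⊕ Fin m) F) *ᵥ w₁ ∈ TK K :=
      TK_smul_mem K _ (hrefl u hQu) (tv_mem _ _) w₁ hT
    rw [tv_mulVec] at h1
    have ha : (Q u)⁻¹ * S0766.sB m F w₁ u ≠ 0 := mul_ne_zero (inv_ne_zero hQu) hB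
    have h2 : S0766.sB m F (w₁ + ((Q u)⁻¹ * S0766.sB m F w₁ u) • u) w₁ ≠ 0 := by
      have e : S0766.sB m F (w₁ + ((Q u)⁻¹ * S0766.sB m F w₁ u) • u) w₁
          = ((Q u)⁻¹ * S0766.sB m F w₁ u) * S0766.sB m F w₁ u := by
        rw [LinearMap.map_add₂, LinearMap.map_smul₂, halt, zero_add, skew u w₁, smul_eq_mul]
      rw [e]
      exact mul_ne_zero ha hB
    have h3 := P _ h1 _ hT h2 (-1)
    have e : w₁ + ((Q u)⁻¹ * S0766.sB m F w₁ u) • u + (-1 : F) • w₁
        = ((Q u)⁻¹ * S0766.sB m F w₁ u) • u := by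
      rw [neg_one_smul]
      abel
    rw [e] at h3
    have h4 := Tsm _ h3 ((Q u)⁻¹ * S0766.sB m F w₁ u)⁻¹
    rw [smul_smul, inv_mul_cancel₀ ha, one_smul] at h4
    exact h4
  have hαβ : ∀ z, S0766.sB m F w₁ z ≠ 0 → z ∈ TK K := by
    intro z hB
    by_cases hQz : Q z = 0
    · have hu : z + w₁ ∈ TK K := by
        apply hα
        · have h := Q1 z w₁ 1
          rw [one_smul] at h
          rw [h, hQz, hQw₁, skew z w₁]
          intro h0
          apply hB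
          linear_combination h0
        · rw [map_add, halt, add_zero]
          exact hB
      have h2 : S0766.sB m F (z + w₁) w₁ ≠ 0 := by
        rw [LinearMap.map_add₂, halt, add_zero, skew z w₁]
        exact hB
      have h3 := P _ hu _ hT h2 (-1)
      have e : z + w₁ + (-1 : F) • w₁ = z := by
        rw [neg_one_smul]
        abel
      rw [e] at h3
      exact h3
    · exact hα z hQz hB
  apply sp_le_of_TK K
  intro z
  by_cases hz0 : z = 0
  · have h := Tsm w₁ hT 0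
    rw [zero_smul] at h
    rw [hz0]
    exact h
  by_cases hB : S0766.sB m F w₁ z = 0
  · obtain ⟨y, hy1, hy2⟩ := two_fun w₁ z hw₁ hz0
    have hyT := hαβ y hy1
    have hzy : z + y ∈ TK K := hαβ _ (by
      rw [map_add, hB, zero_add]
      exact hy1)
    have h2 : S0766.sB m F (z + y) y ≠ 0 := by
      rw [LinearMap.map_add₂, halt, add_zero]
      exact hy2
    have h3 := P _ hzy _ hyT h2 (-1)
    have e : z + y + (-1 : F) • y = z := by
      rw [neg_one_smul]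
      abel
    rw [e] at h3
    exact h3
  · exact hαβ z hB

/-- Some element of `Sp` is not a similarity of `Q`. -/
theorem exists_sp_not_quad [Fintype F] (hm : 3 ≤ m) (h2F : ringChar F = 2)
    (Q : (Fin m ⊕ Fin m → F) → F)
    (hsmul : ∀ (c : F) (v : Fin m ⊕ Fin m → F), Q (c • v) = c ^ 2 * Q v)
    (hpol : ∀ u v, Q (u + v) = Q u + Q v + S0766.sB m F u v) :
    ∃ g ∈ Cfsg.spGL m F, g ∉ Cfsg.Geo.quadSimilarityGroup Q := by
  haveI : CharP F 2 := ringChar.of_eq h2F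
  have two0 : (2 : F) = 0 := CharTwo.two_eq_zero
  have skew : ∀ a b : Fin m ⊕ Fin m → F, S0766.sB m F a b = S0766.sB m F b a := fun a b => by
    rw [sB_skew a b, CharTwo.neg_eq]
  have halt : ∀ a : Fin m ⊕ Fin m → F, S0766.sB m F a a = 0 :=
    (S0766.sB_alt m F).self_eq_zero
  have Q1 : ∀ (x w : Fin m ⊕ Fin m → F) (a : F),
      Q (x + a • w) = Q x + a ^ 2 * Q w + a * S0766.sB m F x w := by
    intro x w a
    rw [hpol, hsmul, map_smul, smul_eq_mul]
  have Q0 : Q 0 = 0 := by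
    have h := hsmul 0 0
    rw [zero_smul] at h
    rw [h]
    ring
  have hu0 : (Pi.single (Sum.inl ⟨0, by omega⟩) 1 : Fin m ⊕ Fin m → F) ≠ 0 := by
    intro h
    have h1 := congrFun h (Sum.inl ⟨0, by omega⟩)
    rw [Pi.single_eq_same] at h1
    exact one_ne_zero h1
  obtain ⟨u, hu⟩ : ∃ u : Fin m ⊕ Fin m → F, u ≠ 0 := ⟨_, hu0⟩
  obtain ⟨x, hx⟩ := exB1 u hu
  obtain ⟨u', h1, h2, h3⟩ := quad_L1 hm Q hpol u x
  have hv : ∃ v, v ≠ 0 ∧ Q v ≠ 1 := by
    by_cases hQu : Q u = 1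
    · by_cases hQu' : Q u' = 1
      · refine ⟨u + u', ?_, ?_⟩
        · intro h0
          have h4 : S0766.sB m F (u + u') x = 1 := by
            rw [LinearMap.map_add₂, h2, add_zero, skew u x, hx]
          rw [h0, LinearMap.map_zero₂] at h4
          exact zero_ne_one h4
        · rw [hpol, hQu, hQu', skew u u', h1]
          intro h
          have h5 : (1 : F) = 0 := by linear_combination h
          exact one_ne_zero h5
      · exact ⟨u', fun h0 => h3 (by rw [h0]; exact Q0), hQu'⟩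
    · exact ⟨u, hu, hQu⟩
  obtain ⟨v, hv0, hQv⟩ := hv
  refine ⟨tv m v 1, tv_mem v 1, ?_⟩
  intro hmem
  obtain ⟨c, hc⟩ : ∃ c : Fˣ, ∀ z, Q (((tv m v 1 : Matrix.GeneralLinearGroup (Fin m ⊕ Fin m) F) :
      Matrix (Fin m ⊕ Fin m) (Fin m ⊕ Fin m) F) *ᵥ z) = (c : F) * Q z := hmem
  obtain ⟨y, hy⟩ := exB1 v hv0
  have hτ : ∀ z, Q (((tv m v 1 : Matrix.GeneralLinearGroup (Fin m ⊕ Fin m) F) :
      Matrix (Fin m ⊕ Fin m) (Fin m ⊕ Fin m) F) *ᵥ z)
      = Q z + S0766.sB m F z v ^ 2 * (Q v + 1) := by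
    intro z
    rw [tv_mulVec, one_mul, Q1]
    ring
  have e1 := hc v
  have e2 := hc y
  have e3 := hc (y + v)
  rw [hτ] at e1 e2 e3
  rw [halt v] at e1
  rw [hy] at e2
  have hB3 : S0766.sB m F (y + v) v = 1 := by
    rw [LinearMap.map_add₂, hy, halt, add_zero]
  rw [hB3, hpol y v, hy] at e3
  have hc1 : (c : F) = 1 := by linear_combination e2 + e1 - e3
  apply hQv
  rw [hc1] at e2
  linear_combination e2 - two0

end SpParab

end Cfsg.Agent.Helper2
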