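import Mathlib
import Cfsg.Agent.S2616

set_option autoImplicit false

namespace Cfsg.Agent.Helper2.SymDisc

open Module

/-- determinant of an anti-block matrix -/
theorem det_anti {R : Type*} [CommRing R] (m : ℕ) (C D : Matrix (Fin m) (Fin m) R) :
    (Matrix.fromBlocks 0 C C.transpose D).det = (-1) ^ m * (C.det * C.det) := by
  have h1 : Matrix.fromBlocks (0 : Matrix (Fin m) (Fin m) R) C C.transpose D
      = Matrix.fromBlocks 1 1 0 1 * Matrix.fromBlocks (-1) 0 1 1 * Matrix.fromBlocks 1 (-1) 0 1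
          * Matrix.fromBlocks C.transpose D 0 C := by
    simp [Matrix.fromBlocks_multiply]
  rw [h1]
  simp only [Matrix.det_mul, Matrix.det_fromBlocks_zero₂₁, Matrix.det_fromBlocks_zero₁₂,
    Matrix.det_neg, Matrix.det_one, Matrix.det_transpose, Fintype.card_fin]
  ring

theorem det_anti_one {R : Type*} [CommRing R] (n : ℕ) :
    (Matrix.fromBlocks (0 : Matrix (Fin n) (Fin n) R) (1 : Matrix (Fin n) (Fin n) R)
      (1 : Matrix (Fin n) (Fin n) R) (0 : Matrix (Fin n) (Fin n) R)).det = (-1) ^ n := by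
  have h := det_anti n (1 : Matrix (Fin n) (Fin n) R) 0
  rw [Matrix.transpose_one, Matrix.det_one] at h
  rw [h]; ring

theorem neg_one_pow_pred {R : Type*} [CommRing R] (m : ℕ) (hm : 1 ≤ m) :
    (-1 : R) ^ m = -(-1) ^ (m - 1) := by
  cases m with
  | zero => omega
  | succ n => simp [pow_succ]

/-- The square class of `x * det(Gram)` does not depend on the basis. -/
theorem sq_transfer {F V : Type*} [Field F] [AddCommGroup V] [Module F V]
    (B : LinearMap.BilinForm F V) {ι κ : Type*} [Fintype ι] [DecidableEq ι] [Fintype κ]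
    [DecidableEq κ] (b : Basis ι F V) (c : Basis κ F V) (x : F)
    (h : IsSquare (x * (LinearMap.BilinForm.toMatrix c B).det)) :
    IsSquare (x * (LinearMap.BilinForm.toMatrix b B).det) := by
  let e : κ ≃ ι := c.indexEquiv b
  let c' : Basis ι F V := c.reindex e
  have h1 : LinearMap.BilinForm.toMatrix c' B
      = (LinearMap.BilinForm.toMatrix c B).submatrix e.symm e.symm := by
    ext i j
    simp [LinearMap.BilinForm.toMatrix_apply, c']
  have h2 : (LinearMap.BilinForm.toMatrix c' B).det = (LinearMap.BilinForm.toMatrix c B).det := by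
    rw [h1, Matrix.det_submatrix_equiv_self]
  have h3 := LinearMap.BilinForm.toMatrix_mul_basis_toMatrix c' b B
  obtain ⟨s, hs⟩ := h
  refine ⟨(c'.toMatrix b).det * s, ?_⟩
  rw [← h3, Matrix.det_mul, Matrix.det_mul, Matrix.det_transpose, h2]
  linear_combination ((c'.toMatrix b).det) ^ 2 * hs

/-- (A): a totally isotropic subspace of half dimension forces `(-1)^m * disc` to be a square. -/
theorem sq_of_ti {F V : Type*} [Field F] [AddCommGroup V] [Module F V] [FiniteDimensional F V]
    (B : LinearMap.BilinForm F V) (hS : B.IsSymm) (m : ℕ) (hV : Module.finrank F V = 2 * m)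
    (X : Submodule F V) (hX : Module.finrank F X = m) (hti : ∀ x ∈ X, ∀ y ∈ X, B x y = 0)
    {ι : Type*} [Fintype ι] [DecidableEq ι] (b : Basis ι F V) :
    IsSquare ((-1 : F) ^ m * (LinearMap.BilinForm.toMatrix b B).det) := by
  obtain ⟨Y, hY⟩ := Submodule.exists_isCompl X
  have hYdim : Module.finrank F Y = m := by
    have := Submodule.finrank_add_eq_of_isCompl hY
    omega
  let bX : Basis (Fin m) F X := Module.finBasisOfFinrankEq F X hX
  let bY : Basis (Fin m) F Y := Module.finBasisOfFinrankEq F Y hYdim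
  obtain ⟨c, hcl, hcr⟩ : ∃ c : Basis (Fin m ⊕ Fin m) F V,
      (∀ i, c (Sum.inl i) = (bX i : V)) ∧ (∀ i, c (Sum.inr i) = (bY i : V)) :=
    ⟨(bX.prod bY).map (Submodule.prodEquivOfIsCompl X Y hY), fun i => by simp, fun i => by simp⟩
  apply sq_transfer B b c
  let C : Matrix (Fin m) (Fin m) F := Matrix.of fun i j => B (bX i : V) (bY j : V)
  let D : Matrix (Fin m) (Fin m) F := Matrix.of fun i j => B (bY i : V) (bY j : V)
  have hG : LinearMap.BilinForm.toMatrix c B = Matrix.fromBlocks 0 C C.transpose D := by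
    ext i j
    rw [LinearMap.BilinForm.toMatrix_apply]
    rcases i with i | i <;> rcases j with j | j
    · rw [hcl, hcl, Matrix.fromBlocks_apply₁₁]; exact hti _ (bX i).2 _ (bX j).2
    · rw [hcl, hcr, Matrix.fromBlocks_apply₁₂]; rfl
    · rw [hcr, hcl, Matrix.fromBlocks_apply₂₁]; exact hS.eq _ _
    · rw [hcr, hcr, Matrix.fromBlocks_apply₂₂]; rfl
  rw [hG, det_anti]
  have h1 : (-1 : F) ^ m * (-1) ^ m = 1 := by rw [← mul_pow]; norm_num
  exact ⟨C.det, by rw [← mul_assoc, h1, one_mul]⟩

/-- (B): no totally isotropic subspace of half dimension forces `(-1)^m * disc` to be a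
non-square (finite field, odd characteristic). -/
theorem not_sq_of_no_ti {F V : Type*} [Field F] [Fintype F] [AddCommGroup V] [Module F V]
    [FiniteDimensional F V] (h2 : (2 : F) ≠ 0) (B : LinearMap.BilinForm F V) (hS : B.IsSymm)
    (hB : B.Nondegenerate) (m : ℕ) (hm : 1 ≤ m) (hV : Module.finrank F V = 2 * m)
    (hno : ¬ ∃ X : Submodule F V, Module.finrank F X = m ∧ ∀ x ∈ X, ∀ y ∈ X, B x y = 0)
    {ι : Type*} [Fintype ι] [DecidableEq ι] (b : Basis ι F V) :
    ¬ IsSquare ((-1 : F) ^ m * (LinearMap.BilinForm.toMatrix b B).det) := by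
  intro hsq
  let Q : QuadraticForm F V := LinearMap.BilinMap.toQuadraticMap ((2⁻¹ : F) • B)
  have hu : (2 : F) * 2⁻¹ = 1 := mul_inv_cancel₀ h2
  have hQz : ∀ z, Q z = 2⁻¹ * B z z := fun z => by simp [Q]
  have hpol : ∀ x y, QuadraticMap.polar ⇑Q x y = B x y := by
    intro x y
    show Q (x + y) - Q x - Q y = B x y
    rw [hQz, hQz, hQz, map_add, map_add, LinearMap.add_apply, LinearMap.add_apply, hS.eq y x]
    linear_combination (B x y) * hu
  have hself : ∀ x, QuadraticMap.polar ⇑Q x x = 2 * Q x := by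
    intro x
    rw [hpol, hQz, ← mul_assoc, hu, one_mul]
  have hQB : QuadraticMap.polarBilin Q = B :=
    LinearMap.ext fun x => LinearMap.ext fun y => hpol x y
  have hQ : (QuadraticMap.polarBilin Q).Nondegenerate := by rw [hQB]; exact hB
  rcases Cfsg.Agent.S2616.result hm hV Q hQ with ⟨c, h3, h4, h5⟩ | ⟨c, ζ, hζ, h3, h4, h5, h6, h7, h8, h9⟩
  · -- hyperbolic: a totally isotropic subspace
    let X : Submodule F V := Submodule.span F (Set.range (⇑c ∘ Sum.inl))
    have hX1 : ∀ j : Fin m, ∀ x ∈ X, B x (c (Sum.inl j)) = 0 := by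
      intro j x hx
      have hle : X ≤ LinearMap.ker (LinearMap.flip B (c (Sum.inl j))) := by
        show Submodule.span F (Set.range (⇑c ∘ Sum.inl)) ≤ _
        rw [Submodule.span_le]
        rintro _ ⟨i, rfl⟩
        rw [SetLike.mem_coe, LinearMap.mem_ker, LinearMap.flip_apply, ← hpol]
        exact (h5 i j).1
      have h := LinearMap.mem_ker.1 (hle hx)
      rwa [LinearMap.flip_apply] at h
    refine hno ⟨X, ?_, ?_⟩
    · show Module.finrank F (Submodule.span F (Set.range (⇑c ∘ Sum.inl))) = m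
      rw [finrank_span_eq_card (c.linearIndependent.comp Sum.inl Sum.inl_injective),
        Fintype.card_fin]
    · intro x hx y hy
      have hle : X ≤ LinearMap.ker (B x) := by
        show Submodule.span F (Set.range (⇑c ∘ Sum.inl)) ≤ _
        rw [Submodule.span_le]
        rintro _ ⟨j, rfl⟩
        rw [SetLike.mem_coe, LinearMap.mem_ker]
        exact hX1 j x hx
      exact LinearMap.mem_ker.1 (hle hy)
  · -- elliptic: compute the discriminant
    have hsq' := sq_transfer B c b _ hsq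
    have hzz : ∀ i j : Fin 2, QuadraticMap.polar ⇑Q (c (Sum.inr i)) (c (Sum.inr j))
        = (!![2, 1; 1, 2 * ζ] : Matrix (Fin 2) (Fin 2) F) i j := by
      refine Fin.forall_fin_two.2 ⟨Fin.forall_fin_two.2 ⟨?_, ?_⟩, Fin.forall_fin_two.2 ⟨?_, ?_⟩⟩
      · show QuadraticMap.polar ⇑Q (c (Sum.inr 0)) (c (Sum.inr 0)) = 2
        rw [hself, h7, mul_one]
      · show QuadraticMap.polar ⇑Q (c (Sum.inr 0)) (c (Sum.inr 1)) = 1
        exact h8
      · show QuadraticMap.polar ⇑Q (c (Sum.inr 1)) (c (Sum.inr 0)) = 1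
        rw [QuadraticMap.polar_comm]; exact h8
      · show QuadraticMap.polar ⇑Q (c (Sum.inr 1)) (c (Sum.inr 1)) = 2 * ζ
        rw [hself, h9]
    have hG : LinearMap.BilinForm.toMatrix c B =
        Matrix.fromBlocks (Matrix.fromBlocks (0 : Matrix (Fin (m - 1)) (Fin (m - 1)) F)
          (1 : Matrix (Fin (m - 1)) (Fin (m - 1)) F) (1 : Matrix (Fin (m - 1)) (Fin (m - 1)) F)
          (0 : Matrix (Fin (m - 1)) (Fin (m - 1)) F)) 0 0
          (!![2, 1; 1, 2 * ζ]) := by
      ext i j
      rw [LinearMap.BilinForm.toMatrix_apply, ← hpol]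
      rcases i with (i | i) | i <;> rcases j with (j | j) | j
      · exact (h5 i j).1
      · show QuadraticMap.polar ⇑Q (c (Sum.inl (Sum.inl i))) (c (Sum.inl (Sum.inr j)))
          = (1 : Matrix (Fin (m - 1)) (Fin (m - 1)) F) i j
        rw [h4 i j, Matrix.one_apply]
      · exact (h6 i j).1
      · show QuadraticMap.polar ⇑Q (c (Sum.inl (Sum.inr i))) (c (Sum.inl (Sum.inl j)))
          = (1 : Matrix (Fin (m - 1)) (Fin (m - 1)) F) i j
        rw [QuadraticMap.polar_comm, h4 j i, Matrix.one_apply]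
        rcases eq_or_ne i j with rfl | hij
        · rw [if_pos rfl]
        · rw [if_neg hij.symm, if_neg hij]
      · exact (h5 i j).2
      · exact (h6 i j).2
      · rw [QuadraticMap.polar_comm]; exact (h6 j i).1
      · rw [QuadraticMap.polar_comm]; exact (h6 j i).2
      · exact hzz i j
    rw [hG, Matrix.det_fromBlocks_zero₂₁, det_anti_one, Matrix.det_fin_two_of,
      neg_one_pow_pred m hm] at hsq'
    obtain ⟨s, hs⟩ := hsq'
    have hpp : (-1 : F) ^ (m - 1) * (-1) ^ (m - 1) = 1 := by rw [← mul_pow]; norm_num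
    generalize (-1 : F) ^ (m - 1) = p at hs hpp
    have hsq2 : 1 - 4 * ζ = s * s := by
      linear_combination hs - (1 - 4 * ζ) * hpp
    refine hζ ((s - 1) * 2⁻¹) ?_
    generalize (2 : F)⁻¹ = u at hu
    linear_combination (-(u ^ 2)) * hsq2 - ((s - 1) * u + ζ * (1 + 2 * u)) * hu

/-- Gram matrix of a tensor product of bilinear forms is the Kronecker product. -/
theorem gram_tmul {F U W : Type*} [Field F] [AddCommGroup U] [Module F U] [AddCommGroup W]
    [Module F W] (B₁ : LinearMap.BilinForm F U) (B₂ : LinearMap.BilinForm F W)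
    {ι κ : Type*} [Fintype ι] [DecidableEq ι] [Fintype κ] [DecidableEq κ]
    (b₁ : Basis ι F U) (b₂ : Basis κ F W) :
    LinearMap.BilinForm.toMatrix (b₁.tensorProduct b₂) (B₁.tmul B₂) =
      Matrix.kroneckerMap (fun x1 x2 => x1 * x2) (LinearMap.BilinForm.toMatrix b₁ B₁)
        (LinearMap.BilinForm.toMatrix b₂ B₂) := by
  ext ⟨i, j⟩ ⟨i', j'⟩
  simp [LinearMap.BilinForm.toMatrix_apply, Basis.tensorProduct_apply, mul_comm]

theorem tmul_symm {F U W : Type*} [Field F] [AddCommGroup U] [Module F U] [AddCommGroup W]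
    [Module F W] (B₁ : LinearMap.BilinForm F U) (B₂ : LinearMap.BilinForm F W)
    (hS₁ : B₁.IsSymm) (hS₂ : B₂.IsSymm) : LinearMap.BilinForm.IsSymm (B₁.tmul B₂) :=
  LinearMap.BilinForm.isSymm_iff.2 (LinearMap.IsSymm.tmul (LinearMap.BilinForm.isSymm_iff.1 hS₁)
    (LinearMap.BilinForm.isSymm_iff.1 hS₂))

end Cfsg.Agent.Helper2.SymDisc
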