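import Mathlib
import Cfsg.Prelude.Def_Classical
import Cfsg.Agent.Helper2.OrthEmbed
import Cfsg.Agent.Helper2.QuadF2

/-!
# The symmetric group of degree `4k+4` inside an orthogonal group of dimension `4k+2` over `F₂`

Even-weight vectors modulo the all-ones vector, realised as the even vectors vanishing at the
last point, with the form "half the weight mod 2"; the type is read off from the Arf criterion
of `QuadF2` on an explicit symplectic basis of interval indicators.
-/

set_option autoImplicit false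

namespace Cfsg.Agent.Helper2

namespace SymOrth

open QuadF2

/-- lift of a bit to `ZMod 4` -/
def lift4 (a : ZMod 2) : ZMod 4 := if a = 0 then 0 else 1

/-- second bit -/
def hlf (s : ZMod 4) : ZMod 2 := if s = 2 ∨ s = 3 then 1 else 0

/-- parity bit -/
def par (s : ZMod 4) : ZMod 2 := if s = 0 ∨ s = 2 then 0 else 1

/-- doubling -/
def dbl (a : ZMod 2) : ZMod 4 := if a = 0 then 0 else 2

theorem lift4_add : ∀ a b : ZMod 2, lift4 (a + b) = lift4 a + lift4 b + dbl (a * b) := by decide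

theorem par_add : ∀ s t : ZMod 4, par (s + t) = par s + par t := by decide

theorem par_lift4 : ∀ a : ZMod 2, par (lift4 a) = a := by decide

theorem dbl_add : ∀ a b : ZMod 2, dbl (a + b) = dbl a + dbl b := by decide

theorem dbl_hlf : ∀ s : ZMod 4, par s = 0 → dbl (hlf s) = s := by decide

theorem dbl_inj : ∀ a b : ZMod 2, dbl a = dbl b → a = b := by decide

theorem lift4_zero : lift4 0 = 0 := by decide

theorem lift4_one : lift4 1 = 1 := by decide

/-- the space of bit vectors on `4k+4` points -/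
abbrev W (k : ℕ) : Type := Fin (4 * k + 4) → ZMod 2

/-- weight mod 4 -/
def S (k : ℕ) (v : W k) : ZMod 4 := ∑ c, lift4 (v c)

/-- the quadratic function -/
def Qf (k : ℕ) (v : W k) : ZMod 2 := hlf (S k v)

/-- the dot product -/
def dot (k : ℕ) (u v : W k) : ZMod 2 := ∑ c, u c * v c

/-- sum of coordinates -/
def tot (k : ℕ) (v : W k) : ZMod 2 := ∑ c, v c

theorem par_S (k : ℕ) (v : W k) : par (S k v) = tot k v := by
  let P : ZMod 4 →+ ZMod 2 := AddMonoidHom.mk' par par_add
  show P (∑ c, lift4 (v c)) = ∑ c, v c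
  rw [map_sum]
  exact Finset.sum_congr rfl (fun c _ => par_lift4 (v c))

theorem S_add (k : ℕ) (u v : W k) : S k (u + v) = S k u + S k v + dbl (dot k u v) := by
  let D : ZMod 2 →+ ZMod 4 := AddMonoidHom.mk' dbl dbl_add
  show ∑ c, lift4 ((u + v) c) = ∑ c, lift4 (u c) + ∑ c, lift4 (v c) + D (∑ c, u c * v c)
  rw [map_sum, ← Finset.sum_add_distrib, ← Finset.sum_add_distrib]
  exact Finset.sum_congr rfl (fun c _ => lift4_add (u c) (v c))

theorem tot_add (k : ℕ) (u v : W k) : tot k (u + v) = tot k u + tot k v := by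
  show ∑ c, (u + v) c = ∑ c, u c + ∑ c, v c
  rw [← Finset.sum_add_distrib]
  exact Finset.sum_congr rfl (fun c _ => rfl)

theorem dot_comm (k : ℕ) (u v : W k) : dot k u v = dot k v u :=
  Finset.sum_congr rfl (fun c _ => mul_comm _ _)

theorem Qf_add (k : ℕ) (u v : W k) (hu : tot k u = 0) (hv : tot k v = 0) :
    Qf k (u + v) = Qf k u + Qf k v + dot k u v := by
  apply dbl_inj
  have h1 := dbl_hlf (S k u) (by rw [par_S, hu])
  have h2 := dbl_hlf (S k v) (by rw [par_S, hv])
  have h3 := dbl_hlf (S k (u + v)) (by rw [par_S, tot_add, hu, hv, add_zero])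
  show dbl (hlf (S k (u + v))) = dbl (hlf (S k u) + hlf (S k v) + dot k u v)
  rw [dbl_add, dbl_add, h1, h2, h3, S_add]

/-- the last point -/
def lst (k : ℕ) : Fin (4 * k + 4) := ⟨4 * k + 3, by omega⟩

/-- the permutation action twisted to keep the last coordinate zero -/
def T (k : ℕ) (σ : Equiv.Perm (Fin (4 * k + 4))) : W k →ₗ[ZMod 2] W k where
  toFun v := fun c => v (σ.symm c) + v (σ.symm (lst k))
  map_add' u v := by
    funext c
    show (u + v) (σ.symm c) + (u + v) (σ.symm (lst k))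
      = (u (σ.symm c) + u (σ.symm (lst k))) + (v (σ.symm c) + v (σ.symm (lst k)))
    simp only [Pi.add_apply]
    ring
  map_smul' a v := by
    funext c
    show (a • v) (σ.symm c) + (a • v) (σ.symm (lst k))
      = a • (v (σ.symm c) + v (σ.symm (lst k)))
    simp only [Pi.smul_apply, smul_eq_mul]
    ring

theorem T_apply (k : ℕ) (σ : Equiv.Perm (Fin (4 * k + 4))) (v : W k) (c : Fin (4 * k + 4)) :
    T k σ v c = v (σ.symm c) + v (σ.symm (lst k)) := rfl

theorem T_mul (k : ℕ) (σ τ : Equiv.Perm (Fin (4 * k + 4))) (v : W k) :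
    T k σ (T k τ v) = T k (σ * τ) v := by
  funext c
  show (v (τ.symm (σ.symm c)) + v (τ.symm (lst k)))
      + (v (τ.symm (σ.symm (lst k))) + v (τ.symm (lst k)))
    = v (τ.symm (σ.symm c)) + v (τ.symm (σ.symm (lst k)))
  linear_combination (v (τ.symm (lst k))) * two_zero

theorem T_one (k : ℕ) (v : W k) (hv : v (lst k) = 0) : T k 1 v = v := by
  funext c
  show v c + v (lst k) = v c
  rw [hv, add_zero]

theorem T_lst (k : ℕ) (σ : Equiv.Perm (Fin (4 * k + 4))) (v : W k) : T k σ v (lst k) = 0 := by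
  show v (σ.symm (lst k)) + v (σ.symm (lst k)) = 0
  linear_combination (v (σ.symm (lst k))) * two_zero

theorem cast_even2 (a : ℕ) (h : 2 ∣ a) : ((a : ℕ) : ZMod 2) = 0 :=
  (ZMod.natCast_eq_zero_iff a 2).2 h

theorem card_cast2 (k : ℕ) : ((4 * k + 4 : ℕ) : ZMod 2) = 0 :=
  cast_even2 _ ⟨2 * k + 2, by ring⟩

theorem card_cast4 (k : ℕ) : ((4 * k + 4 : ℕ) : ZMod 4) = 0 :=
  (ZMod.natCast_eq_zero_iff _ 4).2 ⟨k + 1, by ring⟩

theorem tot_T (k : ℕ) (σ : Equiv.Perm (Fin (4 * k + 4))) (v : W k) :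
    tot k (T k σ v) = tot k v := by
  show ∑ c, (v (σ.symm c) + v (σ.symm (lst k))) = ∑ c, v c
  rw [Finset.sum_add_distrib, Equiv.sum_comp σ.symm v, Finset.sum_const, Finset.card_univ,
    Fintype.card_fin, nsmul_eq_mul, card_cast2, zero_mul, add_zero]

/-- coordinate at the last point and total, as a linear map -/
def Lam (k : ℕ) : W k →ₗ[ZMod 2] ZMod 2 × ZMod 2 :=
  (LinearMap.proj (lst k)).prod (∑ c, LinearMap.proj c)

theorem Lam_apply (k : ℕ) (v : W k) : Lam k v = (v (lst k), tot k v) := by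
  show ((LinearMap.proj (lst k) : W k →ₗ[ZMod 2] ZMod 2) v,
    (∑ c, (LinearMap.proj c : W k →ₗ[ZMod 2] ZMod 2)) v) = _
  rw [LinearMap.sum_apply]
  rfl

/-- even vectors vanishing at the last point -/
def E0 (k : ℕ) : Submodule (ZMod 2) (W k) := LinearMap.ker (Lam k)

theorem mem_E0 (k : ℕ) (v : W k) : v ∈ E0 k ↔ v (lst k) = 0 ∧ tot k v = 0 := by
  rw [E0, LinearMap.mem_ker, Lam_apply, Prod.mk_eq_zero]

theorem Lam_surj (k : ℕ) : Function.Surjective (Lam k) := by
  rintro ⟨a, b⟩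
  have h0 : lst k ≠ (⟨0, by omega⟩ : Fin (4 * k + 4)) :=
    Fin.ne_of_val_ne (by show 4 * k + 3 ≠ 0; omega)
  refine ⟨Pi.single (lst k) a + Pi.single (⟨0, by omega⟩ : Fin (4 * k + 4)) (a + b), ?_⟩
  rw [Lam_apply]
  have h1 : (Pi.single (lst k) a + Pi.single (⟨0, by omega⟩ : Fin (4 * k + 4)) (a + b) : W k)
      (lst k) = a := by
    rw [Pi.add_apply, Pi.single_eq_same, Pi.single_eq_of_ne h0, add_zero]
  have h2 : tot k (Pi.single (lst k) a + Pi.single (⟨0, by omega⟩ : Fin (4 * k + 4)) (a + b))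
      = b := by
    show ∑ c, ((Pi.single (lst k) a : W k) c
      + (Pi.single (⟨0, by omega⟩ : Fin (4 * k + 4)) (a + b) : W k) c) = b
    rw [Finset.sum_add_distrib, Finset.sum_pi_single', Finset.sum_pi_single',
      if_pos (Finset.mem_univ _), if_pos (Finset.mem_univ _)]
    linear_combination a * two_zero
  rw [h1, h2]

theorem finrank_E0 (k : ℕ) : Module.finrank (ZMod 2) (E0 k) = 4 * k + 2 := by
  have h := LinearMap.finrank_range_add_finrank_ker (Lam k)
  rw [LinearMap.range_eq_top.2 (Lam_surj k), finrank_top, Module.finrank_prod,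
    Module.finrank_self, Module.finrank_fintype_fun_eq_card, Fintype.card_fin] at h
  show Module.finrank (ZMod 2) (LinearMap.ker (Lam k)) = 4 * k + 2
  omega

theorem T_mem (k : ℕ) (σ : Equiv.Perm (Fin (4 * k + 4))) : ∀ v ∈ E0 k, T k σ v ∈ E0 k := by
  intro v hv
  rw [mem_E0] at hv ⊢
  exact ⟨T_lst k σ v, by rw [tot_T, hv.2]⟩

/-- the representation on `E0` -/
noncomputable def rho (k : ℕ) :
    Equiv.Perm (Fin (4 * k + 4)) →* Module.End (ZMod 2) (E0 k) where
  toFun σ := (T k σ).restrict (T_mem k σ)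
  map_one' := by
    apply LinearMap.ext
    intro v
    apply Subtype.ext
    exact T_one k v.1 ((mem_E0 k v.1).1 v.2).1
  map_mul' σ τ := by
    apply LinearMap.ext
    intro v
    apply Subtype.ext
    exact (T_mul k σ τ v.1).symm

theorem S_perm (k : ℕ) (σ : Equiv.Perm (Fin (4 * k + 4))) (v : W k) :
    S k (fun c => v (σ.symm c)) = S k v :=
  Equiv.sum_comp σ.symm (fun c => lift4 (v c))

/-- the all-ones vector -/
def one (k : ℕ) : W k := fun _ => 1

theorem S_one (k : ℕ) : S k (one k) = 0 := by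
  show ∑ _c : Fin (4 * k + 4), lift4 1 = 0
  rw [Finset.sum_const, Finset.card_univ, Fintype.card_fin, lift4_one, nsmul_eq_mul, mul_one,
    card_cast4]

theorem tot_one (k : ℕ) : tot k (one k) = 0 := by
  show ∑ _c : Fin (4 * k + 4), (1 : ZMod 2) = 0
  rw [Finset.sum_const, Finset.card_univ, Fintype.card_fin, nsmul_eq_mul, mul_one, card_cast2]

theorem Qf_T (k : ℕ) (σ : Equiv.Perm (Fin (4 * k + 4))) (v : W k) (hv : tot k v = 0) :
    Qf k (T k σ v) = Qf k v := by
  have hP : tot k (fun c => v (σ.symm c)) = 0 := by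
    refine Eq.trans ?_ hv
    exact Equiv.sum_comp σ.symm v
  have hQP : Qf k (fun c => v (σ.symm c)) = Qf k v := by
    show hlf (S k _) = hlf (S k v)
    rw [S_perm]
  rcases zero_or_one (v (σ.symm (lst k))) with h | h
  · have h3 : T k σ v = fun c => v (σ.symm c) := by
      funext c
      rw [T_apply, h, add_zero]
    rw [h3, hQP]
  · have h3 : T k σ v = (fun c => v (σ.symm c)) + one k := by
      funext c
      rw [T_apply, h]
      rfl
    rw [h3, Qf_add k _ _ hP (tot_one k), hQP]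
    have h1 : Qf k (one k) = 0 := by
      show hlf (S k (one k)) = 0
      rw [S_one]
      decide
    have h2 : dot k (fun c => v (σ.symm c)) (one k) = 0 := by
      refine Eq.trans ?_ hP
      exact Finset.sum_congr rfl (fun c _ => mul_one _)
    rw [h1, h2, add_zero, add_zero]

/-- indicator of the points with index in `[a, b)` -/
def Iv (k : ℕ) (a b : ℕ) : W k := fun c => if a ≤ c.val ∧ c.val < b then 1 else 0

theorem card_filter_Iv (N a b : ℕ) (hb : b ≤ N) :
    (Finset.univ.filter (fun c : Fin N => a ≤ c.val ∧ c.val < b)).card = b - a := by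
  have h1 : (Finset.univ.filter (fun c : Fin N => a ≤ c.val ∧ c.val < b)).card
      = ∑ c : Fin N, (if a ≤ c.val ∧ c.val < b then 1 else 0) := Finset.card_filter _ _
  rw [h1, Fin.sum_univ_eq_sum_range (fun x => if a ≤ x ∧ x < b then 1 else 0) N,
    ← Finset.card_filter]
  have h2 : (Finset.range N).filter (fun x => a ≤ x ∧ x < b) = Finset.Ico a b := by
    ext x
    simp only [Finset.mem_filter, Finset.mem_range, Finset.mem_Ico]
    omega
  rw [h2, Nat.card_Ico]

theorem sum_Iv {R : Type*} [Semiring R] (N a b : ℕ) (hb : b ≤ N) :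
    ∑ c : Fin N, (if a ≤ c.val ∧ c.val < b then (1 : R) else 0) = ((b - a : ℕ) : R) := by
  rw [Finset.sum_boole, card_filter_Iv N a b hb]

theorem Iv_mul (k a b a' b' : ℕ) (c : Fin (4 * k + 4)) :
    Iv k a b c * Iv k a' b' c = Iv k (max a a') (min b b') c := by
  show (if a ≤ c.val ∧ c.val < b then (1 : ZMod 2) else 0)
      * (if a' ≤ c.val ∧ c.val < b' then 1 else 0)
    = if max a a' ≤ c.val ∧ c.val < min b b' then 1 else 0
  by_cases h1 : a ≤ c.val ∧ c.val < b
  · by_cases h2 : a' ≤ c.val ∧ c.val < b'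
    · rw [if_pos h1, if_pos h2, if_pos (by omega), mul_one]
    · rw [if_pos h1, if_neg h2, if_neg (by omega), mul_zero]
  · rw [if_neg h1, zero_mul, if_neg (by omega)]

theorem dot_Iv (k a b a' b' : ℕ) (hb : b ≤ 4 * k + 4) (hb' : b' ≤ 4 * k + 4) :
    dot k (Iv k a b) (Iv k a' b') = ((min b b' - max a a' : ℕ) : ZMod 2) := by
  show ∑ c, Iv k a b c * Iv k a' b' c = _
  rw [Finset.sum_congr rfl (fun c _ => Iv_mul k a b a' b' c)]
  exact sum_Iv (4 * k + 4) (max a a') (min b b') (by omega)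

theorem tot_Iv (k a b : ℕ) (hb : b ≤ 4 * k + 4) :
    tot k (Iv k a b) = ((b - a : ℕ) : ZMod 2) :=
  sum_Iv (4 * k + 4) a b hb

theorem S_Iv (k a b : ℕ) (hb : b ≤ 4 * k + 4) : S k (Iv k a b) = ((b - a : ℕ) : ZMod 4) := by
  show ∑ c : Fin (4 * k + 4), lift4 (if a ≤ c.val ∧ c.val < b then 1 else 0) = _
  have h : ∀ c : Fin (4 * k + 4), lift4 (if a ≤ c.val ∧ c.val < b then 1 else 0)
      = if a ≤ c.val ∧ c.val < b then (1 : ZMod 4) else 0 := by
    intro c
    split_ifs
    · exact lift4_one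
    · exact lift4_zero
  rw [Finset.sum_congr rfl (fun c _ => h c)]
  exact sum_Iv (4 * k + 4) a b hb

theorem hlf_cast (a : ℕ) : hlf ((a : ℕ) : ZMod 4) = ((a / 2 : ℕ) : ZMod 2) := by
  rw [← ZMod.natCast_mod a 4, ← ZMod.natCast_mod (a / 2) 2]
  have h : a % 4 = 0 ∧ a / 2 % 2 = 0 ∨ a % 4 = 1 ∧ a / 2 % 2 = 0 ∨
      a % 4 = 2 ∧ a / 2 % 2 = 1 ∨ a % 4 = 3 ∧ a / 2 % 2 = 1 := by omega
  rcases h with ⟨h1, h2⟩ | ⟨h1, h2⟩ | ⟨h1, h2⟩ | ⟨h1, h2⟩ <;> rw [h1, h2] <;> decide

/-- `uv i` = the points `2i, 2i+1` -/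
def uv (k : ℕ) (i : Fin (2 * k + 1)) : W k := Iv k (2 * i.val) (2 * i.val + 2)

/-- `wv i` = the points `2i+1, …, 4k+2` -/
def wv (k : ℕ) (i : Fin (2 * k + 1)) : W k := Iv k (2 * i.val + 1) (4 * k + 3)

theorem uv_mem (k : ℕ) (i : Fin (2 * k + 1)) : uv k i ∈ E0 k := by
  have hi := i.isLt
  rw [mem_E0]
  constructor
  · show (if 2 * i.val ≤ 4 * k + 3 ∧ 4 * k + 3 < 2 * i.val + 2 then (1 : ZMod 2) else 0) = 0
    exact if_neg (by omega)
  · rw [uv, tot_Iv k _ _ (by omega)]
    exact cast_even2 _ (by omega)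

theorem wv_mem (k : ℕ) (i : Fin (2 * k + 1)) : wv k i ∈ E0 k := by
  have hi := i.isLt
  rw [mem_E0]
  constructor
  · show (if 2 * i.val + 1 ≤ 4 * k + 3 ∧ 4 * k + 3 < 4 * k + 3 then (1 : ZMod 2) else 0) = 0
    exact if_neg (by omega)
  · rw [wv, tot_Iv k _ _ (by omega)]
    exact cast_even2 _ (by omega)

theorem dot_uu (k : ℕ) (i j : Fin (2 * k + 1)) : dot k (uv k i) (uv k j) = 0 := by
  have hi := i.isLt
  have hj := j.isLt
  rw [uv, uv, dot_Iv k _ _ _ _ (by omega) (by omega)]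
  exact cast_even2 _ (by omega)

theorem dot_ww (k : ℕ) (i j : Fin (2 * k + 1)) : dot k (wv k i) (wv k j) = 0 := by
  have hi := i.isLt
  have hj := j.isLt
  rw [wv, wv, dot_Iv k _ _ _ _ (by omega) (by omega)]
  exact cast_even2 _ (by omega)

theorem dot_uw (k : ℕ) (i j : Fin (2 * k + 1)) :
    dot k (uv k i) (wv k j) = if i = j then 1 else 0 := by
  have hi := i.isLt
  have hj := j.isLt
  rw [uv, wv, dot_Iv k _ _ _ _ (by omega) (by omega)]
  by_cases h : i = j
  · subst h
    rw [if_pos rfl]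
    have h1 : min (2 * i.val + 2) (4 * k + 3) - max (2 * i.val) (2 * i.val + 1) = 1 := by omega
    rw [h1, Nat.cast_one]
  · rw [if_neg h]
    have hne : i.val ≠ j.val := fun h' => h (Fin.ext h')
    exact cast_even2 _ (by omega)

theorem Qf_uv (k : ℕ) (i : Fin (2 * k + 1)) : Qf k (uv k i) = 1 := by
  have hi := i.isLt
  show hlf (S k (uv k i)) = 1
  rw [uv, S_Iv k _ _ (by omega), hlf_cast]
  have h1 : (2 * i.val + 2 - 2 * i.val) / 2 = 1 := by omega
  rw [h1, Nat.cast_one]

theorem Qf_wv (k : ℕ) (i : Fin (2 * k + 1)) : Qf k (wv k i) = ((i.val + 1 : ℕ) : ZMod 2) := by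
  have hi := i.isLt
  show hlf (S k (wv k i)) = _
  rw [wv, S_Iv k _ _ (by omega), hlf_cast]
  exact (ZMod.natCast_eq_natCast_iff' _ _ 2).2 (by omega)

/-- the linear map from the standard space onto the symplectic basis -/
noncomputable def L0 (k : ℕ) : V (2 * k + 1) →ₗ[ZMod 2] W k :=
  (Pi.basisFun (ZMod 2) (Fin (2 * k + 1) ⊕ Fin (2 * k + 1))).constr (ZMod 2)
    (Sum.elim (uv k) (wv k))

theorem L0_single (k : ℕ) (a : Fin (2 * k + 1) ⊕ Fin (2 * k + 1)) :
    L0 k (Pi.single a 1) = Sum.elim (uv k) (wv k) a := by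
  have h := (Pi.basisFun (ZMod 2) (Fin (2 * k + 1) ⊕ Fin (2 * k + 1))).constr_basis (ZMod 2)
    (Sum.elim (uv k) (wv k)) a
  rw [Pi.basisFun_apply] at h
  exact h

theorem L0_mem (k : ℕ) (z : V (2 * k + 1)) : L0 k z ∈ E0 k := by
  have h : LinearMap.range (L0 k) ≤ E0 k := by
    rw [L0, Module.Basis.constr_range, Submodule.span_le]
    rintro _ ⟨a, rfl⟩
    rcases a with i | i
    · exact uv_mem k i
    · exact wv_mem k i
  exact h ⟨z, rfl⟩

/-- dot product as a bilinear form -/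
noncomputable def dotB (k : ℕ) : W k →ₗ[ZMod 2] W k →ₗ[ZMod 2] ZMod 2 :=
  LinearMap.mk₂ (ZMod 2) (fun u v => ∑ c, u c * v c)
    (by
      intro u u' v
      rw [← Finset.sum_add_distrib]
      apply Finset.sum_congr rfl
      intro c _
      simp only [Pi.add_apply]
      ring)
    (by
      intro a u v
      rw [smul_eq_mul, Finset.mul_sum]
      apply Finset.sum_congr rfl
      intro c _
      simp only [Pi.smul_apply, smul_eq_mul]
      ring)
    (by
      intro u v v'
      rw [← Finset.sum_add_distrib]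
      apply Finset.sum_congr rfl
      intro c _
      simp only [Pi.add_apply]
      ring)
    (by
      intro a u v
      rw [smul_eq_mul, Finset.mul_sum]
      apply Finset.sum_congr rfl
      intro c _
      simp only [Pi.smul_apply, smul_eq_mul]
      ring)

theorem dot_L0 (k : ℕ) (z z' : V (2 * k + 1)) :
    dot k (L0 k z) (L0 k z') = Bp (2 * k + 1) z z' := by
  have h : (dotB k).compl₁₂ (L0 k) (L0 k) = Bp (2 * k + 1) := by
    apply LinearMap.pi_ext
    intro a x
    apply LinearMap.pi_ext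
    intro b y
    rcases zero_or_one x with rfl | rfl
    · rw [Pi.single_zero, map_zero, map_zero]
    rcases zero_or_one y with rfl | rfl
    · rw [Pi.single_zero, map_zero, map_zero]
    show dot k (L0 k (Pi.single a 1)) (L0 k (Pi.single b 1))
      = Bp (2 * k + 1) (Pi.single a 1) (Pi.single b 1)
    rw [L0_single, L0_single]
    rcases a with i | i <;> rcases b with j | j
    · show dot k (uv k i) (uv k j) = _
      have hne : (Sum.inr i : Fin (2 * k + 1) ⊕ Fin (2 * k + 1)) ≠ Sum.inl j := Sum.inr_ne_inl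
      rw [dot_uu, Bp_single_inl, Pi.single_eq_of_ne hne]
    · show dot k (uv k i) (wv k j) = _
      rw [dot_uw, Bp_single_inl, Pi.single_apply]
      simp only [Sum.inr.injEq]
    · show dot k (wv k i) (uv k j) = _
      rw [dot_comm, dot_uw, Bp_single_inr, Pi.single_apply]
      by_cases h : i = j
      · subst h; simp
      · simp [h, Ne.symm h]
    · show dot k (wv k i) (wv k j) = _
      have hne : (Sum.inl i : Fin (2 * k + 1) ⊕ Fin (2 * k + 1)) ≠ Sum.inr j := Sum.inl_ne_inr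
      rw [dot_ww, Bp_single_inr, Pi.single_eq_of_ne hne]
  have h' := congrArg (fun f : V (2 * k + 1) →ₗ[ZMod 2] V (2 * k + 1) →ₗ[ZMod 2] ZMod 2 =>
    f z z') h
  exact h'

theorem q_pol (k : ℕ) (z z' : V (2 * k + 1)) :
    Qf k (L0 k (z + z')) = Qf k (L0 k z) + Qf k (L0 k z') + Bp (2 * k + 1) z z' := by
  rw [map_add, Qf_add k _ _ ((mem_E0 k _).1 (L0_mem k z)).2 ((mem_E0 k _).1 (L0_mem k z')).2,
    dot_L0]

theorem sum_range_parity (k : ℕ) :
    ∑ x ∈ Finset.range (2 * k + 1), ((x + 1 : ℕ) : ZMod 2) = ((k + 1 : ℕ) : ZMod 2) := by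
  induction k with
  | zero => simp
  | succ k ih =>
    have h2 : 2 * (k + 1) + 1 = (2 * k + 1) + 1 + 1 := by ring
    rw [h2, Finset.sum_range_succ, Finset.sum_range_succ, ih]
    push_cast
    linear_combination (2 * (k : ZMod 2) + 2) * two_zero

theorem arf_sum (k : ℕ) :
    ∑ i : Fin (2 * k + 1), Qf k (L0 k (Pi.single (Sum.inl i) 1))
        * Qf k (L0 k (Pi.single (Sum.inr i) 1))
      = ((k + 1 : ℕ) : ZMod 2) := by
  have h1 : ∀ i : Fin (2 * k + 1), Qf k (L0 k (Pi.single (Sum.inl i) 1))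
      * Qf k (L0 k (Pi.single (Sum.inr i) 1)) = ((i.val + 1 : ℕ) : ZMod 2) := by
    intro i
    rw [L0_single, L0_single]
    show Qf k (uv k i) * Qf k (wv k i) = _
    rw [Qf_uv, Qf_wv, one_mul]
  rw [Finset.sum_congr rfl (fun i _ => h1 i),
    Fin.sum_univ_eq_sum_range (fun x => ((x + 1 : ℕ) : ZMod 2)) (2 * k + 1)]
  exact sum_range_parity k

/-- `L0` with codomain `E0` -/
noncomputable def L (k : ℕ) : V (2 * k + 1) →ₗ[ZMod 2] E0 k :=
  (L0 k).codRestrict (E0 k) (L0_mem k)

theorem L_inj (k : ℕ) : Function.Injective (L k) := by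
  rw [injective_iff_map_eq_zero]
  intro z hz
  have hz0 : L0 k z = 0 := congrArg Subtype.val hz
  have hB : ∀ z', Bp (2 * k + 1) z z' = 0 := by
    intro z'
    rw [← dot_L0, hz0]
    show ∑ c, (0 : W k) c * (L0 k z') c = 0
    simp
  funext a
  rcases a with i | i
  · have h := hB (Pi.single (Sum.inr i) 1)
    rw [Bp_symm, Bp_single_inr] at h
    exact h
  · have h := hB (Pi.single (Sum.inl i) 1)
    rw [Bp_symm, Bp_single_inl] at h
    exact h

theorem exists_avoid (N : ℕ) (s : Finset (Fin N)) (h : s.card < N) : ∃ c, c ∉ s := by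
  by_contra hc
  have hs : s = Finset.univ :=
    Finset.eq_univ_of_forall (fun c => by_contra fun h' => hc ⟨c, h'⟩)
  rw [hs, Finset.card_univ, Fintype.card_fin] at h
  exact lt_irrefl _ h

/-- the vector `e_a + e_b` -/
def pr (k : ℕ) (a b : Fin (4 * k + 4)) : W k := Pi.single a 1 + Pi.single b 1

theorem pr_apply (k : ℕ) (a b c : Fin (4 * k + 4)) :
    pr k a b c = (if c = a then 1 else 0) + (if c = b then 1 else 0) := by
  show (Pi.single a (1 : ZMod 2) : W k) c + (Pi.single b (1 : ZMod 2) : W k) c = _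
  rw [Pi.single_apply, Pi.single_apply]

theorem pr_mem (k : ℕ) (a b : Fin (4 * k + 4)) (ha : a ≠ lst k) (hb : b ≠ lst k) :
    pr k a b ∈ E0 k := by
  rw [mem_E0]
  constructor
  · rw [pr_apply, if_neg (Ne.symm ha), if_neg (Ne.symm hb), add_zero]
  · show ∑ c, ((Pi.single a (1 : ZMod 2) : W k) c + (Pi.single b (1 : ZMod 2) : W k) c) = 0
    rw [Finset.sum_add_distrib, Finset.sum_pi_single', Finset.sum_pi_single',
      if_pos (Finset.mem_univ _), if_pos (Finset.mem_univ _)]
    decide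

theorem rho_inj (k : ℕ) (hk : 1 ≤ k) : Function.Injective (rho k) := by
  rw [injective_iff_map_eq_one]
  intro σ hσ
  have key : ∀ v ∈ E0 k, ∀ c, v (σ.symm c) + v (σ.symm (lst k)) = v c := by
    intro v hv c
    have h := congrArg (fun f : Module.End (ZMod 2) (E0 k) => ((f ⟨v, hv⟩ : E0 k) : W k) c) hσ
    exact h
  have h1 : σ.symm (lst k) = lst k := by
    by_contra hy
    obtain ⟨x, hx⟩ := exists_avoid (4 * k + 4) {σ.symm (lst k), lst k}
      (lt_of_le_of_lt Finset.card_le_two (by omega))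
    rw [Finset.mem_insert, Finset.mem_singleton, not_or] at hx
    obtain ⟨c, hc⟩ := exists_avoid (4 * k + 4)
      {σ.symm (lst k), x, σ (σ.symm (lst k)), σ x}
      (lt_of_le_of_lt Finset.card_le_four (by omega))
    simp only [Finset.mem_insert, Finset.mem_singleton, not_or] at hc
    obtain ⟨hc1, hc2, hc3, hc4⟩ := hc
    have h := key (pr k (σ.symm (lst k)) x) (pr_mem k _ _ hy hx.2) c
    rw [pr_apply, pr_apply, pr_apply] at h
    have e1 : σ.symm c ≠ σ.symm (lst k) := fun h' => hc3 (by rw [← h', Equiv.apply_symm_apply])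
    have e2 : σ.symm c ≠ x := fun h' => hc4 (by rw [← h', Equiv.apply_symm_apply])
    rw [if_neg e1, if_neg e2, if_pos rfl, if_neg (Ne.symm hx.1), if_neg hc1, if_neg hc2] at h
    revert h
    decide
  have h2 : ∀ c, σ.symm c = c := by
    intro c
    by_contra hd
    have hc : c ≠ lst k := by
      intro h'
      rw [h'] at hd
      exact hd h1
    have hdl : σ.symm c ≠ lst k := by
      intro h'
      rw [← h1] at h'
      exact hc (σ.symm.injective h')
    obtain ⟨x, hx⟩ := exists_avoid (4 * k + 4) {c, σ.symm c, lst k}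
      (lt_of_le_of_lt Finset.card_le_three (by omega))
    simp only [Finset.mem_insert, Finset.mem_singleton, not_or] at hx
    obtain ⟨hx1, hx2, hx3⟩ := hx
    have h := key (pr k c x) (pr_mem k _ _ hc hx3) c
    rw [h1, pr_apply, pr_apply, pr_apply] at h
    rw [if_neg hd, if_neg (Ne.symm hx2), if_neg (Ne.symm hc), if_neg (Ne.symm hx3), if_pos rfl,
      if_neg (Ne.symm hx1)] at h
    revert h
    decide
  exact Equiv.ext (fun c => ((Equiv.symm_apply_eq σ).1 (h2 c)).symm)

theorem plus_case (k : ℕ) (hk : 1 ≤ k) (hodd : Odd k) :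
    ∃ φ : Equiv.Perm (Fin (4 * k + 4)) →*
      ↥(Cfsg.isometryGroup (ZMod 2) (Cfsg.quadFormPlus (2 * k + 1) (ZMod 2))),
      Function.Injective φ := by
  have harf : ∑ i : Fin (2 * k + 1), Qf k (L0 k (Pi.single (Sum.inl i) 1))
      * Qf k (L0 k (Pi.single (Sum.inr i) 1)) = 0 := by
    rw [arf_sum]
    obtain ⟨r, rfl⟩ := hodd
    exact cast_even2 _ (by omega)
  obtain ⟨g, hg⟩ := arf_plus (2 * k) (fun z => Qf k (L0 k z)) (q_pol k) harf
  have hL : Function.Injective ((L k).comp g.symm.toLinearMap) :=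
    (L_inj k).comp g.symm.injective
  refine OrthEmbed.orth_embed' ((L k).comp g.symm.toLinearMap) hL ?_
    (Cfsg.quadFormPlus (2 * k + 1) (ZMod 2)) (fun v : E0 k => Qf k v.1) ?_ (rho k)
    (rho_inj k hk) ?_
  · rw [finrank_E0, Fintype.card_sum, Fintype.card_fin]
    omega
  · intro w
    have h := hg (g.symm w)
    rw [LinearEquiv.apply_symm_apply] at h
    exact h
  · intro σ v
    exact Qf_T k σ v.1 ((mem_E0 k v.1).1 v.2).2

theorem minus_case (k : ℕ) (hk : 1 ≤ k) (heven : Even k) :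
    ∃ φ : Equiv.Perm (Fin (4 * k + 4)) →*
      ↥(Cfsg.isometryGroup (ZMod 2) (Cfsg.quadFormMinus (2 * k) (ZMod 2) 1 1)),
      Function.Injective φ := by
  have harf : ∑ i : Fin (2 * k + 1), Qf k (L0 k (Pi.single (Sum.inl i) 1))
      * Qf k (L0 k (Pi.single (Sum.inr i) 1)) = 1 := by
    rw [arf_sum]
    obtain ⟨r, rfl⟩ := heven
    have h : ((r + r + 1 : ℕ) : ZMod 2) = ((1 : ℕ) : ZMod 2) :=
      (ZMod.natCast_eq_natCast_iff' _ _ 2).2 (by omega)
    rw [h, Nat.cast_one]
  obtain ⟨g, hg⟩ := arf_minus (2 * k) (fun z => Qf k (L0 k z)) (q_pol k) harf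
  have hL : Function.Injective ((L k).comp g.symm.toLinearMap) :=
    (L_inj k).comp g.symm.injective
  refine OrthEmbed.orth_embed' ((L k).comp g.symm.toLinearMap) hL ?_
    (Cfsg.quadFormMinus (2 * k) (ZMod 2) 1 1) (fun v : E0 k => Qf k v.1) ?_ (rho k)
    (rho_inj k hk) ?_
  · rw [finrank_E0, Fintype.card_sum, Fintype.card_sum, Fintype.card_fin, Fintype.card_fin]
    omega
  · intro w
    have h := hg (g.symm w)
    rw [LinearEquiv.apply_symm_apply] at h
    exact h
  · intro σ v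
    exact Qf_T k σ v.1 ((mem_E0 k v.1).1 v.2).2

end SymOrth

end Cfsg.Agent.Helper2
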