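import Mathlib

set_option autoImplicit false

namespace Cfsg.Agent.Helper2.SymSp

open Matrix

section abstract
variable {R : Type*} [CommRing R] {X : Type*} [Fintype X] [DecidableEq X] {m : ℕ}

/-- `A(σ) = (W ∘ σ)ᵀ W`. -/
def AA (W : Matrix X (Fin m ⊕ Fin m) R) (σ : Equiv.Perm X) :
    Matrix (Fin m ⊕ Fin m) (Fin m ⊕ Fin m) R :=
  (W.submatrix σ id)ᵀ * W

theorem AA_apply (W : Matrix X (Fin m ⊕ Fin m) R) (σ : Equiv.Perm X) (c d : Fin m ⊕ Fin m) :
    AA W σ c d = ∑ x, W (σ x) c * W x d := rfl

theorem AA_one (W : Matrix X (Fin m ⊕ Fin m) R) : AA W 1 = Wᵀ * W := rfl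

theorem perm_inv_apply {Y : Type*} (σ : Equiv.Perm Y) (x : Y) : σ⁻¹ (σ x) = x :=
  σ.symm_apply_apply x

theorem AA_transpose (W : Matrix X (Fin m ⊕ Fin m) R) (σ : Equiv.Perm X) :
    (AA W σ)ᵀ = AA W σ⁻¹ := by
  ext c d
  show ∑ x, W (σ x) d * W x c = ∑ x, W (σ⁻¹ x) c * W x d
  rw [← Equiv.sum_comp σ (fun x => W (σ⁻¹ x) c * W x d)]
  refine Finset.sum_congr rfl (fun x _ => ?_)
  show W (σ x) d * W x c = W (σ⁻¹ (σ x)) c * W (σ x) d
  rw [perm_inv_apply, mul_comm]

theorem AA_mul (W : Matrix X (Fin m ⊕ Fin m) R) (hF2 : ∀ c, ∑ x, W x c = 0) (u v : X → R)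
    (hF3 : ∀ y x, (W * J (Fin m) R * Wᵀ) y x = (if y = x then 1 else 0) + u x + v y)
    (σ τ : Equiv.Perm X) : AA W σ * J (Fin m) R * AA W τ = AA W (σ * τ) := by
  have hmat : AA W σ * J (Fin m) R * AA W τ
      = (W.submatrix σ id)ᵀ * ((W * J (Fin m) R * Wᵀ).submatrix id τ) * W := by
    have h0 : (W * J (Fin m) R * Wᵀ).submatrix id τ
        = W * J (Fin m) R * (W.submatrix τ id)ᵀ := by
      ext x y
      rfl
    rw [h0]
    unfold AA
    simp only [Matrix.mul_assoc]
  rw [hmat]
  ext c d
  show ∑ y, (∑ x, W (σ x) c * (W * J (Fin m) R * Wᵀ) x (τ y)) * W y d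
    = ∑ y, W ((σ * τ) y) c * W y d
  have hs : ∑ x, W (σ x) c = 0 := (Equiv.sum_comp σ (fun x => W x c)).trans (hF2 c)
  have hin : ∀ y, ∑ x, W (σ x) c * (W * J (Fin m) R * Wᵀ) x (τ y)
      = W (σ (τ y)) c + ∑ x, W (σ x) c * v x := by
    intro y
    have hsingle : ∑ x, W (σ x) c * (if x = τ y then (1 : R) else 0) = W (σ (τ y)) c := by
      rw [Finset.sum_eq_single (τ y)]
      · rw [if_pos rfl, mul_one]
      · intro x _ hx
        rw [if_neg hx, mul_zero]
      · intro h
        exact absurd (Finset.mem_univ _) h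
    calc ∑ x, W (σ x) c * (W * J (Fin m) R * Wᵀ) x (τ y)
        = ∑ x, (W (σ x) c * (if x = τ y then (1 : R) else 0) + u (τ y) * W (σ x) c
            + W (σ x) c * v x) := by
          refine Finset.sum_congr rfl (fun x _ => ?_)
          rw [hF3]
          ring
      _ = ∑ x, W (σ x) c * (if x = τ y then (1 : R) else 0) + u (τ y) * ∑ x, W (σ x) c
            + ∑ x, W (σ x) c * v x := by
          rw [Finset.sum_add_distrib, Finset.sum_add_distrib, Finset.mul_sum]
      _ = W (σ (τ y)) c + ∑ x, W (σ x) c * v x := by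
          rw [hs, mul_zero, add_zero, hsingle]
  have hd : ∑ y, W y d = 0 := hF2 d
  calc ∑ y, (∑ x, W (σ x) c * (W * J (Fin m) R * Wᵀ) x (τ y)) * W y d
      = ∑ y, (W (σ (τ y)) c * W y d + (∑ x, W (σ x) c * v x) * W y d) := by
        refine Finset.sum_congr rfl (fun y _ => ?_)
        rw [hin y]
        ring
    _ = ∑ y, W (σ (τ y)) c * W y d + (∑ x, W (σ x) c * v x) * ∑ y, W y d := by
        rw [Finset.sum_add_distrib, Finset.mul_sum]
    _ = ∑ y, W ((σ * τ) y) c * W y d := by
        rw [hd, mul_zero, add_zero]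
        rfl

theorem neg_eq_self (h2 : (2 : R) = 0) {n : Type*} (A : Matrix n n R) : -A = A := by
  ext i j
  show -(A i j) = A i j
  linear_combination (-(A i j)) * h2

/-- `M(σ) = J A(σ)`. -/
def MM (W : Matrix X (Fin m ⊕ Fin m) R) (σ : Equiv.Perm X) :
    Matrix (Fin m ⊕ Fin m) (Fin m ⊕ Fin m) R := J (Fin m) R * AA W σ

theorem MM_mul (W : Matrix X (Fin m ⊕ Fin m) R)
    (hmul : ∀ σ τ : Equiv.Perm X, AA W σ * J (Fin m) R * AA W τ = AA W (σ * τ))
    (σ τ : Equiv.Perm X) : MM W (σ * τ) = MM W σ * MM W τ := by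
  unfold MM
  rw [← hmul]
  simp only [Matrix.mul_assoc]

theorem MM_one (W : Matrix X (Fin m ⊕ Fin m) R) (h2 : (2 : R) = 0)
    (hF1 : Wᵀ * W = J (Fin m) R) : MM W 1 = 1 := by
  unfold MM
  rw [AA_one, hF1, J_squared, neg_eq_self h2]

theorem MM_symp (W : Matrix X (Fin m ⊕ Fin m) R) (hF1 : Wᵀ * W = J (Fin m) R)
    (hmul : ∀ σ τ : Equiv.Perm X, AA W σ * J (Fin m) R * AA W τ = AA W (σ * τ))
    (σ : Equiv.Perm X) : MM W σ * J (Fin m) R * (MM W σ)ᵀ = J (Fin m) R := by
  have h1 : (MM W σ)ᵀ = AA W σ⁻¹ * (-J (Fin m) R) := by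
    unfold MM
    rw [Matrix.transpose_mul, AA_transpose, J_transpose]
  rw [h1]
  unfold MM
  have h3 : J (Fin m) R * AA W σ * J (Fin m) R * (AA W σ⁻¹ * -J (Fin m) R)
      = -(J (Fin m) R * (AA W σ * J (Fin m) R * AA W σ⁻¹) * J (Fin m) R) := by
    simp only [Matrix.mul_assoc, Matrix.mul_neg]
  rw [h3, hmul, mul_inv_cancel, AA_one, hF1, J_squared]
  simp

/-- The homomorphism `Perm X → Sp`. -/
noncomputable def spHom (W : Matrix X (Fin m ⊕ Fin m) R) (h2 : (2 : R) = 0)
    (hF1 : Wᵀ * W = J (Fin m) R) (hF2 : ∀ c, ∑ x, W x c = 0) (u v : X → R)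
    (hF3 : ∀ y x, (W * J (Fin m) R * Wᵀ) y x = (if y = x then 1 else 0) + u x + v y) :
    Equiv.Perm X →* Matrix.symplecticGroup (Fin m) R where
  toFun σ := ⟨MM W σ, SymplecticGroup.mem_iff.2 (MM_symp W hF1 (AA_mul W hF2 u v hF3) σ)⟩
  map_one' := Subtype.ext (MM_one W h2 hF1)
  map_mul' σ τ := Subtype.ext (MM_mul W (AA_mul W hF2 u v hF3) σ τ)

theorem exists_not_mem (s : Finset X) (h : s.card < Fintype.card X) : ∃ z, z ∉ s := by
  by_contra hno
  push Not at hno
  have h1 : s = Finset.univ := Finset.eq_univ_of_forall hno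
  rw [h1, Finset.card_univ] at h
  exact lt_irrefl _ h

theorem spHom_injective [Nontrivial R] (W : Matrix X (Fin m ⊕ Fin m) R) (h2 : (2 : R) = 0)
    (hF1 : Wᵀ * W = J (Fin m) R) (hF2 : ∀ c, ∑ x, W x c = 0) (u v : X → R)
    (hF3 : ∀ y x, (W * J (Fin m) R * Wᵀ) y x = (if y = x then 1 else 0) + u x + v y)
    (hX : 5 ≤ Fintype.card X) : Function.Injective (spHom W h2 hF1 hF2 u v hF3) := by
  rw [injective_iff_map_eq_one]
  intro σ hσ
  have hM : MM W σ = 1 := congrArg Subtype.val hσ
  have hA : AA W σ = Wᵀ * W := by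
    have h3 : J (Fin m) R * MM W σ = J (Fin m) R := by rw [hM, Matrix.mul_one]
    unfold MM at h3
    rw [← Matrix.mul_assoc, J_squared, neg_eq_self h2, Matrix.one_mul] at h3
    rw [h3, hF1]
  have hconst : ∀ c z, W (σ z) c - W z c = -∑ x, (W (σ x) c - W x c) * v x := by
    intro c z
    have hΔW : ∀ d, ∑ x, (W (σ x) c - W x c) * W x d = 0 := by
      intro d
      have h4 : AA W σ c d = (Wᵀ * W) c d := by rw [hA]
      have h5 : ∑ x, W (σ x) c * W x d = ∑ x, W x c * W x d := h4
      rw [← sub_eq_zero, ← Finset.sum_sub_distrib] at h5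
      exact (Finset.sum_congr rfl (fun x _ => by ring)).trans h5
    have hΔD : ∑ x, (W (σ x) c - W x c) * (W * J (Fin m) R * Wᵀ) x z = 0 := by
      have h6 : ∀ x, (W * J (Fin m) R * Wᵀ) x z = ∑ d, W x d * (J (Fin m) R * Wᵀ) d z := by
        intro x
        rw [Matrix.mul_assoc]
        rfl
      calc ∑ x, (W (σ x) c - W x c) * (W * J (Fin m) R * Wᵀ) x z
          = ∑ x, ∑ d, ((W (σ x) c - W x c) * W x d) * (J (Fin m) R * Wᵀ) d z := by
            refine Finset.sum_congr rfl (fun x _ => ?_)
            rw [h6, Finset.mul_sum]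
            refine Finset.sum_congr rfl (fun d _ => ?_)
            ring
        _ = ∑ d, ∑ x, ((W (σ x) c - W x c) * W x d) * (J (Fin m) R * Wᵀ) d z :=
            Finset.sum_comm
        _ = ∑ d, (∑ x, (W (σ x) c - W x c) * W x d) * (J (Fin m) R * Wᵀ) d z := by
            refine Finset.sum_congr rfl (fun d _ => ?_)
            rw [Finset.sum_mul]
        _ = 0 := by
            refine Finset.sum_eq_zero (fun d _ => ?_)
            rw [hΔW d, zero_mul]
    have hΔ0 : ∑ x, (W (σ x) c - W x c) = 0 := by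
      rw [Finset.sum_sub_distrib, Equiv.sum_comp σ (fun x => W x c), sub_self]
    have h7 : ∑ x, (W (σ x) c - W x c) * (W * J (Fin m) R * Wᵀ) x z
        = (W (σ z) c - W z c) + u z * ∑ x, (W (σ x) c - W x c)
          + ∑ x, (W (σ x) c - W x c) * v x := by
      have hsingle : ∑ x, (W (σ x) c - W x c) * (if x = z then (1 : R) else 0)
          = W (σ z) c - W z c := by
        rw [Finset.sum_eq_single z]
        · rw [if_pos rfl, mul_one]
        · intro x _ hx
          rw [if_neg hx, mul_zero]
        · intro h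
          exact absurd (Finset.mem_univ _) h
      calc ∑ x, (W (σ x) c - W x c) * (W * J (Fin m) R * Wᵀ) x z
          = ∑ x, ((W (σ x) c - W x c) * (if x = z then (1 : R) else 0)
              + u z * (W (σ x) c - W x c) + (W (σ x) c - W x c) * v x) := by
            refine Finset.sum_congr rfl (fun x _ => ?_)
            rw [hF3]
            ring
        _ = (W (σ z) c - W z c) + u z * ∑ x, (W (σ x) c - W x c)
              + ∑ x, (W (σ x) c - W x c) * v x := by
            rw [Finset.sum_add_distrib, Finset.sum_add_distrib, Finset.mul_sum, hsingle]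
    rw [hΔD, hΔ0, mul_zero, add_zero] at h7
    linear_combination (-1 : R) * h7
  have hshift : ∀ g : X → R, ∑ x, g x = 0 → ∀ z z', g (σ z) - g z = g (σ z') - g z' := by
    intro g hg
    have hexp : ∀ y, g y = ∑ c, W y c * (J (Fin m) R * Wᵀ).mulVec g c - ∑ x, u x * g x := by
      intro y
      have h8 : ∑ x, (W * J (Fin m) R * Wᵀ) y x * g x = g y + ∑ x, u x * g x := by
        have hsingle : ∑ x, (if y = x then (1 : R) else 0) * g x = g y := by
          rw [Finset.sum_eq_single y]
          · rw [if_pos rfl, one_mul]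
          · intro x _ hx
            rw [if_neg (Ne.symm hx), zero_mul]
          · intro h
            exact absurd (Finset.mem_univ _) h
        have hv : ∑ x, v y * g x = 0 := by rw [← Finset.mul_sum, hg, mul_zero]
        calc ∑ x, (W * J (Fin m) R * Wᵀ) y x * g x
            = ∑ x, ((if y = x then (1 : R) else 0) * g x + u x * g x + v y * g x) := by
              refine Finset.sum_congr rfl (fun x _ => ?_)
              rw [hF3]
              ring
          _ = g y + ∑ x, u x * g x := by
              rw [Finset.sum_add_distrib, Finset.sum_add_distrib, hv, add_zero, hsingle]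
      have h9 : ∑ x, (W * J (Fin m) R * Wᵀ) y x * g x
          = ∑ c, W y c * (J (Fin m) R * Wᵀ).mulVec g c := by
        have h10 : (W * J (Fin m) R * Wᵀ).mulVec g = W.mulVec ((J (Fin m) R * Wᵀ).mulVec g) := by
          rw [Matrix.mulVec_mulVec, Matrix.mul_assoc]
        exact congrFun h10 y
      rw [← h9, h8]
      ring
    have key : ∀ z, g (σ z) - g z
        = ∑ c, (-∑ x, (W (σ x) c - W x c) * v x) * (J (Fin m) R * Wᵀ).mulVec g c := by
      intro z
      have e1 := hexp (σ z)
      have e2 := hexp z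
      have e3 : ∑ c, W (σ z) c * (J (Fin m) R * Wᵀ).mulVec g c
          - ∑ c, W z c * (J (Fin m) R * Wᵀ).mulVec g c
          = ∑ c, (-∑ x, (W (σ x) c - W x c) * v x) * (J (Fin m) R * Wᵀ).mulVec g c := by
        rw [← Finset.sum_sub_distrib]
        refine Finset.sum_congr rfl (fun c _ => ?_)
        linear_combination ((J (Fin m) R * Wᵀ).mulVec g c) * hconst c z
      linear_combination e1 - e2 + e3
    intro z z'
    rw [key z, key z']
  by_contra hne
  obtain ⟨x, hx⟩ : ∃ x, σ x ≠ x := by
    by_contra hall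
    push Not at hall
    exact hne (Equiv.ext hall)
  obtain ⟨w, hw⟩ := exists_not_mem ({x, σ x} : Finset X)
    (lt_of_le_of_lt Finset.card_le_two (by omega))
  obtain ⟨z0, hz0⟩ := exists_not_mem ({x, w, σ⁻¹ x, σ⁻¹ w} : Finset X)
    (lt_of_le_of_lt Finset.card_le_four (by omega))
  simp only [Finset.mem_insert, Finset.mem_singleton, not_or] at hw hz0
  obtain ⟨hwx, hwy⟩ := hw
  obtain ⟨h1, h2', h3, h4⟩ := hz0
  have hg : ∑ z, ((if z = x then (1 : R) else 0) - (if z = w then (1 : R) else 0)) = 0 := by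
    rw [Finset.sum_sub_distrib]
    simp
  have hs := hshift (fun z => (if z = x then (1 : R) else 0) - (if z = w then (1 : R) else 0))
    hg z0 x
  have e1 : σ z0 ≠ x := fun h => h3 (by rw [← h, perm_inv_apply])
  have e2 : σ z0 ≠ w := fun h => h4 (by rw [← h, perm_inv_apply])
  have hs' : ((if σ z0 = x then (1 : R) else 0) - (if σ z0 = w then (1 : R) else 0))
      - ((if z0 = x then (1 : R) else 0) - (if z0 = w then (1 : R) else 0))
      = ((if σ x = x then (1 : R) else 0) - (if σ x = w then (1 : R) else 0))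
        - ((if x = x then (1 : R) else 0) - (if x = w then (1 : R) else 0)) := hs
  rw [if_neg e1, if_neg e2, if_neg h1, if_neg h2', if_neg hx, if_neg (Ne.symm hwy), if_pos rfl,
    if_neg (Ne.symm hwx)] at hs'
  have h01 : (1 : R) = 0 := by linear_combination hs'
  exact one_ne_zero h01

end abstract

section concrete

/-- The point set: pairs `a_l, b_l` (`l < m`) and two extra points `p = inr true`,
`∞ = inr false`. -/
abbrev PX (m : ℕ) : Type := (Fin m ⊕ Fin m) ⊕ Bool

variable (m : ℕ) (R : Type*) [CommRing R]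

def EE : Matrix (PX m) (Fin m) R := fun x i =>
  match x with
  | Sum.inl (Sum.inl l) => if i = l then 1 else 0
  | Sum.inl (Sum.inr l) => if i = l then 1 else 0
  | Sum.inr _ => 0

def FF : Matrix (PX m) (Fin m) R := fun x i =>
  match x with
  | Sum.inl (Sum.inl l) => if i < l then 1 else 0
  | Sum.inl (Sum.inr l) => if i ≤ l then 1 else 0
  | Sum.inr true => 1
  | Sum.inr false => 0

def uu : PX m → R := fun x =>
  match x with
  | Sum.inl _ => 1
  | Sum.inr true => 1
  | Sum.inr false => 0

def vv : PX m → R := fun x =>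
  match x with
  | Sum.inl _ => 0
  | Sum.inr true => 0
  | Sum.inr false => 1

def dlt : PX m → PX m → R := fun y x =>
  match y, x with
  | Sum.inl (Sum.inl k), Sum.inl (Sum.inl l) => if k = l then 1 else 0
  | Sum.inl (Sum.inr k), Sum.inl (Sum.inr l) => if k = l then 1 else 0
  | Sum.inr true, Sum.inr true => 1
  | Sum.inr false, Sum.inr false => 1
  | _, _ => 0

theorem dlt_eq (y x : PX m) : dlt m R y x = if y = x then 1 else 0 := by
  rcases y with (k | k) | (_ | _) <;> rcases x with (l | l) | (_ | _) <;> simp [dlt]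

def WW : Matrix (PX m) (Fin m ⊕ Fin m) R := Matrix.fromCols (EE m R) (FF m R)

variable {m R}

theorem sumX (g : PX m → R) :
    ∑ x, g x = ∑ l, g (Sum.inl (Sum.inl l)) + ∑ l, g (Sum.inl (Sum.inr l))
      + (g (Sum.inr true) + g (Sum.inr false)) := by
  rw [Fintype.sum_sum_type, Fintype.sum_sum_type, Fintype.sum_bool]

theorem le_split (i l : Fin m) :
    (if i ≤ l then (1 : R) else 0) = (if i < l then 1 else 0) + (if i = l then 1 else 0) := by
  rcases lt_trichotomy i l with h | h | h
  · rw [if_pos h.le, if_pos h, if_neg h.ne, add_zero]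
  · subst h
    rw [if_pos le_rfl, if_neg (lt_irrefl i), if_pos rfl, zero_add]
  · rw [if_neg (not_le.2 h), if_neg (not_lt.2 h.le), if_neg h.ne', add_zero]

theorem tri (i j : Fin m) :
    (if i < j then (1 : R) else 0) + (if j < i then 1 else 0) + (if i = j then 1 else 0) = 1 := by
  rcases lt_trichotomy i j with h | h | h
  · rw [if_pos h, if_neg (lt_asymm h), if_neg h.ne, add_zero, add_zero]
  · subst h
    rw [if_neg (lt_irrefl i), if_pos rfl, add_zero, zero_add]
  · rw [if_neg (lt_asymm h), if_pos h, if_neg h.ne', add_zero, zero_add]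

theorem ite_eq_comm (i j : Fin m) :
    (if i = j then (1 : R) else 0) = if j = i then 1 else 0 := by
  rcases eq_or_ne i j with h | h
  · subst h
    rfl
  · rw [if_neg h, if_neg (Ne.symm h)]

theorem sum_dl (i : Fin m) (t : Fin m → R) :
    ∑ l, (if i = l then (1 : R) else 0) * t l = t i := by
  rw [Finset.sum_eq_single i]
  · rw [if_pos rfl, one_mul]
  · intro l _ hl
    rw [if_neg (Ne.symm hl), zero_mul]
  · intro h
    exact absurd (Finset.mem_univ _) h

theorem sum_dr (i : Fin m) (t : Fin m → R) :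
    ∑ l, t l * (if i = l then (1 : R) else 0) = t i := by
  rw [Finset.sum_eq_single i]
  · rw [if_pos rfl, mul_one]
  · intro l _ hl
    rw [if_neg (Ne.symm hl), mul_zero]
  · intro h
    exact absurd (Finset.mem_univ _) h

theorem sum_dl' (i : Fin m) (t : Fin m → R) :
    ∑ l, (if l = i then (1 : R) else 0) * t l = t i := by
  rw [Finset.sum_eq_single i]
  · rw [if_pos rfl, one_mul]
  · intro l _ hl
    rw [if_neg hl, zero_mul]
  · intro h
    exact absurd (Finset.mem_univ _) h

theorem sum_dr' (i : Fin m) (t : Fin m → R) :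
    ∑ l, t l * (if l = i then (1 : R) else 0) = t i := by
  rw [Finset.sum_eq_single i]
  · rw [if_pos rfl, mul_one]
  · intro l _ hl
    rw [if_neg hl, mul_zero]
  · intro h
    exact absurd (Finset.mem_univ _) h

theorem sum_one (i : Fin m) : ∑ l, (if i = l then (1 : R) else 0) = 1 := by
  rw [Finset.sum_eq_single i]
  · rw [if_pos rfl]
  · intro l _ hl
    rw [if_neg (Ne.symm hl)]
  · intro h
    exact absurd (Finset.mem_univ _) h

theorem sum_mz (t : Fin m → R) : ∑ j, t j * (0 : R) = 0 := by simp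

theorem sum_zm (t : Fin m → R) : ∑ j, (0 : R) * t j = 0 := by simp

theorem WW_colsum (h2 : (2 : R) = 0) (c : Fin m ⊕ Fin m) : ∑ x, WW m R x c = 0 := by
  rcases c with i | i
  · rw [sumX]
    show ∑ l, (if i = l then (1 : R) else 0) + ∑ l, (if i = l then (1 : R) else 0)
      + ((0 : R) + 0) = 0
    rw [sum_one]
    linear_combination h2
  · rw [sumX]
    show ∑ l, (if i < l then (1 : R) else 0) + ∑ l, (if i ≤ l then (1 : R) else 0)
      + ((1 : R) + 0) = 0
    have h : ∑ l, (if i ≤ l then (1 : R) else 0) = ∑ l, (if i < l then (1 : R) else 0) + 1 := by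
      have h0 : ∑ l, (if i ≤ l then (1 : R) else 0)
          = ∑ l, ((if i < l then (1 : R) else 0) + (if i = l then 1 else 0)) :=
        Finset.sum_congr rfl (fun l _ => le_split i l)
      rw [h0, Finset.sum_add_distrib, sum_one]
    rw [h]
    linear_combination (∑ l, (if i < l then (1 : R) else 0) + 1) * h2

theorem EtE (h2 : (2 : R) = 0) : (EE m R)ᵀ * EE m R = 0 := by
  ext i j
  show ∑ x, EE m R x i * EE m R x j = 0
  rw [sumX]
  show ∑ l, (if i = l then (1 : R) else 0) * (if j = l then 1 else 0)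
    + ∑ l, (if i = l then (1 : R) else 0) * (if j = l then 1 else 0) + ((0 : R) * 0 + 0 * 0) = 0
  linear_combination (∑ l, (if i = l then (1 : R) else 0) * (if j = l then 1 else 0)) * h2

theorem EtF (h2 : (2 : R) = 0) : (EE m R)ᵀ * FF m R = -1 := by
  ext i j
  show ∑ x, EE m R x i * FF m R x j = -(if i = j then (1 : R) else 0)
  rw [sumX]
  show ∑ l, (if i = l then (1 : R) else 0) * (if j < l then 1 else 0)
    + ∑ l, (if i = l then (1 : R) else 0) * (if j ≤ l then 1 else 0) + ((0 : R) * 1 + 0 * 0)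
    = -(if i = j then (1 : R) else 0)
  rw [sum_dl i (fun l => if j < l then (1 : R) else 0),
    sum_dl i (fun l => if j ≤ l then (1 : R) else 0), le_split j i, ite_eq_comm j i]
  linear_combination ((if j < i then (1 : R) else 0) + (if i = j then (1 : R) else 0)) * h2

theorem FtE (h2 : (2 : R) = 0) : (FF m R)ᵀ * EE m R = 1 := by
  ext i j
  show ∑ x, FF m R x i * EE m R x j = if i = j then (1 : R) else 0
  rw [sumX]
  show ∑ l, (if i < l then (1 : R) else 0) * (if j = l then 1 else 0)
    + ∑ l, (if i ≤ l then (1 : R) else 0) * (if j = l then 1 else 0) + ((1 : R) * 0 + 0 * 0)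
    = if i = j then (1 : R) else 0
  rw [sum_dr j (fun l => if i < l then (1 : R) else 0),
    sum_dr j (fun l => if i ≤ l then (1 : R) else 0), le_split i j]
  linear_combination (if i < j then (1 : R) else 0) * h2

theorem FtF (h2 : (2 : R) = 0) : (FF m R)ᵀ * FF m R = 0 := by
  ext i j
  show ∑ x, FF m R x i * FF m R x j = 0
  rw [sumX]
  show ∑ l, (if i < l then (1 : R) else 0) * (if j < l then 1 else 0)
    + ∑ l, (if i ≤ l then (1 : R) else 0) * (if j ≤ l then 1 else 0) + ((1 : R) * 1 + 0 * 0) = 0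
  have hB : ∑ l, (if i ≤ l then (1 : R) else 0) * (if j ≤ l then 1 else 0)
      = ∑ l, (if i < l then (1 : R) else 0) * (if j < l then 1 else 0)
        + (if i < j then (1 : R) else 0) + (if j < i then (1 : R) else 0)
        + (if i = j then (1 : R) else 0) := by
    have h0 : ∑ l, (if i ≤ l then (1 : R) else 0) * (if j ≤ l then 1 else 0)
        = ∑ l, ((if i < l then (1 : R) else 0) * (if j < l then 1 else 0)
          + (if i < l then (1 : R) else 0) * (if j = l then 1 else 0)
          + (if i = l then (1 : R) else 0) * (if j < l then 1 else 0)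
          + (if i = l then (1 : R) else 0) * (if j = l then 1 else 0)) := by
      refine Finset.sum_congr rfl (fun l _ => ?_)
      rw [le_split i l, le_split j l]
      ring
    rw [h0, Finset.sum_add_distrib, Finset.sum_add_distrib, Finset.sum_add_distrib,
      sum_dr j (fun l => if i < l then (1 : R) else 0),
      sum_dl i (fun l => if j < l then (1 : R) else 0),
      sum_dl i (fun l => if j = l then (1 : R) else 0), ite_eq_comm j i]
  rw [hB]
  linear_combination (∑ l, (if i < l then (1 : R) else 0) * (if j < l then 1 else 0) + 1) * h2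
    + tri (R := R) i j

theorem WW_gram (h2 : (2 : R) = 0) : (WW m R)ᵀ * WW m R = J (Fin m) R := by
  unfold WW
  rw [Matrix.transpose_fromCols, Matrix.fromRows_mul_fromCols, EtE h2, EtF h2, FtE h2, FtF h2]
  rfl

theorem WJW (y x : PX m) : (WW m R * J (Fin m) R * (WW m R)ᵀ) y x
    = ∑ j, FF m R y j * EE m R x j - ∑ j, EE m R y j * FF m R x j := by
  have h : WW m R * J (Fin m) R * (WW m R)ᵀ = FF m R * (EE m R)ᵀ - EE m R * (FF m R)ᵀ := by
    unfold WW Matrix.J
    rw [Matrix.fromCols_mul_fromBlocks, Matrix.transpose_fromCols, Matrix.fromCols_mul_fromRows]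
    simp only [Matrix.mul_zero, zero_add, Matrix.mul_one, Matrix.mul_neg, add_zero,
      Matrix.neg_mul]
    rw [sub_eq_add_neg]
  rw [h]
  rfl

theorem WW_F3 (h2 : (2 : R) = 0) (y x : PX m) :
    (WW m R * J (Fin m) R * (WW m R)ᵀ) y x
      = (if y = x then 1 else 0) + uu m R x + vv m R y := by
  rw [WJW, ← dlt_eq]
  rcases y with (k | k) | (_ | _)
  · rcases x with (l | l) | (_ | _)
    · show ∑ j, (if j < k then (1 : R) else 0) * (if j = l then 1 else 0)
        - ∑ j, (if j = k then (1 : R) else 0) * (if j < l then 1 else 0)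
        = (if k = l then (1 : R) else 0) + 1 + 0
      rw [sum_dr' l (fun j => if j < k then (1 : R) else 0),
        sum_dl' k (fun j => if j < l then (1 : R) else 0)]
      linear_combination tri (R := R) k l
        - ((if k < l then (1 : R) else 0) + (if k = l then (1 : R) else 0)) * h2
    · show ∑ j, (if j < k then (1 : R) else 0) * (if j = l then 1 else 0)
        - ∑ j, (if j = k then (1 : R) else 0) * (if j ≤ l then 1 else 0)
        = (0 : R) + 1 + 0
      rw [sum_dr' l (fun j => if j < k then (1 : R) else 0),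
        sum_dl' k (fun j => if j ≤ l then (1 : R) else 0), le_split k l]
      linear_combination tri (R := R) k l
        - ((if k < l then (1 : R) else 0) + (if k = l then (1 : R) else 0)) * h2
    · show ∑ j, (if j < k then (1 : R) else 0) * (0 : R)
        - ∑ j, (if j = k then (1 : R) else 0) * (0 : R)
        = (0 : R) + 0 + 0
      rw [sum_mz, sum_mz]
      ring
    · show ∑ j, (if j < k then (1 : R) else 0) * (0 : R)
        - ∑ j, (if j = k then (1 : R) else 0) * (1 : R)
        = (0 : R) + 1 + 0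
      rw [sum_mz, sum_dl' k (fun _ => (1 : R))]
      linear_combination (-1 : R) * h2
  · rcases x with (l | l) | (_ | _)
    · show ∑ j, (if j ≤ k then (1 : R) else 0) * (if j = l then 1 else 0)
        - ∑ j, (if j = k then (1 : R) else 0) * (if j < l then 1 else 0)
        = (0 : R) + 1 + 0
      rw [sum_dr' l (fun j => if j ≤ k then (1 : R) else 0),
        sum_dl' k (fun j => if j < l then (1 : R) else 0), le_split l k, ite_eq_comm l k]
      linear_combination tri (R := R) k l - (if k < l then (1 : R) else 0) * h2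
    · show ∑ j, (if j ≤ k then (1 : R) else 0) * (if j = l then 1 else 0)
        - ∑ j, (if j = k then (1 : R) else 0) * (if j ≤ l then 1 else 0)
        = (if k = l then (1 : R) else 0) + 1 + 0
      rw [sum_dr' l (fun j => if j ≤ k then (1 : R) else 0),
        sum_dl' k (fun j => if j ≤ l then (1 : R) else 0), le_split l k, le_split k l,
        ite_eq_comm l k]
      linear_combination tri (R := R) k l
        - ((if k < l then (1 : R) else 0) + (if k = l then (1 : R) else 0)) * h2
    · show ∑ j, (if j ≤ k then (1 : R) else 0) * (0 : R)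
        - ∑ j, (if j = k then (1 : R) else 0) * (0 : R)
        = (0 : R) + 0 + 0
      rw [sum_mz, sum_mz]
      ring
    · show ∑ j, (if j ≤ k then (1 : R) else 0) * (0 : R)
        - ∑ j, (if j = k then (1 : R) else 0) * (1 : R)
        = (0 : R) + 1 + 0
      rw [sum_mz, sum_dl' k (fun _ => (1 : R))]
      linear_combination (-1 : R) * h2
  · rcases x with (l | l) | (_ | _)
    · show ∑ j, (0 : R) * (if j = l then (1 : R) else 0)
        - ∑ j, (0 : R) * (if j < l then (1 : R) else 0)
        = (0 : R) + 1 + 1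
      rw [sum_zm, sum_zm]
      linear_combination (-1 : R) * h2
    · show ∑ j, (0 : R) * (if j = l then (1 : R) else 0)
        - ∑ j, (0 : R) * (if j ≤ l then (1 : R) else 0)
        = (0 : R) + 1 + 1
      rw [sum_zm, sum_zm]
      linear_combination (-1 : R) * h2
    · show ∑ j : Fin m, (0 : R) * (0 : R) - ∑ j : Fin m, (0 : R) * (0 : R)
        = (1 : R) + 0 + 1
      rw [sum_zm]
      linear_combination (-1 : R) * h2
    · show ∑ j : Fin m, (0 : R) * (0 : R) - ∑ j : Fin m, (0 : R) * (1 : R)
        = (0 : R) + 1 + 1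
      rw [sum_zm, sum_zm]
      linear_combination (-1 : R) * h2
  · rcases x with (l | l) | (_ | _)
    · show ∑ j, (1 : R) * (if j = l then (1 : R) else 0)
        - ∑ j, (0 : R) * (if j < l then (1 : R) else 0)
        = (0 : R) + 1 + 0
      rw [sum_dr' l (fun _ => (1 : R)), sum_zm]
      ring
    · show ∑ j, (1 : R) * (if j = l then (1 : R) else 0)
        - ∑ j, (0 : R) * (if j ≤ l then (1 : R) else 0)
        = (0 : R) + 1 + 0
      rw [sum_dr' l (fun _ => (1 : R)), sum_zm]
      ring
    · show ∑ j : Fin m, (1 : R) * (0 : R) - ∑ j : Fin m, (0 : R) * (0 : R)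
        = (0 : R) + 0 + 0
      rw [sum_mz, sum_zm]
      ring
    · show ∑ j : Fin m, (1 : R) * (0 : R) - ∑ j : Fin m, (0 : R) * (1 : R)
        = (1 : R) + 1 + 0
      rw [sum_mz, sum_zm]
      linear_combination (-1 : R) * h2

theorem card_PX (m : ℕ) : Fintype.card (PX m) = 2 * m + 2 := by
  rw [Fintype.card_sum, Fintype.card_sum, Fintype.card_fin, Fintype.card_bool]
  omega

/-- `S_{2m+2}` maps into `Sp_{2m}(R)` for `R` of characteristic 2, injectively if `m ≥ 2`. -/
theorem exists_hom (m : ℕ) (R : Type*) [CommRing R] [Nontrivial R] (h2 : (2 : R) = 0) :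
    ∃ f : Equiv.Perm (PX m) →* Matrix.symplecticGroup (Fin m) R,
      (2 ≤ m → Function.Injective f) :=
  ⟨spHom (WW m R) h2 (WW_gram h2) (WW_colsum h2) (uu m R) (vv m R) (WW_F3 h2),
   fun hm => spHom_injective _ _ _ _ _ _ _ (by rw [card_PX]; omega)⟩

theorem exists_hom_fin (n : ℕ) (hn : 3 ≤ n) (R : Type*) [CommRing R] [Nontrivial R]
    (h2 : (2 : R) = 0) :
    ∃ f : Equiv.Perm (Fin (2 * n)) →* Matrix.symplecticGroup (Fin (n - 1)) R,
      Function.Injective f := by
  obtain ⟨f, hf⟩ := exists_hom (n - 1) R h2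
  have hcard : Fintype.card (Fin (2 * n)) = Fintype.card (PX (n - 1)) := by
    rw [card_PX, Fintype.card_fin]
    omega
  refine ⟨f.comp (Equiv.permCongrHom (Fintype.equivOfCardEq hcard)).toMonoidHom, ?_⟩
  exact (hf (by omega)).comp (Equiv.permCongrHom (Fintype.equivOfCardEq hcard)).injective

end concrete

end Cfsg.Agent.Helper2.SymSp
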