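import Mathlib
import Cfsg.Prelude.Def_RootSubgroups
import Cfsg.Agent.Helper2.TvAbs
import Cfsg.Agent.Helper2.TvVec
import Cfsg.Agent.Helper2.RootInv

set_option autoImplicit false

/-!
The transvection subgroups of `SL_{n+3}(k)` form a non-degenerate class of `k`-root subgroups.
-/

namespace Cfsg.Agent.Helper2.TvSL

open Matrix Cfsg Cfsg.Agent.Helper2.TvAbs

variable {k : Type*} [Field k] {n : ℕ}

/-- the standard root group -/
def R0 (k : Type*) [Field k] (n : ℕ) : Subgroup (Matrix.SpecialLinearGroup (Fin (n + 3)) k) :=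
  Subgroup.closure {t : Matrix.SpecialLinearGroup (Fin (n + 3)) k |
    ∃ c : k, (t : Matrix (Fin (n + 3)) (Fin (n + 3)) k) = Matrix.transvection 0 1 c}

/-- the class of the statement -/
def S (k : Type*) [Field k] (n : ℕ) : Set (Subgroup (Matrix.SpecialLinearGroup (Fin (n + 3)) k)) :=
  {A | ∃ g : Matrix.SpecialLinearGroup (Fin (n + 3)) k, A = Cfsg.conjBy (R0 k n) g}

theorem X0_sq : (vecMulVec (Pi.single 0 1) (Pi.single 1 1) : Matrix (Fin (n + 3)) (Fin (n + 3)) k)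
    * vecMulVec (Pi.single 0 1) (Pi.single 1 1) = 0 :=
  vv_sq' (ei_ej RootInv.h01)

theorem X0_ne :
    (vecMulVec (Pi.single 0 1) (Pi.single 1 1) : Matrix (Fin (n + 3)) (Fin (n + 3)) k) ≠ 0 :=
  vv_ne_zero' (ei_ne 0) (ei_ne 1)

theorem hR0 : IsRG emSL (R0 k n) (vecMulVec (Pi.single 0 1) (Pi.single 1 1)) := by
  have e1 : ∀ c : k, Matrix.transvection (0 : Fin (n + 3)) 1 c
      = 1 + c • vecMulVec (Pi.single 0 1) (Pi.single 1 1) := by
    intro c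
    rw [Matrix.transvection, ← Matrix.single_eq_single_vecMulVec_single, Matrix.smul_single,
      smul_eq_mul, mul_one]
  have e : {t : Matrix.SpecialLinearGroup (Fin (n + 3)) k |
      ∃ c : k, (t : Matrix (Fin (n + 3)) (Fin (n + 3)) k) = Matrix.transvection 0 1 c}
      = ((rgSub emSL (vecMulVec (Pi.single 0 1) (Pi.single 1 1)) X0_sq :
          Subgroup (Matrix.SpecialLinearGroup (Fin (n + 3)) k)) :
            Set (Matrix.SpecialLinearGroup (Fin (n + 3)) k)) := by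
    ext t
    constructor
    · rintro ⟨c, hc⟩
      refine (rgSub_isRG emSL _ X0_sq t).2 ⟨c, ?_⟩
      rw [← e1]
      exact hc
    · intro ht
      obtain ⟨c, hc⟩ := (rgSub_isRG emSL _ X0_sq t).1 ht
      refine ⟨c, ?_⟩
      rw [e1]
      exact hc
  have e2 : R0 k n = rgSub emSL (vecMulVec (Pi.single 0 1) (Pi.single 1 1)) X0_sq := by
    unfold R0
    rw [e, Subgroup.closure_eq]
  rw [e2]
  exact rgSub_isRG _ _ _

theorem mem_S (A : Subgroup (Matrix.SpecialLinearGroup (Fin (n + 3)) k)) :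
    A ∈ S k n ↔ ∃ u φ : Fin (n + 3) → k, u ≠ 0 ∧ φ ≠ 0 ∧ φ ⬝ᵥ u = 0 ∧
      IsRG emSL A (vecMulVec u φ) := by
  constructor
  · rintro ⟨g, rfl⟩
    have h1 := rg_conj (hR0 (k := k) (n := n)) g
    have h2 : emSL g * vecMulVec (Pi.single 0 1) (Pi.single 1 1) * emSL g⁻¹
        = vecMulVec (emSL g *ᵥ Pi.single 0 1) (Pi.single 1 1 ᵥ* emSL g⁻¹) := by
      rw [Matrix.mul_vecMulVec, Matrix.vecMulVec_mul]
    have h3 := conj_sq (em := emSL) (X0_sq (k := k) (n := n)) g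
    have h4 := conj_ne (em := emSL) (X0_ne (k := k) (n := n)) g
    rw [h2] at h1 h3 h4
    obtain ⟨hu, hφ, h0⟩ := vv_data h4 h3
    exact ⟨_, _, hu, hφ, h0, h1⟩
  · rintro ⟨u, φ, hu, hφ, h0, hA⟩
    obtain ⟨g, hg⟩ := RootInv.norm_form u φ hu hφ h0
    refine ⟨g, ?_⟩
    have h1 := rg_conj (hR0 (k := k) (n := n)) g
    have h2 : emSL g * vecMulVec (Pi.single 0 1) (Pi.single 1 1) * emSL g⁻¹ = vecMulVec u φ := by
      rw [Matrix.transvection, add_mul, one_mul, mul_add, mul_one] at hg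
      have h3 : vecMulVec u φ * (g : Matrix (Fin (n + 3)) (Fin (n + 3)) k)
          = (g : Matrix (Fin (n + 3)) (Fin (n + 3)) k) * Matrix.single 0 1 1 := add_left_cancel hg
      have h4 : (g : Matrix (Fin (n + 3)) (Fin (n + 3)) k) * emSL g⁻¹ = 1 :=
        em_mul_inv (em := emSL) g
      rw [← Matrix.single_eq_single_vecMulVec_single]
      show (g : Matrix (Fin (n + 3)) (Fin (n + 3)) k) * Matrix.single 0 1 1 * emSL g⁻¹ = _
      rw [← h3, mul_assoc, h4, mul_one]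
    rw [h2] at h1
    exact rg_ext hA h1

theorem S_rg_mem (u φ : Fin (n + 3) → k) (hu : u ≠ 0) (hφ : φ ≠ 0) (h0 : φ ⬝ᵥ u = 0) :
    rgSub emSL (vecMulVec u φ) (vv_sq' h0) ∈ S k n :=
  (mem_S _).2 ⟨u, φ, hu, hφ, h0, rgSub_isRG _ _ _⟩

theorem pair_cases {A B : Subgroup (Matrix.SpecialLinearGroup (Fin (n + 3)) k)}
    {u φ v ψ : Fin (n + 3) → k} (hu : u ≠ 0) (hφ : φ ≠ 0) (hφu : φ ⬝ᵥ u = 0)
    (hA : IsRG emSL A (vecMulVec u φ)) (hψ : ψ ≠ 0) (hψv : ψ ⬝ᵥ v = 0)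
    (hB : IsRG emSL B (vecMulVec v ψ)) :
    (φ ⬝ᵥ v = 0 → ψ ⬝ᵥ u = 0 → ⁅A, B⁆ = ⊥) ∧
    (φ ⬝ᵥ v ≠ 0 → ψ ⬝ᵥ u = 0 → RootCommutatorCase (S k n) A B) ∧
    (φ ⬝ᵥ v ≠ 0 → ψ ⬝ᵥ u ≠ 0 → IsRankOnePair A B) := by
  have hXX := vv_sq' (k := k) hφu
  have hYY := vv_sq' (k := k) hψv
  refine ⟨?_, ?_, ?_⟩
  · intro hα hβ
    exact rg_commute emSL_inj hA hB (by rw [vv_mul', hα, zero_smul]) (by rw [vv_mul', hβ, zero_smul])
  · intro hα hβ
    have hYX : vecMulVec v ψ * vecMulVec u φ = 0 := by rw [vv_mul', hβ, zero_smul]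
    have hsq : vecMulVec u φ * vecMulVec v ψ * (vecMulVec u φ * vecMulVec v ψ) = 0 := by
      rw [mul_assoc, ← mul_assoc (vecMulVec v ψ) (vecMulVec u φ) (vecMulVec v ψ), hYX, zero_mul,
        mul_zero]
    have hC := rgSub_isRG (emSL (ι := Fin (n + 3)) (k := k)) _ hsq
    have hCS : rgSub emSL (vecMulVec u φ * vecMulVec v ψ) hsq ∈ S k n := by
      refine (mem_S _).2 ⟨(φ ⬝ᵥ v) • u, ψ, smul_ne_zero hα hu, hψ, ?_, ?_⟩
      · rw [dotProduct_smul, hβ, smul_zero]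
      · rw [Matrix.smul_vecMulVec, ← vv_mul']
        exact hC
    obtain ⟨h1, h2, h3, h4⟩ := comm_case emSL_inj hA hB hC (full_SL u φ hφu) (full_SL v ψ hψv)
      hXX hYY hYX
    refine ⟨?_, ?_, ?_, ?_⟩
    · rw [h1]; exact hCS
    · rw [h1]; exact h2
    · rw [h1]; exact h3
    · rw [h1]; exact h4
  · intro hα hβ
    exact rank_one_pair emSL_inj hA hB (full_SL u φ hφu) (full_SL v ψ hψv) hXX hYY
      (vv_ne_zero' hu hφ) (γ := (φ ⬝ᵥ v) * (ψ ⬝ᵥ u)) (mul_ne_zero hα hβ) (vv_triple u φ v ψ)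
      (by rw [vv_triple, mul_comm (ψ ⬝ᵥ u) (φ ⬝ᵥ v)])

theorem rop_imp {A B : Subgroup (Matrix.SpecialLinearGroup (Fin (n + 3)) k)}
    {u φ v ψ : Fin (n + 3) → k} (hu : u ≠ 0) (hφ : φ ≠ 0) (hφu : φ ⬝ᵥ u = 0)
    (hA : IsRG emSL A (vecMulVec u φ)) (hv : v ≠ 0) (hψ : ψ ≠ 0) (hψv : ψ ⬝ᵥ v = 0)
    (hB : IsRG emSL B (vecMulVec v ψ)) (hp : IsRankOnePair A B) :
    φ ⬝ᵥ v ≠ 0 ∧ ψ ⬝ᵥ u ≠ 0 := by
  have hXX := vv_sq' (k := k) hφu
  have hYY := vv_sq' (k := k) hψv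
  by_cases hα : φ ⬝ᵥ v = 0
  · by_cases hβ : ψ ⬝ᵥ u = 0
    · exfalso
      have hc := (pair_cases hu hφ hφu hA hψ hψv hB).1 hα hβ
      obtain ⟨a, ha⟩ := full_SL u φ hφu 1
      have haA : a ∈ A := (hA a).2 ⟨1, ha⟩
      have ha1 : a ≠ 1 := by
        intro h
        rw [h, map_one, one_smul] at ha
        exact vv_ne_zero' hu hφ (one_add_eq ha)
      exact not_rop_of_comm hc haA ha1 hp
    · exfalso
      have hXY : vecMulVec u φ * vecMulVec v ψ = 0 := by rw [vv_mul', hα, zero_smul]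
      have hYX : vecMulVec v ψ * vecMulVec u φ ≠ 0 := by
        rw [vv_mul']
        exact smul_ne_zero hβ (vv_ne_zero' hv hφ)
      exact not_cond_comm_case hB hA (full_SL v ψ hψv) hYY hXX hXY hYX hp.cond_right
  · by_cases hβ : ψ ⬝ᵥ u = 0
    · exfalso
      have hYX : vecMulVec v ψ * vecMulVec u φ = 0 := by rw [vv_mul', hβ, zero_smul]
      have hXY : vecMulVec u φ * vecMulVec v ψ ≠ 0 := by
        rw [vv_mul']
        exact smul_ne_zero hα (vv_ne_zero' hu hψ)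
      exact not_cond_comm_case hA hB (full_SL u φ hφu) hXX hYY hYX hXY hp.cond_left
    · exact ⟨hα, hβ⟩

theorem isRootSet : IsRootSubgroupSet (S k n) := by
  refine ⟨?_, ?_, ?_, ?_, ?_⟩
  · intro A hA
    obtain ⟨u, φ, hu, hφ, h0, hRG⟩ := (mem_S A).1 hA
    exact rg_comm emSL_inj hRG
  · intro A hA
    obtain ⟨u, φ, hu, hφ, h0, hRG⟩ := (mem_S A).1 hA
    exact rg_ne_bot hRG (full_SL u φ h0) (vv_ne_zero' hu hφ)
  · apply SLGen.eq_top_of_transvection_mem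
    intro i j hij a
    have hmem := S_rg_mem (k := k) (n := n) (Pi.single i 1) (Pi.single j 1) (ei_ne i) (ei_ne j)
      (ei_ej hij)
    have h1 : rgSub emSL (vecMulVec (Pi.single i 1) (Pi.single j 1)) (vv_sq' (ei_ej hij))
        ≤ ⨆ A ∈ S k n, A := le_iSup₂_of_le _ hmem le_rfl
    apply h1
    refine (rgSub_isRG emSL _ _ _).2 ⟨a, ?_⟩
    show (1 : Matrix (Fin (n + 3)) (Fin (n + 3)) k) + Matrix.single i j a = _
    rw [← Matrix.single_eq_single_vecMulVec_single, Matrix.smul_single, smul_eq_mul, mul_one]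
  · intro A hA g
    obtain ⟨g₁, rfl⟩ := hA
    exact ⟨g * g₁, conjBy_conjBy _ _ _⟩
  · intro A hA B hB
    obtain ⟨u, φ, hu, hφ, hφu, hRA⟩ := (mem_S A).1 hA
    obtain ⟨v, ψ, hv, hψ, hψv, hRB⟩ := (mem_S B).1 hB
    by_cases hα : φ ⬝ᵥ v = 0
    · by_cases hβ : ψ ⬝ᵥ u = 0
      · exact Or.inl ((pair_cases hu hφ hφu hRA hψ hψv hRB).1 hα hβ)
      · exact Or.inr (Or.inr (rcc_symm _ _ _
          ((pair_cases hv hψ hψv hRB hφ hφu hRA).2.1 hβ hα)))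
    · by_cases hβ : ψ ⬝ᵥ u = 0
      · exact Or.inr (Or.inr ((pair_cases hu hφ hφu hRA hψ hψv hRB).2.1 hα hβ))
      · exact Or.inr (Or.inl ((pair_cases hu hφ hφu hRA hψ hψv hRB).2.2 hα hβ))

theorem isConjClass : IsConjClassOfSubgroups (S k n) := by
  refine ⟨⟨_, S_rg_mem (Pi.single 0 1) (Pi.single 1 1) (ei_ne 0) (ei_ne 1) (ei_ej RootInv.h01)⟩, ?_⟩
  rintro A ⟨g₁, rfl⟩ B ⟨g₂, rfl⟩
  refine ⟨g₂ * g₁⁻¹, ?_⟩
  rw [conjBy_conjBy, inv_mul_cancel_right]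

theorem nondeg : IsNondegenerateRootSet (S k n) := by
  have h01 : (0 : Fin (n + 3)) ≠ 1 := RootInv.h01
  have h02 : (0 : Fin (n + 3)) ≠ 2 := RootInv.h20.symm
  have h12 : (1 : Fin (n + 3)) ≠ 2 := RootInv.h21.symm
  have hA := rgSub_isRG (emSL (ι := Fin (n + 3)) (k := k)) _
    (vv_sq' (u := Pi.single 0 1) (φ := Pi.single 1 1) (ei_ej h01))
  have hAS := S_rg_mem (k := k) (n := n) (Pi.single 0 1) (Pi.single 1 1) (ei_ne 0) (ei_ne 1)
    (ei_ej h01)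
  refine ⟨?_, ?_, ?_⟩
  · have hB := rgSub_isRG (emSL (ι := Fin (n + 3)) (k := k)) _
      (vv_sq' (u := Pi.single 0 1) (φ := Pi.single 2 1) (ei_ej h02))
    have hBS := S_rg_mem (k := k) (n := n) (Pi.single 0 1) (Pi.single 2 1) (ei_ne 0) (ei_ne 2)
      (ei_ej h02)
    refine ⟨_, hAS, _, hBS, ?_, ?_⟩
    · intro hAB
      obtain ⟨c, hc⟩ := rg_eq_imp hA hB (full_SL _ _ (ei_ej h01)) hAB
      have h := congrFun (congrFun hc 0) 1
      rw [Matrix.smul_apply, Matrix.vecMulVec_apply, Matrix.vecMulVec_apply, Pi.single_eq_same,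
        Pi.single_eq_same, Pi.single_eq_of_ne h12, mul_one, mul_zero, smul_zero] at h
      exact one_ne_zero h
    · exact (pair_cases (ei_ne 0) (ei_ne 1) (ei_ej h01) hA (ei_ne 2) (ei_ej h02) hB).1
        (ei_ej h01) (ei_ej h02)
  · have hB := rgSub_isRG (emSL (ι := Fin (n + 3)) (k := k)) _
      (vv_sq' (u := Pi.single 1 1) (φ := Pi.single 0 1) (ei_ej h01.symm))
    have hBS := S_rg_mem (k := k) (n := n) (Pi.single 1 1) (Pi.single 0 1) (ei_ne 1) (ei_ne 0)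
      (ei_ej h01.symm)
    refine ⟨_, hAS, _, hBS, ?_⟩
    refine (pair_cases (ei_ne 0) (ei_ne 1) (ei_ej h01) hA (ei_ne 0) (ei_ej h01.symm) hB).2.2 ?_ ?_
    · rw [ei_ei]; exact one_ne_zero
    · rw [ei_ei]; exact one_ne_zero
  · have hB := rgSub_isRG (emSL (ι := Fin (n + 3)) (k := k)) _
      (vv_sq' (u := Pi.single 1 1) (φ := Pi.single 2 1) (ei_ej h12))
    have hBS := S_rg_mem (k := k) (n := n) (Pi.single 1 1) (Pi.single 2 1) (ei_ne 1) (ei_ne 2)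
      (ei_ej h12)
    refine ⟨_, hAS, _, hBS, ?_⟩
    refine (pair_cases (ei_ne 0) (ei_ne 1) (ei_ej h01) hA (ei_ne 2) (ei_ej h12) hB).2.1 ?_ ?_
    · rw [ei_ei]; exact one_ne_zero
    · exact ei_ej h02

theorem kroot : IsKRootSubgroupSet k (S k n) := by
  refine ⟨isRootSet, ?_⟩
  intro A hA B hB hp
  obtain ⟨u, φ, hu, hφ, hφu, hRA⟩ := (mem_S A).1 hA
  obtain ⟨v, ψ, hv, hψ, hψv, hRB⟩ := (mem_S B).1 hB
  obtain ⟨hα, hβ⟩ := rop_imp hu hφ hφu hRA hv hψ hψv hRB hp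
  exact psl2_SL hRA hRB hφu hψv hα hβ

theorem connected : IsConnectedFamily (FAdj (S k n)) (S k n) := by
  intro A hA B hB
  obtain ⟨u, φ, hu, hφ, hφu, hRA⟩ := (mem_S A).1 hA
  obtain ⟨v, ψ, hv, hψ, hψv, hRB⟩ := (mem_S B).1 hB
  obtain ⟨w, hφw, hψw⟩ := exists_w φ ψ hφ hψ
  obtain ⟨χ, hχw, hχu, hχv⟩ := exists_chi u v w φ ψ hu hv hφu hψv hφw hψw
  have hw : w ≠ 0 := by
    intro h
    rw [h, dotProduct_zero] at hφw
    exact hφw rfl
  have hχ : χ ≠ 0 := by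
    intro h
    rw [h, zero_dotProduct] at hχu
    exact hχu rfl
  have hC := rgSub_isRG (emSL (ι := Fin (n + 3)) (k := k)) _ (vv_sq' hχw)
  have hCS := S_rg_mem (k := k) (n := n) w χ hw hχ hχw
  have h1 : FAdj (S k n) A (rgSub emSL (vecMulVec w χ) (vv_sq' hχw)) :=
    ⟨hA, hCS, (pair_cases hu hφ hφu hRA hχ hχw hC).2.2 hφw hχu⟩
  have h2 : FAdj (S k n) (rgSub emSL (vecMulVec w χ) (vv_sq' hχw)) B :=
    ⟨hCS, hB, (pair_cases hw hχ hχw hC hψ hψv hRB).2.2 hχv hψw⟩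
  exact Relation.ReflTransGen.tail (Relation.ReflTransGen.single h1) h2

theorem main (k : Type*) [Field k] (n : ℕ) :
    IsRootSubgroupClass (S k n) ∧ IsNondegenerateRootSet (S k n) ∧ IsKRootSubgroupSet k (S k n) ∧
      IsConnectedFamily (FAdj (S k n)) (S k n) :=
  ⟨⟨isRootSet, isConjClass⟩, nondeg, kroot, connected⟩

end Cfsg.Agent.Helper2.TvSL
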