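import Mathlib
import Cfsg.Prelude.Def_RootSubgroups
import Cfsg.Prelude.Def_Classical
import Cfsg.Agent.Helper2.TvAbs
import Cfsg.Agent.Helper2.TvVec
import Cfsg.Agent.Helper2.TvAbs2
import Cfsg.Agent.Helper2.TvAlg
import Cfsg.Agent.Helper2.TvAlg2
import Cfsg.Agent.Helper2.SpEmbed
import Cfsg.Agent.Helper8.SUBasic
import Cfsg.Agent.S0285

set_option autoImplicit false

/-!
The unitary transvection subgroups `T(p)` (`p` isotropic) of `SU_{n+2}(q)` form, inside the group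
they generate, a degenerate class of `F_q`-root subgroups.
-/

namespace Cfsg.Agent.Helper2.TvSU

open Matrix Cfsg Cfsg.Agent.Helper2.TvAlg
open Cfsg.Agent.Helper8.SULag (QF qf_of_card frob frob_apply h_add_left h_smul_left h_add_right
  h_smul_right h_conj h_nondeg h_symm0 exists_skew exists_sub_frob dot_eq h_zero_left h_sub_left)
open Cfsg.Agent.Helper2.TvAbs (vv_mul' vv_sq' vv_triple vv_ne_zero' vv_mulVec' Emat Fmat FE_eq_one
  E_single01 E_single10 det_tv emSL not_rop_of_comm)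

/-! ### finite fields -/

theorem fixed_in_range {L F : Type*} [Field L] [Fintype L] [Field F] (f : L →+* F) {q : ℕ}
    (hL : Fintype.card L = q) (hq : 1 < q) (x : F) (hx : x ^ q = x) : ∃ c : L, f c = x := by
  classical
  by_contra hne
  have hne' : ∀ c : L, f c ≠ x := fun c hc => hne ⟨c, hc⟩
  have hP0 : (Polynomial.X ^ q - Polynomial.X : Polynomial F) ≠ 0 :=
    FiniteField.X_pow_card_sub_X_ne_zero F hq
  have hdeg : (Polynomial.X ^ q - Polynomial.X : Polynomial F).natDegree = q :=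
    FiniteField.X_pow_card_sub_X_natDegree_eq F hq
  have hroot : ∀ y : F, y ^ q = y →
      y ∈ (Polynomial.X ^ q - Polynomial.X : Polynomial F).roots := by
    intro y hy
    rw [Polynomial.mem_roots hP0, Polynomial.IsRoot.def, Polynomial.eval_sub, Polynomial.eval_pow,
      Polynomial.eval_X, hy, sub_self]
  have hsub : insert x (Finset.univ.image f)
      ⊆ (Polynomial.X ^ q - Polynomial.X : Polynomial F).roots.toFinset := by
    intro y hy
    rw [Multiset.mem_toFinset]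
    rcases Finset.mem_insert.1 hy with h | h
    · rw [h]; exact hroot _ hx
    · obtain ⟨c, -, hc⟩ := Finset.mem_image.1 h
      rw [← hc]
      apply hroot
      rw [← map_pow, ← hL, FiniteField.pow_card]
  have hcard : (insert x (Finset.univ.image f)).card = q + 1 := by
    rw [Finset.card_insert_of_notMem, Finset.card_image_of_injective _ f.injective,
      Finset.card_univ, hL]
    intro hx'
    obtain ⟨c, -, hc⟩ := Finset.mem_image.1 hx'
    exact hne' c hc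
  have h1 := Finset.card_le_card hsub
  have h2 : (Polynomial.X ^ q - Polynomial.X : Polynomial F).roots.toFinset.card ≤ q :=
    (Multiset.toFinset_card_le _).trans ((Polynomial.card_roots' _).trans hdeg.le)
  omega

/-! ### the Hermitian form and the matrices `Xp` -/

section Herm
variable {F : Type*} [Field F] {N q : ℕ}

/-- rank one matrix of `v ↦ h(v, p) p` -/
def Xp (q : ℕ) (p : Fin N → F) : Matrix (Fin N) (Fin N) F := vecMulVec p (fun j => p j ^ q)

theorem Xp_mulVec (p x : Fin N → F) : Xp q p *ᵥ x = Cfsg.hermForm N F q x p • p := by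
  unfold Xp
  rw [vv_mulVec', dot_eq]

theorem Xp_sq {p : Fin N → F} (hp : Cfsg.hermForm N F q p p = 0) : Xp q p * Xp q p = 0 :=
  vv_sq' (by rw [dot_eq]; exact hp)

theorem Xp_ne (hq : QF F q) {p : Fin N → F} (hp : p ≠ 0) : Xp q p ≠ 0 := by
  apply vv_ne_zero' hp
  intro h
  apply hp
  funext j
  have h1 := congrFun h j
  exact (pow_eq_zero_iff hq.q0).1 h1

theorem Xp_mul (p p' : Fin N → F) :
    Xp q p * Xp q p' = Cfsg.hermForm N F q p' p • vecMulVec p (fun j => p' j ^ q) := by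
  unfold Xp
  rw [vv_mul', dot_eq]

theorem Xp_triple (p p' : Fin N → F) :
    Xp q p * Xp q p' * Xp q p
      = (Cfsg.hermForm N F q p' p * Cfsg.hermForm N F q p p') • Xp q p := by
  unfold Xp
  rw [vv_triple, dot_eq, dot_eq]

/-- matrix of an element of `SU` -/
def emSU (N : ℕ) (F : Type*) [Field F] (q : ℕ) :
    ↥(Cfsg.SU N F q) →* Matrix (Fin N) (Fin N) F :=
  (emSL).comp (Cfsg.SU N F q).subtype

theorem emSU_inj : Function.Injective (emSU N F q) :=
  fun _ _ h => Subtype.ext (Subtype.ext h)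

theorem su_pres (g : ↥(Cfsg.SU N F q)) (u v : Fin N → F) :
    Cfsg.hermForm N F q (emSU N F q g *ᵥ u) (emSU N F q g *ᵥ v) = Cfsg.hermForm N F q u v :=
  g.2 u v

/-- matrix of an element of a subgroup of `SU` -/
def emG (G₀ : Subgroup ↥(Cfsg.SU N F q)) : ↥G₀ →* Matrix (Fin N) (Fin N) F :=
  (emSU N F q).comp G₀.subtype

theorem emG_inj (G₀ : Subgroup ↥(Cfsg.SU N F q)) : Function.Injective (emG G₀) :=
  fun _ _ h => Subtype.ext (emSU_inj h)

theorem tv_comp (p : Fin N → F) (a : F) (x : Fin N → F) :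
    (1 + a • Xp q p) *ᵥ x = x + (a * Cfsg.hermForm N F q x p) • p := by
  rw [Matrix.add_mulVec, Matrix.one_mulVec, Matrix.smul_mulVec, Xp_mulVec, smul_smul]

theorem tv_pres (hq : QF F q) (p : Fin N → F) (hp : Cfsg.hermForm N F q p p = 0) (a : F)
    (ha : frob hq a = -a) (u v : Fin N → F) :
    Cfsg.hermForm N F q ((1 + a • Xp q p) *ᵥ u) ((1 + a • Xp q p) *ᵥ v)
      = Cfsg.hermForm N F q u v := by
  rw [tv_comp, tv_comp]
  simp only [h_add_left, h_add_right hq, h_smul_left, h_smul_right hq, map_mul, h_conj hq, ha,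
    hp, mul_zero, add_zero]
  ring

/-- the unitary transvection as an element of `SU` -/
def tvSU (hq : QF F q) (p : Fin N → F) (hp : Cfsg.hermForm N F q p p = 0) (a : F)
    (ha : frob hq a = -a) : ↥(Cfsg.SU N F q) :=
  ⟨⟨1 + a • Xp q p, det_tv p _ (by rw [dot_eq]; exact hp) a⟩, by
    intro u v
    exact tv_pres hq p hp a ha u v⟩

theorem emSU_tvSU (hq : QF F q) (p : Fin N → F) (hp : Cfsg.hermForm N F q p p = 0) (a : F)
    (ha : frob hq a = -a) : emSU N F q (tvSU hq p hp a ha) = 1 + a • Xp q p := rfl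

theorem exists_one (hq : QF F q) {p : Fin N → F} (hp : p ≠ 0) :
    ∃ v₀ : Fin N → F, Cfsg.hermForm N F q v₀ p = 1 := by
  have h1 : ∃ y : Fin N → F, Cfsg.hermForm N F q p y ≠ 0 := by
    by_contra hcon
    apply hp
    apply h_nondeg hq
    intro y
    by_contra hy
    exact hcon ⟨y, hy⟩
  obtain ⟨y, hy⟩ := h1
  have h2 : Cfsg.hermForm N F q y p ≠ 0 := fun h => hy (h_symm0 hq h)
  refine ⟨(Cfsg.hermForm N F q y p)⁻¹ • y, ?_⟩
  rw [h_smul_left, inv_mul_cancel₀ h2]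

theorem gen_iff (hq : QF F q) {p : Fin N → F} (hp0 : p ≠ 0)
    (hp : Cfsg.hermForm N F q p p = 0) (g : ↥(Cfsg.SU N F q)) :
    ((∀ v : Fin N → F, ∃ c : F, ((g : Matrix.SpecialLinearGroup (Fin N) F) :
        Matrix (Fin N) (Fin N) F) *ᵥ v = v + c • p) ∧
      ∀ v : Fin N → F, Cfsg.hermForm N F q v p = 0 →
        ((g : Matrix.SpecialLinearGroup (Fin N) F) : Matrix (Fin N) (Fin N) F) *ᵥ v = v)
    ↔ ∃ a : F, frob hq a = -a ∧ emSU N F q g = 1 + a • Xp q p := by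
  constructor
  · rintro ⟨h1, h2⟩
    have h1' : ∀ v : Fin N → F, ∃ c : F, emSU N F q g *ᵥ v = v + c • p := h1
    have h2' : ∀ v : Fin N → F, Cfsg.hermForm N F q v p = 0 → emSU N F q g *ᵥ v = v := h2
    obtain ⟨v₀, hv₀⟩ := exists_one hq hp0
    obtain ⟨a, ha⟩ := h1' v₀
    have hM : ∀ v : Fin N → F,
        emSU N F q g *ᵥ v = v + (a * Cfsg.hermForm N F q v p) • p := by
      intro v
      have hw : Cfsg.hermForm N F q (v - Cfsg.hermForm N F q v p • v₀) p = 0 := by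
        rw [h_sub_left, h_smul_left, hv₀, mul_one, sub_self]
      have h3 := h2' _ hw
      have h4 : v = (v - Cfsg.hermForm N F q v p • v₀) + Cfsg.hermForm N F q v p • v₀ := by
        rw [sub_add_cancel]
      calc emSU N F q g *ᵥ v
          = emSU N F q g *ᵥ ((v - Cfsg.hermForm N F q v p • v₀)
              + Cfsg.hermForm N F q v p • v₀) := by rw [← h4]
        _ = (v - Cfsg.hermForm N F q v p • v₀) + Cfsg.hermForm N F q v p • (v₀ + a • p) := by
            rw [Matrix.mulVec_add, Matrix.mulVec_smul, h3, ha]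
        _ = v + (a * Cfsg.hermForm N F q v p) • p := by
            rw [smul_add, smul_smul, mul_comm (Cfsg.hermForm N F q v p) a]; abel
    have hmat : emSU N F q g = 1 + a • Xp q p := by
      apply Matrix.toLin'.injective
      apply LinearMap.ext
      intro v
      rw [Matrix.toLin'_apply, Matrix.toLin'_apply, hM v, tv_comp]
    refine ⟨a, ?_, hmat⟩
    have h5 := su_pres g v₀ v₀
    rw [hM v₀, hv₀, mul_one] at h5
    have hpv : Cfsg.hermForm N F q p v₀ = 1 := by rw [← h_conj hq v₀ p, hv₀, map_one]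
    simp only [h_add_left, h_add_right hq, h_smul_left, h_smul_right hq, hv₀, hpv, hp, mul_zero,
      add_zero, mul_one] at h5
    linear_combination h5
  · rintro ⟨a, ha, hmat⟩
    have hM : ∀ v : Fin N → F,
        emSU N F q g *ᵥ v = v + (a * Cfsg.hermForm N F q v p) • p := by
      intro v; rw [hmat, tv_comp]
    constructor
    · intro v; exact ⟨_, hM v⟩
    · intro v hv
      have h3 := hM v
      rw [hv, mul_zero, zero_smul, add_zero] at h3
      exact h3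

theorem conj_Xp (g : ↥(Cfsg.SU N F q)) (p : Fin N → F) :
    emSU N F q g * Xp q p * emSU N F q g⁻¹ = Xp q (emSU N F q g *ᵥ p) := by
  have key : (fun j => p j ^ q) ᵥ* emSU N F q g⁻¹ = fun j => (emSU N F q g *ᵥ p) j ^ q := by
    have hext : ∀ x y : Fin N → F,
        (∀ j, x ⬝ᵥ Pi.single j 1 = y ⬝ᵥ Pi.single j 1) → x = y := by
      intro x y h
      funext j
      have h1 := h j
      rw [dotProduct_single, dotProduct_single, mul_one, mul_one] at h1
      exact h1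
    apply hext
    intro j
    rw [← Matrix.dotProduct_mulVec, dot_eq, dot_eq,
      ← su_pres g (emSU N F q g⁻¹ *ᵥ Pi.single j 1) p, Matrix.mulVec_mulVec, em_mul_inv,
      Matrix.one_mulVec]
  unfold Xp
  rw [Matrix.mul_vecMulVec, Matrix.vecMulVec_mul, key]

theorem iso1 (hq : QF F q) {p : Fin N → F} (hp0 : p ≠ 0) (hp : Cfsg.hermForm N F q p p = 0) :
    ∃ r : Fin N → F, Cfsg.hermForm N F q r r = 0 ∧ Cfsg.hermForm N F q r p ≠ 0 := by
  obtain ⟨v₀, hv₀⟩ := exists_one hq hp0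
  have hpv : Cfsg.hermForm N F q p v₀ = 1 := by rw [← h_conj hq v₀ p, hv₀, map_one]
  obtain ⟨μ, hμ0, hμ⟩ := exists_skew hq
  have hd : frob hq (Cfsg.hermForm N F q v₀ v₀) = Cfsg.hermForm N F q v₀ v₀ := h_conj hq v₀ v₀
  have hc : frob hq (μ * Cfsg.hermForm N F q v₀ v₀) = -(μ * Cfsg.hermForm N F q v₀ v₀) := by
    rw [map_mul, hμ, hd, neg_mul]
  obtain ⟨z, hz⟩ := exists_sub_frob hq _ hc
  have hl : (-z / μ) + frob hq (-z / μ) = -(Cfsg.hermForm N F q v₀ v₀) := by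
    have hz' : frob hq z = z - μ * Cfsg.hermForm N F q v₀ v₀ := by rw [← hz]; ring
    rw [map_div₀, map_neg, hμ, neg_div_neg_eq, ← add_div, hz']
    have e : -z + (z - μ * Cfsg.hermForm N F q v₀ v₀)
        = μ * (-(Cfsg.hermForm N F q v₀ v₀)) := by ring
    rw [e, mul_div_cancel_left₀ _ hμ0]
  refine ⟨v₀ + (-z / μ) • p, ?_, ?_⟩
  · have e : Cfsg.hermForm N F q (v₀ + (-z / μ) • p) (v₀ + (-z / μ) • p)
        = Cfsg.hermForm N F q v₀ v₀ + ((-z / μ) + frob hq (-z / μ)) := by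
      simp only [h_add_left, h_add_right hq, h_smul_left, h_smul_right hq, hv₀, hpv, hp,
        mul_zero, add_zero, mul_one]
      ring
    rw [e, hl, add_neg_cancel]
  · rw [h_add_left, h_smul_left, hv₀, hp, mul_zero, add_zero]
    exact one_ne_zero

theorem iso2 (hq : QF F q) {p p' : Fin N → F} (hp0 : p ≠ 0)
    (hp : Cfsg.hermForm N F q p p = 0) (hp0' : p' ≠ 0) (hp' : Cfsg.hermForm N F q p' p' = 0) :
    ∃ r : Fin N → F, Cfsg.hermForm N F q r r = 0 ∧ Cfsg.hermForm N F q r p ≠ 0 ∧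
      Cfsg.hermForm N F q r p' ≠ 0 := by
  obtain ⟨r₁, h11, h1p⟩ := iso1 hq hp0 hp
  obtain ⟨r₂, h22, h2p⟩ := iso1 hq hp0' hp'
  by_cases h3 : Cfsg.hermForm N F q r₁ p' = 0
  · by_cases h4 : Cfsg.hermForm N F q r₂ p = 0
    · by_cases h5 : Cfsg.hermForm N F q r₂ r₁ = 0
      · have h5' : Cfsg.hermForm N F q r₁ r₂ = 0 := h_symm0 hq h5
        refine ⟨r₁ + r₂, ?_, ?_, ?_⟩
        · simp only [h_add_left, h_add_right hq, h11, h22, h5, h5', add_zero]
        · rw [h_add_left, h4, add_zero]; exact h1p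
        · rw [h_add_left, h3, zero_add]; exact h2p
      · obtain ⟨μ, hμ0, hμ⟩ := exists_skew hq
        have h5' : Cfsg.hermForm N F q r₁ r₂ ≠ 0 := fun h => h5 (h_symm0 hq h)
        have hfc : frob hq (Cfsg.hermForm N F q r₂ r₁) = Cfsg.hermForm N F q r₁ r₂ :=
          h_conj hq r₂ r₁
        refine ⟨r₁ + (μ / Cfsg.hermForm N F q r₂ r₁) • r₂, ?_, ?_, ?_⟩
        · have e : Cfsg.hermForm N F q (r₁ + (μ / Cfsg.hermForm N F q r₂ r₁) • r₂)
              (r₁ + (μ / Cfsg.hermForm N F q r₂ r₁) • r₂)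
              = frob hq (μ / Cfsg.hermForm N F q r₂ r₁) * Cfsg.hermForm N F q r₁ r₂
                + (μ / Cfsg.hermForm N F q r₂ r₁) * Cfsg.hermForm N F q r₂ r₁ := by
            simp only [h_add_left, h_add_right hq, h_smul_left, h_smul_right hq, h11, h22,
              mul_zero, add_zero, zero_add]
            ring
          rw [e, map_div₀, hμ, hfc, div_mul_cancel₀ _ h5', div_mul_cancel₀ _ h5, neg_add_cancel]
        · rw [h_add_left, h_smul_left, h4, mul_zero, add_zero]; exact h1p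
        · rw [h_add_left, h_smul_left, h3, zero_add]
          exact mul_ne_zero (div_ne_zero hμ0 h5) h2p
    · exact ⟨r₂, h22, h4, h2p⟩
  · exact ⟨r₁, h11, h1p, h3⟩

/-! ### the fixed field `L` and the subgroups `T(p)` -/

theorem field_aux1 {μ a b : F} (hμ : μ ≠ 0) (ha : a ≠ 0) (hb : b ≠ 0) :
    (μ * a * b)⁻¹ = (μ * μ * (b * a))⁻¹ * μ := by
  apply inv_eq_of_mul_eq_one_right
  calc μ * a * b * ((μ * μ * (b * a))⁻¹ * μ)
      = (μ * μ * (b * a)) * (μ * μ * (b * a))⁻¹ := by ring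
    _ = 1 := mul_inv_cancel₀ (mul_ne_zero (mul_ne_zero hμ hμ) (mul_ne_zero hb ha))

theorem field_aux2 {μ a : F} (ha : a ≠ 0) : a⁻¹ * (μ * a) = μ := by
  rw [mul_comm μ a, ← mul_assoc, inv_mul_cancel₀ ha, one_mul]

/-- `L` is (identified with) the fixed field of the Frobenius, `μ` is a non-zero skew element -/
structure LDat (hq : QF F q) (L : Type*) [Field L] [Algebra L F] (μ : F) : Prop where
  fix : ∀ c : L, frob hq (algebraMap L F c) = algebraMap L F c
  surj : ∀ x : F, frob hq x = x → ∃ c : L, algebraMap L F c = x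
  mu0 : μ ≠ 0
  mu : frob hq μ = -μ

variable {L : Type*} [Field L] [Algebra L F]

theorem skew_iff {hq : QF F q} {μ : F} (D : LDat hq L μ) (a : F) :
    frob hq a = -a ↔ ∃ c : L, a = algebraMap L F c * μ := by
  constructor
  · intro ha
    have h1 : frob hq (a / μ) = a / μ := by
      rw [map_div₀, ha, D.mu, neg_div_neg_eq]
    obtain ⟨c, hc⟩ := D.surj _ h1
    exact ⟨c, by rw [hc, div_mul_cancel₀ _ D.mu0]⟩
  · rintro ⟨c, rfl⟩
    rw [map_mul, D.fix, D.mu, mul_neg]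

theorem lsmul (c : L) (μ : F) (X : Matrix (Fin N) (Fin N) F) :
    c • (μ • X) = (algebraMap L F c * μ) • X := by
  rw [← algebraMap_smul F c (μ • X), smul_smul]

/-- the transvection subgroup `T(p)`, as in the statement -/
def Tp (F : Type*) [Field F] (q N : ℕ) (p : Fin N → F) : Subgroup ↥(Cfsg.SU N F q) :=
  Subgroup.closure {g : ↥(Cfsg.SU N F q) |
    (∀ v : Fin N → F, ∃ c : F, ((g : Matrix.SpecialLinearGroup (Fin N) F) :
      Matrix (Fin N) (Fin N) F) *ᵥ v = v + c • p) ∧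
    ∀ v : Fin N → F, Cfsg.hermForm N F q v p = 0 →
      ((g : Matrix.SpecialLinearGroup (Fin N) F) : Matrix (Fin N) (Fin N) F) *ᵥ v = v}

theorem hT {hq : QF F q} {μ : F} (D : LDat hq L μ) {p : Fin N → F} (hp0 : p ≠ 0)
    (hp : Cfsg.hermForm N F q p p = 0) :
    IsRG L (emSU N F q) (Tp F q N p) (μ • Xp q p) := by
  have hsq : (μ • Xp q p) * (μ • Xp q p) = 0 := TvAlg.smul_sq (Xp_sq hp) μ
  have hset : {g : ↥(Cfsg.SU N F q) |
      (∀ v : Fin N → F, ∃ c : F, ((g : Matrix.SpecialLinearGroup (Fin N) F) :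
        Matrix (Fin N) (Fin N) F) *ᵥ v = v + c • p) ∧
      ∀ v : Fin N → F, Cfsg.hermForm N F q v p = 0 →
        ((g : Matrix.SpecialLinearGroup (Fin N) F) : Matrix (Fin N) (Fin N) F) *ᵥ v = v}
      = ((rgSub L (emSU N F q) (μ • Xp q p) hsq : Subgroup ↥(Cfsg.SU N F q)) :
          Set ↥(Cfsg.SU N F q)) := by
    ext g
    constructor
    · intro hg
      obtain ⟨a, ha, hmat⟩ := (gen_iff hq hp0 hp g).1 hg
      obtain ⟨c, hc⟩ := (skew_iff D a).1 ha
      exact (rgSub_isRG L (emSU N F q) _ hsq g).2 ⟨c, by rw [hmat, hc, lsmul]⟩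
    · intro hg
      obtain ⟨c, hc⟩ := (rgSub_isRG L (emSU N F q) _ hsq g).1 hg
      exact (gen_iff hq hp0 hp g).2
        ⟨algebraMap L F c * μ, (skew_iff D _).2 ⟨c, rfl⟩, by rw [hc, lsmul]⟩
  have hT' : Tp F q N p = rgSub L (emSU N F q) (μ • Xp q p) hsq := by
    unfold Tp
    rw [hset, Subgroup.closure_eq]
  rw [hT']
  exact rgSub_isRG L (emSU N F q) (μ • Xp q p) hsq

/-- the set of transvection subgroups in `SU` -/
def Sig0 (F : Type*) [Field F] (q N : ℕ) : Set (Subgroup ↥(Cfsg.SU N F q)) :=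
  {A | ∃ p : Fin N → F, p ≠ 0 ∧ Cfsg.hermForm N F q p p = 0 ∧ A = Tp F q N p}

/-- the group generated by the transvection subgroups -/
def G0 (F : Type*) [Field F] (q N : ℕ) : Subgroup ↥(Cfsg.SU N F q) := ⨆ B ∈ Sig0 F q N, B

/-- the set of transvection subgroups inside `G0` -/
def Sig (F : Type*) [Field F] (q N : ℕ) : Set (Subgroup ↥(G0 F q N)) :=
  (fun A : Subgroup ↥(Cfsg.SU N F q) => A.subgroupOf (G0 F q N)) '' Sig0 F q N

theorem rg_subgroupOf {G₀ A : Subgroup ↥(Cfsg.SU N F q)} {X : Matrix (Fin N) (Fin N) F}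
    (hA : IsRG L (emSU N F q) A X) : IsRG L (emG G₀) (A.subgroupOf G₀) X := by
  intro t
  rw [Subgroup.mem_subgroupOf]
  exact hA (t : ↥(Cfsg.SU N F q))

theorem mem_Sig {hq : QF F q} {μ : F} (D : LDat hq L μ) (B' : Subgroup ↥(G0 F q N)) :
    B' ∈ Sig F q N ↔ ∃ p : Fin N → F, p ≠ 0 ∧ Cfsg.hermForm N F q p p = 0 ∧
      IsRG L (emG (G0 F q N)) B' (μ • Xp q p) := by
  constructor
  · rintro ⟨A, ⟨p, hp0, hp, rfl⟩, rfl⟩
    exact ⟨p, hp0, hp, rg_subgroupOf (hT D hp0 hp)⟩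
  · rintro ⟨p, hp0, hp, hRG⟩
    refine ⟨Tp F q N p, ⟨p, hp0, hp, rfl⟩, ?_⟩
    exact rg_ext (rg_subgroupOf (hT D hp0 hp)) hRG

theorem full_G0 {hq : QF F q} {μ : F} (D : LDat hq L μ) {p : Fin N → F} (hp0 : p ≠ 0)
    (hp : Cfsg.hermForm N F q p p = 0) : Full L (emG (G0 F q N)) (μ • Xp q p) := by
  intro c
  have hsk : frob hq (algebraMap L F c * μ) = -(algebraMap L F c * μ) :=
    (skew_iff D _).2 ⟨c, rfl⟩
  have hem : emSU N F q (tvSU hq p hp _ hsk) = 1 + c • (μ • Xp q p) := by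
    rw [emSU_tvSU, lsmul]
  have hmemT : tvSU hq p hp _ hsk ∈ Tp F q N p := (hT D hp0 hp _).2 ⟨c, hem⟩
  have hle : Tp F q N p ≤ ⨆ B ∈ Sig0 F q N, B :=
    le_iSup₂_of_le (Tp F q N p) ⟨p, hp0, hp, rfl⟩ le_rfl
  exact ⟨⟨_, hle hmemT⟩, hem⟩

theorem conj_mu (G₀ : Subgroup ↥(Cfsg.SU N F q)) (g : ↥G₀) (μ : F) (p : Fin N → F) :
    emG G₀ g * (μ • Xp q p) * emG G₀ g⁻¹ = μ • Xp q (emG G₀ g *ᵥ p) := by
  have h := conj_Xp (g : ↥(Cfsg.SU N F q)) p
  have h' : emG G₀ g * Xp q p * emG G₀ g⁻¹ = Xp q (emG G₀ g *ᵥ p) := h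
  rw [mul_smul_comm, smul_mul_assoc, h']

theorem gp_ne (G₀ : Subgroup ↥(Cfsg.SU N F q)) (g : ↥G₀) {p : Fin N → F} (hp : p ≠ 0) :
    emG G₀ g *ᵥ p ≠ 0 := by
  intro h
  apply hp
  have h1 : (emG G₀ g⁻¹ * emG G₀ g) *ᵥ p = 0 := by
    rw [← Matrix.mulVec_mulVec, h, Matrix.mulVec_zero]
  rw [em_inv_mul, Matrix.one_mulVec] at h1
  exact h1

theorem gp_iso (G₀ : Subgroup ↥(Cfsg.SU N F q)) (g : ↥G₀) {p : Fin N → F}
    (hp : Cfsg.hermForm N F q p p = 0) :
    Cfsg.hermForm N F q (emG G₀ g *ᵥ p) (emG G₀ g *ᵥ p) = 0 := by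
  have h := su_pres (g : ↥(Cfsg.SU N F q)) p p
  rw [hp] at h
  exact h

theorem exists_gamma {hq : QF F q} {μ : F} (D : LDat hq L μ) (p p' : Fin N → F)
    (h : Cfsg.hermForm N F q p' p ≠ 0) :
    ∃ γ : L, γ ≠ 0 ∧ algebraMap L F γ
      = μ * μ * (Cfsg.hermForm N F q p' p * Cfsg.hermForm N F q p p') := by
  have h' : Cfsg.hermForm N F q p p' ≠ 0 := fun h0 => h (h_symm0 hq h0)
  have hfix : frob hq (μ * μ * (Cfsg.hermForm N F q p' p * Cfsg.hermForm N F q p p'))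
      = μ * μ * (Cfsg.hermForm N F q p' p * Cfsg.hermForm N F q p p') := by
    simp only [map_mul, D.mu, h_conj hq]
    ring
  obtain ⟨γ, hγ⟩ := D.surj _ hfix
  refine ⟨γ, ?_, hγ⟩
  intro h0
  rw [h0, map_zero] at hγ
  exact mul_ne_zero (mul_ne_zero D.mu0 D.mu0) (mul_ne_zero h h') hγ.symm

theorem triple_gamma {μ : F} {γ : L} (p p' : Fin N → F)
    (hγ : algebraMap L F γ = μ * μ * (Cfsg.hermForm N F q p' p * Cfsg.hermForm N F q p p')) :
    (μ • Xp q p) * (μ • Xp q p') * (μ • Xp q p) = γ • (μ • Xp q p) := by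
  rw [TvAlg.smul_triple (Xp q p) (Xp q p') μ μ, Xp_triple, smul_smul, lsmul, hγ]
  congr 1
  ring

theorem pair_SU {hq : QF F q} {μ : F} (D : LDat hq L μ) {A B : Subgroup ↥(G0 F q N)}
    {p p' : Fin N → F} (hp0 : p ≠ 0) (hp : Cfsg.hermForm N F q p p = 0) (hp0' : p' ≠ 0)
    (hp' : Cfsg.hermForm N F q p' p' = 0)
    (hA : IsRG L (emG (G0 F q N)) A (μ • Xp q p))
    (hB : IsRG L (emG (G0 F q N)) B (μ • Xp q p')) :
    (Cfsg.hermForm N F q p' p = 0 → ⁅A, B⁆ = ⊥) ∧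
    (Cfsg.hermForm N F q p' p ≠ 0 → IsRankOnePair A B ∧
      ¬ (∀ c ∈ ⁅A, B⁆, ∀ x ∈ A ⊔ B, c * x = x * c)) := by
  constructor
  · intro h
    have h' : Cfsg.hermForm N F q p p' = 0 := h_symm0 hq h
    apply rg_commute (emG_inj _) hA hB
    · simp only [smul_mul_assoc, mul_smul_comm, Xp_mul, h, zero_smul, smul_zero]
    · simp only [smul_mul_assoc, mul_smul_comm, Xp_mul, h', zero_smul, smul_zero]
  · intro h
    have h' : Cfsg.hermForm N F q p p' ≠ 0 := fun h0 => h (h_symm0 hq h0)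
    obtain ⟨γ, hγ0, hγ⟩ := exists_gamma D p p' h
    have hγ' : algebraMap L F γ
        = μ * μ * (Cfsg.hermForm N F q p p' * Cfsg.hermForm N F q p' p) := by
      rw [hγ]; ring
    have hXX : (μ • Xp q p) * (μ • Xp q p) = 0 := TvAlg.smul_sq (Xp_sq hp) μ
    have hYY : (μ • Xp q p') * (μ • Xp q p') = 0 := TvAlg.smul_sq (Xp_sq hp') μ
    have hX0 : μ • Xp q p ≠ 0 := smul_ne_zero D.mu0 (Xp_ne hq hp0)
    exact ⟨rank_one_pair (emG_inj _) hA hB (full_G0 D hp0 hp) (full_G0 D hp0' hp') hXX hYY hX0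
        hγ0 (triple_gamma p p' hγ) (triple_gamma p' p hγ'),
      not_central_of_rank_one hA hB (full_G0 D hp0 hp) (full_G0 D hp0' hp') hXX hYY hX0 hγ0
        (triple_gamma p p' hγ)⟩

theorem hinvG (G₀ : Subgroup ↥(Cfsg.SU N F q)) : ∀ A ∈ MonoidHom.mrange (emG G₀),
    ∀ B : Matrix (Fin N) (Fin N) F, B * A = 1 → B ∈ MonoidHom.mrange (emG G₀) := by
  intro A hA B hBA
  obtain ⟨g, hg⟩ := MonoidHom.mem_mrange.1 hA
  have h1 : A * emG G₀ g⁻¹ = 1 := by rw [← hg]; exact em_mul_inv g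
  have h2 : B = emG G₀ g⁻¹ := by
    calc B = B * (A * emG G₀ g⁻¹) := by rw [h1, mul_one]
      _ = (B * A) * emG G₀ g⁻¹ := by rw [mul_assoc]
      _ = emG G₀ g⁻¹ := by rw [hBA, one_mul]
  rw [h2]
  exact MonoidHom.mem_mrange.2 ⟨g⁻¹, rfl⟩

theorem psl2_SU {hq : QF F q} {μ : F} (D : LDat hq L μ) {A B : Subgroup ↥(G0 F q N)}
    {p p' : Fin N → F} (hp0 : p ≠ 0) (hp : Cfsg.hermForm N F q p p = 0) (hp0' : p' ≠ 0)
    (hp' : Cfsg.hermForm N F q p' p' = 0)
    (hA : IsRG L (emG (G0 F q N)) A (μ • Xp q p))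
    (hB : IsRG L (emG (G0 F q N)) B (μ • Xp q p'))
    (h : Cfsg.hermForm N F q p' p ≠ 0) : IsPSL2PairOver L A B := by
  have h' : Cfsg.hermForm N F q p p' ≠ 0 := fun h0 => h (h_symm0 hq h0)
  obtain ⟨γ, hγ0, hγ⟩ := exists_gamma D p p' h
  have hμ := D.mu0
  have hd : μ * Cfsg.hermForm N F q p p' * Cfsg.hermForm N F q p' p ≠ 0 :=
    mul_ne_zero (mul_ne_zero hμ h') h
  obtain ⟨E, hE⟩ : ∃ E : Matrix (Fin N) (Fin 2) F,
      E = Emat p ((μ * Cfsg.hermForm N F q p p') • p') := ⟨_, rfl⟩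
  obtain ⟨Fm, hFm⟩ : ∃ Fm : Matrix (Fin 2) (Fin N) F,
      Fm = Fmat ((Cfsg.hermForm N F q p p')⁻¹ • fun j => p' j ^ q)
        ((μ * Cfsg.hermForm N F q p p' * Cfsg.hermForm N F q p' p)⁻¹ • fun j => p j ^ q) :=
    ⟨_, rfl⟩
  have hFE : Fm * E = 1 := by
    rw [hFm, hE]
    apply FE_eq_one
    · rw [smul_dotProduct, dot_eq, smul_eq_mul, inv_mul_cancel₀ h']
    · rw [smul_dotProduct, dotProduct_smul, dot_eq, hp', smul_zero, smul_zero]
    · rw [smul_dotProduct, dot_eq, hp, smul_zero]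
    · rw [smul_dotProduct, dotProduct_smul, dot_eq, smul_eq_mul, smul_eq_mul,
        inv_mul_cancel₀ hd]
  have eq1 : E * (Matrix.single 0 1 1 : Matrix (Fin 2) (Fin 2) F) * Fm
      = (γ⁻¹ : L) • (μ • Xp q p) := by
    rw [hFm, hE, E_single01, Matrix.vecMulVec_smul, lsmul, map_inv₀, hγ]
    unfold Xp
    congr 1
    exact field_aux1 hμ h' h
  have eq2 : E * (Matrix.single 1 0 1 : Matrix (Fin 2) (Fin 2) F) * Fm = μ • Xp q p' := by
    rw [hFm, hE, E_single10, Matrix.vecMulVec_smul, Matrix.smul_vecMulVec, smul_smul]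
    unfold Xp
    congr 1
    exact field_aux2 h'
  have hH : IsRG L (emG (G0 F q N)) A
      (E * (Matrix.single 0 1 1 : Matrix (Fin 2) (Fin 2) F) * Fm) := by
    rw [eq1]; exact rg_smul hA (inv_ne_zero hγ0)
  have hK : IsRG L (emG (G0 F q N)) B
      (E * (Matrix.single 1 0 1 : Matrix (Fin 2) (Fin 2) F) * Fm) := by
    rw [eq2]; exact hB
  have h01 : ∀ a : L, 1 + a • (E * (Matrix.single 0 1 1 : Matrix (Fin 2) (Fin 2) F) * Fm)
      ∈ MonoidHom.mrange (emG (G0 F q N)) := by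
    intro a
    rw [eq1, smul_smul]
    obtain ⟨t, ht⟩ := full_G0 D hp0 hp (a * γ⁻¹)
    exact MonoidHom.mem_mrange.2 ⟨t, ht⟩
  have h10 : ∀ a : L, 1 + a • (E * (Matrix.single 1 0 1 : Matrix (Fin 2) (Fin 2) F) * Fm)
      ∈ MonoidHom.mrange (emG (G0 F q N)) := by
    intro a
    rw [eq2]
    obtain ⟨t, ht⟩ := full_G0 D hp0' hp' a
    exact MonoidHom.mem_mrange.2 ⟨t, ht⟩
  have hall := rhoL_mem (L := L) (MonoidHom.mrange (emG (G0 F q N))) (hinvG _) E Fm hFE h01 h10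
  obtain ⟨ρ, hρ⟩ := lift_hom (emG (G0 F q N)) (emG_inj _) (rhoL (L := L) E Fm hFE)
    (fun M => MonoidHom.mem_mrange.1 (hall M))
  exact psl2_pairL (emG_inj _) E Fm hFE ρ hρ hH hK

/-! ### the root subgroup axioms -/

theorem isRootSet {hq : QF F q} {μ : F} (D : LDat hq L μ) : IsRootSubgroupSet (Sig F q N) := by
  refine ⟨?_, ?_, ?_, ?_, ?_⟩
  · intro A hA
    obtain ⟨p, hp0, hp, hRG⟩ := (mem_Sig D A).1 hA
    exact rg_comm (emG_inj _) hRG
  · intro A hA
    obtain ⟨p, hp0, hp, hRG⟩ := (mem_Sig D A).1 hA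
    exact rg_ne_bot hRG (full_G0 D hp0 hp) (smul_ne_zero D.mu0 (Xp_ne hq hp0))
  · exact gen_top (Sig0 F q N)
  · intro A hA g
    obtain ⟨p, hp0, hp, hRG⟩ := (mem_Sig D A).1 hA
    refine (mem_Sig D _).2 ⟨emG (G0 F q N) g *ᵥ p, gp_ne _ g hp0, gp_iso _ g hp, ?_⟩
    have h1 := rg_conj hRG g
    rw [conj_mu] at h1
    exact h1
  · intro A hA B hB
    obtain ⟨p, hp0, hp, hRA⟩ := (mem_Sig D A).1 hA
    obtain ⟨p', hp0', hp', hRB⟩ := (mem_Sig D B).1 hB
    by_cases hα : Cfsg.hermForm N F q p' p = 0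
    · exact Or.inl ((pair_SU D hp0 hp hp0' hp' hRA hRB).1 hα)
    · exact Or.inr (Or.inl ((pair_SU D hp0 hp hp0' hp' hRA hRB).2 hα).1)

theorem connected {hq : QF F q} {μ : F} (D : LDat hq L μ) :
    IsConnectedFamily (FAdj (Sig F q N)) (Sig F q N) := by
  intro A hA B hB
  obtain ⟨p, hp0, hp, hRA⟩ := (mem_Sig D A).1 hA
  obtain ⟨p', hp0', hp', hRB⟩ := (mem_Sig D B).1 hB
  obtain ⟨r, hr, hrp, hrp'⟩ := iso2 hq hp0 hp hp0' hp'
  have hr0 : r ≠ 0 := by
    intro h0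
    rw [h0, h_zero_left] at hrp
    exact hrp rfl
  have hC : IsRG L (emG (G0 F q N)) ((Tp F q N r).subgroupOf (G0 F q N)) (μ • Xp q r) :=
    rg_subgroupOf (hT D hr0 hr)
  have hCS : (Tp F q N r).subgroupOf (G0 F q N) ∈ Sig F q N :=
    (mem_Sig D _).2 ⟨r, hr0, hr, hC⟩
  have a1 : FAdj (Sig F q N) A ((Tp F q N r).subgroupOf (G0 F q N)) :=
    ⟨hA, hCS, ((pair_SU D hp0 hp hr0 hr hRA hC).2 hrp).1⟩
  have hpr' : Cfsg.hermForm N F q p' r ≠ 0 := fun h0 => hrp' (h_symm0 hq h0)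
  have a2 : FAdj (Sig F q N) ((Tp F q N r).subgroupOf (G0 F q N)) B :=
    ⟨hCS, hB, ((pair_SU D hr0 hr hp0' hp' hC hRB).2 hpr').1⟩
  exact Relation.ReflTransGen.tail (Relation.ReflTransGen.single a1) a2

theorem isConjClass {hq : QF F q} {μ : F} (D : LDat hq L μ)
    (hex : ∃ p : Fin N → F, p ≠ 0 ∧ Cfsg.hermForm N F q p p = 0) :
    IsConjClassOfSubgroups (Sig F q N) := by
  obtain ⟨p, hp0, hp⟩ := hex
  refine ⟨⟨(Tp F q N p).subgroupOf (G0 F q N),
    (mem_Sig D _).2 ⟨p, hp0, hp, rg_subgroupOf (hT D hp0 hp)⟩⟩, ?_⟩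
  intro A hA B hB
  exact conj_of_connected (fun C hC => (isRootSet D).ne_bot C hC) (connected D A hA B hB)

theorem degenerate {hq : QF F q} {μ : F} (D : LDat hq L μ) :
    IsDegenerateRootSet (Sig F q N) := by
  intro A hA B hB hcc
  obtain ⟨p, hp0, hp, hRA⟩ := (mem_Sig D A).1 hA
  obtain ⟨p', hp0', hp', hRB⟩ := (mem_Sig D B).1 hB
  by_cases hα : Cfsg.hermForm N F q p' p = 0
  · have h1 := (pair_SU D hp0 hp hp0' hp' hRA hRB).1 hα
    exact (isRootSet D).ne_bot _ hcc.1 h1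
  · exact ((pair_SU D hp0 hp hp0' hp' hRA hRB).2 hα).2 hcc.2.1

theorem kroot {hq : QF F q} {μ : F} (D : LDat hq L μ) : IsKRootSubgroupSet L (Sig F q N) := by
  refine ⟨isRootSet D, ?_⟩
  intro A hA B hB hrop
  obtain ⟨p, hp0, hp, hRA⟩ := (mem_Sig D A).1 hA
  obtain ⟨p', hp0', hp', hRB⟩ := (mem_Sig D B).1 hB
  have hα : Cfsg.hermForm N F q p' p ≠ 0 := by
    intro h0
    have hc := (pair_SU D hp0 hp hp0' hp' hRA hRB).1 h0
    obtain ⟨a, ha⟩ := full_G0 D hp0 hp 1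
    have haA : a ∈ A := (hRA a).2 ⟨1, ha⟩
    have ha1 : a ≠ 1 := by
      intro h
      rw [h, map_one, one_smul] at ha
      exact smul_ne_zero D.mu0 (Xp_ne hq hp0) (one_add_eq ha)
    exact not_rop_of_comm hc haA ha1 hrop
  exact psl2_SU D hp0 hp hp0' hp' hRA hRB hα

end Herm

/-! ### existence of isotropic vectors, and the main theorem -/

theorem exists_iso {F : Type*} [Field F] [Fintype F] {q : ℕ} (hF : Fintype.card F = q ^ 2)
    (n : ℕ) : ∃ p : Fin (n + 2) → F, p ≠ 0 ∧ Cfsg.hermForm (n + 2) F q p p = 0 := by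
  classical
  have hq2 : 2 ≤ q := S0284.q_two_le hF
  have h1 : 2 ≤ q ^ (n + 1) := le_trans hq2 (Nat.le_self_pow (by omega) q)
  have h2 : 2 ≤ q ^ (n + 2) := le_trans hq2 (Nat.le_self_pow (by omega) q)
  have hgt : 1 < Nat.card {v : Fin (n + 2) → F // Cfsg.hermForm (n + 2) F q v v = 0} := by
    rw [S0285.result hF (n + 2)]
    have e : n + 2 - 1 = n + 1 := by omega
    rw [e]
    split_ifs
    · have h3 := Nat.mul_pos (show 0 < q ^ (n + 2) - 1 by omega)
        (show 0 < q ^ (n + 1) + 1 by omega)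
      omega
    · have h3 := Nat.mul_pos (show 0 < q ^ (n + 2) + 1 by omega)
        (show 0 < q ^ (n + 1) - 1 by omega)
      omega
  obtain ⟨a, b, hab⟩ := @exists_pair_ne _ (Finite.one_lt_card_iff_nontrivial.1 hgt)
  by_cases ha : (a : Fin (n + 2) → F) = 0
  · refine ⟨b, ?_, b.2⟩
    intro hb
    exact hab (Subtype.ext (ha.trans hb.symm))
  · exact ⟨a, ha, a.2⟩

theorem main (F : Type*) [Field F] [Fintype F] (q n : ℕ) (hF : Fintype.card F = q ^ 2) :
    IsRootSubgroupClass (Sig F q (n + 2)) ∧ IsDegenerateRootSet (Sig F q (n + 2)) ∧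
    (∃ (L : Type) (_ : Field L) (_ : Fintype L), Fintype.card L = q ∧
      IsKRootSubgroupSet L (Sig F q (n + 2))) ∧
    IsConnectedFamily (FAdj (Sig F q (n + 2))) (Sig F q (n + 2)) := by
  classical
  have hq : QF F q := qf_of_card hF
  have hq2 : 2 ≤ q := S0284.q_two_le hF
  obtain ⟨p, hpc⟩ := CharP.exists F
  haveI := hpc
  haveI hpp : Fact p.Prime := ⟨CharP.char_is_prime F p⟩
  obtain ⟨n', -, hn'⟩ := FiniteField.card F p
  obtain ⟨m, -, hm⟩ := (Nat.dvd_prime_pow hpp.out).mp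
    (show q ∣ p ^ (n' : ℕ) by rw [← hn', hF]; exact Dvd.intro_left q (by ring))
  have hm0 : m ≠ 0 := by
    rintro rfl
    rw [pow_zero] at hm
    omega
  letI instFt : Fintype (GaloisField p m) := Fintype.ofFinite _
  have hL : Fintype.card (GaloisField p m) = q := by
    rw [hm, ← Nat.card_eq_fintype_card]
    exact GaloisField.card p m hm0
  obtain ⟨f⟩ := SpEmbed.exists_ringHom hF hL
  letI : Algebra (GaloisField p m) F := f.toAlgebra
  obtain ⟨μ, hμ0, hμ⟩ := exists_skew hq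
  have D : LDat hq (GaloisField p m) μ := by
    refine ⟨?_, ?_, hμ0, hμ⟩
    · intro c
      show (f c) ^ q = f c
      rw [← map_pow, ← hL, FiniteField.pow_card]
    · intro x hx
      exact fixed_in_range f hL (by omega) x hx
  have hex := exists_iso hF n
  exact ⟨⟨isRootSet D, isConjClass D hex⟩, degenerate D,
    ⟨GaloisField p m, inferInstance, instFt, hL, kroot D⟩, connected D⟩

end Cfsg.Agent.Helper2.TvSU
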