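import Mathlib
import Cfsg.Prelude.Def_RootSubgroups
import Cfsg.Prelude.Def_ClassicalGeometry
import Cfsg.Agent.Helper2.TvAbs
import Cfsg.Agent.Helper2.TvVec
import Cfsg.Agent.Helper2.TvAbs2
import Cfsg.Agent.S0764
import Cfsg.Agent.S0765
import Cfsg.Agent.S0271

set_option autoImplicit false

/-!
The symplectic transvection subgroups `T(p)` of `Sp_{2m}(F)` form a degenerate class of `F`-root
subgroups.
-/

namespace Cfsg.Agent.Helper2.TvSp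

open Matrix Cfsg Cfsg.Agent.Helper2.TvAbs

variable {F : Type*} [Field F] {m : ℕ}

/-- the inclusion of the symplectic group into matrices -/
def emSp : ↥(Matrix.symplecticGroup (Fin m) F) →* Matrix (Fin m ⊕ Fin m) (Fin m ⊕ Fin m) F :=
  (Matrix.symplecticGroup (Fin m) F).subtype

theorem emSp_inj : Function.Injective (emSp (F := F) (m := m)) := Subtype.val_injective

/-- the rank one matrix of the transvections at `p` -/
def Xp (p : Fin m ⊕ Fin m → F) : Matrix (Fin m ⊕ Fin m) (Fin m ⊕ Fin m) F :=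
  vecMulVec p (Matrix.J (Fin m) F *ᵥ p)

/-- the transvection group of the statement -/
def T (F : Type*) [Field F] (m : ℕ) (p : Fin m ⊕ Fin m → F) :
    Subgroup ↥(Matrix.symplecticGroup (Fin m) F) :=
  Subgroup.closure {g : ↥(Matrix.symplecticGroup (Fin m) F) | ∃ c : F, ∀ v : Fin m ⊕ Fin m → F,
    (g : Matrix (Fin m ⊕ Fin m) (Fin m ⊕ Fin m) F) *ᵥ v
      = v + (c * (v ⬝ᵥ (Matrix.J (Fin m) F *ᵥ p))) • p}

/-- the class of the statement -/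
def S (F : Type*) [Field F] (m : ℕ) : Set (Subgroup ↥(Matrix.symplecticGroup (Fin m) F)) :=
  {A | ∃ p : Fin m ⊕ Fin m → F, p ≠ 0 ∧ A = T F m p}

theorem Jp_dot (p : Fin m ⊕ Fin m → F) : (Matrix.J (Fin m) F *ᵥ p) ⬝ᵥ p = 0 := by
  rw [dotProduct_comm]; exact S0764.dot_J_self m p

theorem J_skew (p q : Fin m ⊕ Fin m → F) :
    (Matrix.J (Fin m) F *ᵥ q) ⬝ᵥ p = -((Matrix.J (Fin m) F *ᵥ p) ⬝ᵥ q) := by
  rw [dotProduct_comm (Matrix.J (Fin m) F *ᵥ q) p, Matrix.dotProduct_mulVec,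
    ← Matrix.mulVec_transpose, Matrix.J_transpose, Matrix.neg_mulVec, neg_dotProduct]

theorem Jp_ne {p : Fin m ⊕ Fin m → F} (hp : p ≠ 0) : Matrix.J (Fin m) F *ᵥ p ≠ 0 := by
  intro h
  apply hp
  have h1 := S0764.J_mulVec_J_mulVec m p
  rw [h, Matrix.mulVec_zero] at h1
  exact neg_eq_zero.1 h1.symm

theorem Xp_sq (p : Fin m ⊕ Fin m → F) : Xp p * Xp p = 0 := vv_sq' (Jp_dot p)

theorem Xp_ne {p : Fin m ⊕ Fin m → F} (hp : p ≠ 0) : Xp p ≠ 0 := vv_ne_zero' hp (Jp_ne hp)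

theorem full_Sp (p : Fin m ⊕ Fin m → F) : Full emSp (Xp p) :=
  fun c => ⟨⟨Cfsg.sympTransvection m p c, S0764.result m p c⟩, rfl⟩

theorem tv_comp (p : Fin m ⊕ Fin m → F) (c : F) (v : Fin m ⊕ Fin m → F) :
    (1 + c • Xp p) *ᵥ v = v + (c * (v ⬝ᵥ (Matrix.J (Fin m) F *ᵥ p))) • p := by
  unfold Xp
  rw [Matrix.add_mulVec, Matrix.one_mulVec, Matrix.smul_mulVec, vv_mulVec', smul_smul,
    dotProduct_comm v]

theorem tv_iff (g : Matrix (Fin m ⊕ Fin m) (Fin m ⊕ Fin m) F) (p : Fin m ⊕ Fin m → F) (c : F) :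
    (∀ v : Fin m ⊕ Fin m → F, g *ᵥ v = v + (c * (v ⬝ᵥ (Matrix.J (Fin m) F *ᵥ p))) • p)
      ↔ g = 1 + c • Xp p := by
  constructor
  · intro h
    apply Matrix.toLin'.injective
    apply LinearMap.ext
    intro v
    rw [Matrix.toLin'_apply, Matrix.toLin'_apply, h v, tv_comp]
  · intro h v
    rw [h, tv_comp]

theorem hT (p : Fin m ⊕ Fin m → F) : IsRG emSp (T F m p) (Xp p) := by
  have e : {g : ↥(Matrix.symplecticGroup (Fin m) F) | ∃ c : F, ∀ v : Fin m ⊕ Fin m → F,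
      (g : Matrix (Fin m ⊕ Fin m) (Fin m ⊕ Fin m) F) *ᵥ v
        = v + (c * (v ⬝ᵥ (Matrix.J (Fin m) F *ᵥ p))) • p}
      = ((rgSub emSp (Xp p) (Xp_sq p) : Subgroup ↥(Matrix.symplecticGroup (Fin m) F)) :
          Set ↥(Matrix.symplecticGroup (Fin m) F)) := by
    ext g
    constructor
    · rintro ⟨c, hc⟩
      exact (rgSub_isRG emSp _ (Xp_sq p) g).2 ⟨c, (tv_iff _ p c).1 hc⟩
    · intro hg
      obtain ⟨c, hc⟩ := (rgSub_isRG emSp _ (Xp_sq p) g).1 hg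
      exact ⟨c, (tv_iff _ p c).2 hc⟩
  have e2 : T F m p = rgSub emSp (Xp p) (Xp_sq p) := by
    unfold T
    rw [e, Subgroup.closure_eq]
  rw [e2]
  exact rgSub_isRG _ _ _

theorem mem_S (A : Subgroup ↥(Matrix.symplecticGroup (Fin m) F)) :
    A ∈ S F m ↔ ∃ p : Fin m ⊕ Fin m → F, p ≠ 0 ∧ IsRG emSp A (Xp p) := by
  constructor
  · rintro ⟨p, hp, rfl⟩
    exact ⟨p, hp, hT p⟩
  · rintro ⟨p, hp, hA⟩
    exact ⟨p, hp, rg_ext hA (hT p)⟩

theorem conj_Xp (g : ↥(Matrix.symplecticGroup (Fin m) F)) (p : Fin m ⊕ Fin m → F) :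
    emSp g * Xp p * emSp g⁻¹ = Xp (emSp g *ᵥ p) := by
  have hM : (emSp g)ᵀ * Matrix.J (Fin m) F * emSp g = Matrix.J (Fin m) F :=
    SymplecticGroup.mem_iff'.mp g.2
  have hMMi : emSp g * emSp g⁻¹ = 1 := em_mul_inv g
  have key : (emSp g⁻¹)ᵀ * Matrix.J (Fin m) F = Matrix.J (Fin m) F * emSp g := by
    calc (emSp g⁻¹)ᵀ * Matrix.J (Fin m) F
        = (emSp g⁻¹)ᵀ * ((emSp g)ᵀ * Matrix.J (Fin m) F * emSp g) := by rw [hM]
      _ = (emSp g * emSp g⁻¹)ᵀ * Matrix.J (Fin m) F * emSp g := by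
          rw [Matrix.transpose_mul]; simp only [Matrix.mul_assoc]
      _ = Matrix.J (Fin m) F * emSp g := by rw [hMMi, Matrix.transpose_one, Matrix.one_mul]
  unfold Xp
  rw [Matrix.mul_vecMulVec, Matrix.vecMulVec_mul, ← Matrix.mulVec_transpose,
    Matrix.mulVec_mulVec p (emSp g⁻¹)ᵀ (Matrix.J (Fin m) F), key, ← Matrix.mulVec_mulVec]

theorem gp_ne (g : ↥(Matrix.symplecticGroup (Fin m) F)) {p : Fin m ⊕ Fin m → F} (hp : p ≠ 0) :
    emSp g *ᵥ p ≠ 0 := by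
  intro h
  apply hp
  have h1 : (emSp g⁻¹ * emSp g) *ᵥ p = 0 := by
    rw [← Matrix.mulVec_mulVec, h, Matrix.mulVec_zero]
  rw [em_inv_mul, Matrix.one_mulVec] at h1
  exact h1

theorem pair_Sp {A B : Subgroup ↥(Matrix.symplecticGroup (Fin m) F)} {p q : Fin m ⊕ Fin m → F}
    (hp : p ≠ 0) (hA : IsRG emSp A (Xp p)) (hB : IsRG emSp B (Xp q)) :
    ((Matrix.J (Fin m) F *ᵥ p) ⬝ᵥ q = 0 → ⁅A, B⁆ = ⊥) ∧
    ((Matrix.J (Fin m) F *ᵥ p) ⬝ᵥ q ≠ 0 → IsRankOnePair A B) := by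
  constructor
  · intro hα
    have hβ : (Matrix.J (Fin m) F *ᵥ q) ⬝ᵥ p = 0 := by rw [J_skew, hα, neg_zero]
    exact rg_commute emSp_inj hA hB (by unfold Xp; rw [vv_mul', hα, zero_smul])
      (by unfold Xp; rw [vv_mul', hβ, zero_smul])
  · intro hα
    have hβ : (Matrix.J (Fin m) F *ᵥ q) ⬝ᵥ p ≠ 0 := by rw [J_skew]; exact neg_ne_zero.2 hα
    exact rank_one_pair emSp_inj hA hB (full_Sp p) (full_Sp q) (Xp_sq p) (Xp_sq q) (Xp_ne hp)
      (γ := ((Matrix.J (Fin m) F *ᵥ p) ⬝ᵥ q) * ((Matrix.J (Fin m) F *ᵥ q) ⬝ᵥ p))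
      (mul_ne_zero hα hβ) (vv_triple _ _ _ _)
      (by unfold Xp
          rw [vv_triple, mul_comm ((Matrix.J (Fin m) F *ᵥ q) ⬝ᵥ p)
            ((Matrix.J (Fin m) F *ᵥ p) ⬝ᵥ q)])

theorem hinvSp : ∀ A ∈ Matrix.symplecticGroup (Fin m) F,
    ∀ B : Matrix (Fin m ⊕ Fin m) (Fin m ⊕ Fin m) F, B * A = 1 →
      B ∈ Matrix.symplecticGroup (Fin m) F := by
  intro A hA B hBA
  obtain ⟨g, hg⟩ : ∃ g : ↥(Matrix.symplecticGroup (Fin m) F), emSp g = A := ⟨⟨A, hA⟩, rfl⟩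
  have h1 : A * emSp g⁻¹ = 1 := by rw [← hg]; exact em_mul_inv g
  have h2 : B = emSp g⁻¹ := by
    calc B = B * (A * emSp g⁻¹) := by rw [h1, mul_one]
      _ = (B * A) * emSp g⁻¹ := by rw [mul_assoc]
      _ = emSp g⁻¹ := by rw [hBA, one_mul]
  rw [h2]
  exact (g⁻¹).2

theorem psl2_Sp {A B : Subgroup ↥(Matrix.symplecticGroup (Fin m) F)} {p q : Fin m ⊕ Fin m → F}
    (hA : IsRG emSp A (Xp p)) (hB : IsRG emSp B (Xp q))
    (hα : (Matrix.J (Fin m) F *ᵥ p) ⬝ᵥ q ≠ 0) : IsPSL2PairOver F A B := by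
  have hβ : (Matrix.J (Fin m) F *ᵥ q) ⬝ᵥ p ≠ 0 := by rw [J_skew]; exact neg_ne_zero.2 hα
  have hFE : Fmat (((Matrix.J (Fin m) F *ᵥ q) ⬝ᵥ p)⁻¹ • (Matrix.J (Fin m) F *ᵥ q))
      (((Matrix.J (Fin m) F *ᵥ p) ⬝ᵥ q)⁻¹ • (Matrix.J (Fin m) F *ᵥ p)) * Emat p q = 1 := by
    apply FE_eq_one
    · rw [smul_dotProduct, smul_eq_mul, inv_mul_cancel₀ hβ]
    · rw [smul_dotProduct, Jp_dot, smul_zero]
    · rw [smul_dotProduct, Jp_dot, smul_zero]
    · rw [smul_dotProduct, smul_eq_mul, inv_mul_cancel₀ hα]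
  have h01 : ∀ a : F, 1 + a • (Emat p q * (Matrix.single 0 1 1 : Matrix (Fin 2) (Fin 2) F)
      * Fmat (((Matrix.J (Fin m) F *ᵥ q) ⬝ᵥ p)⁻¹ • (Matrix.J (Fin m) F *ᵥ q))
        (((Matrix.J (Fin m) F *ᵥ p) ⬝ᵥ q)⁻¹ • (Matrix.J (Fin m) F *ᵥ p)))
        ∈ Matrix.symplecticGroup (Fin m) F := by
    intro a
    rw [E_single01, Matrix.vecMulVec_smul, smul_smul]
    exact S0764.result m p _
  have h10 : ∀ a : F, 1 + a • (Emat p q * (Matrix.single 1 0 1 : Matrix (Fin 2) (Fin 2) F)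
      * Fmat (((Matrix.J (Fin m) F *ᵥ q) ⬝ᵥ p)⁻¹ • (Matrix.J (Fin m) F *ᵥ q))
        (((Matrix.J (Fin m) F *ᵥ p) ⬝ᵥ q)⁻¹ • (Matrix.J (Fin m) F *ᵥ p)))
        ∈ Matrix.symplecticGroup (Fin m) F := by
    intro a
    rw [E_single10, Matrix.vecMulVec_smul, smul_smul]
    exact S0764.result m q _
  have hall := rhoM_mem (Matrix.symplecticGroup (Fin m) F) hinvSp (Emat p q) _ hFE h01 h10
  refine psl2_pair emSp_inj (Emat p q) _ hFE
    (((rhoM _ _ hFE).comp (emSL : Matrix.SpecialLinearGroup (Fin 2) F →* _)).codRestrict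
      (Matrix.symplecticGroup (Fin m) F) hall) (fun M => rfl) ?_ ?_
  · rw [E_single01, Matrix.vecMulVec_smul]
    exact rg_smul hA (inv_ne_zero hα)
  · rw [E_single10, Matrix.vecMulVec_smul]
    exact rg_smul hB (inv_ne_zero hβ)

theorem isRootSet : IsRootSubgroupSet (S F m) := by
  refine ⟨?_, ?_, ?_, ?_, ?_⟩
  · intro A hA
    obtain ⟨p, hp, hRG⟩ := (mem_S A).1 hA
    exact rg_comm emSp_inj hRG
  · intro A hA
    obtain ⟨p, hp, hRG⟩ := (mem_S A).1 hA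
    exact rg_ne_bot hRG (full_Sp p) (Xp_ne hp)
  · rw [eq_top_iff, ← S0765.result (F := F) m, Subgroup.closure_le]
    rintro g ⟨w, c, hg⟩
    by_cases hw : w = 0
    · have e0 : Cfsg.sympTransvection m (0 : Fin m ⊕ Fin m → F) c = 1 := by
        unfold Cfsg.sympTransvection
        rw [Matrix.zero_vecMulVec, smul_zero, add_zero]
      have e1 : g = 1 := by
        apply Subtype.ext
        show (g : Matrix (Fin m ⊕ Fin m) (Fin m ⊕ Fin m) F) = 1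
        rw [hg, hw, e0]
      rw [e1]
      exact Subgroup.one_mem _
    · have h1 : T F m w ≤ ⨆ A ∈ S F m, A := le_iSup₂_of_le _ ⟨w, hw, rfl⟩ le_rfl
      exact h1 ((hT w g).2 ⟨c, hg⟩)
  · intro A hA g
    obtain ⟨p, hp, hRG⟩ := (mem_S A).1 hA
    refine (mem_S _).2 ⟨emSp g *ᵥ p, gp_ne g hp, ?_⟩
    have h1 := rg_conj hRG g
    rw [conj_Xp] at h1
    exact h1
  · intro A hA B hB
    obtain ⟨p, hp, hRA⟩ := (mem_S A).1 hA
    obtain ⟨q, hq, hRB⟩ := (mem_S B).1 hB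
    by_cases hα : (Matrix.J (Fin m) F *ᵥ p) ⬝ᵥ q = 0
    · exact Or.inl ((pair_Sp hp hRA hRB).1 hα)
    · exact Or.inr (Or.inl ((pair_Sp hp hRA hRB).2 hα))

theorem isConjClass : IsConjClassOfSubgroups (S F (m + 1)) := by
  refine ⟨⟨T F (m + 1) (Pi.single (Sum.inl 0) 1), Pi.single (Sum.inl 0) 1, ei_ne _, rfl⟩, ?_⟩
  intro A hA B hB
  obtain ⟨p, hp, hRA⟩ := (mem_S A).1 hA
  obtain ⟨q, hq, hRB⟩ := (mem_S B).1 hB
  obtain ⟨g, hg⟩ := S0271.result (m + 1) p q hp hq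
  refine ⟨g, ?_⟩
  have h1 := rg_conj hRA g
  rw [conj_Xp] at h1
  have h2 : emSp g *ᵥ p = q := hg
  rw [h2] at h1
  exact rg_ext hRB h1

theorem degenerate : IsDegenerateRootSet (S F m) := by
  intro A hA B hB hcc
  obtain ⟨p, hp, hRA⟩ := (mem_S A).1 hA
  obtain ⟨q, hq, hRB⟩ := (mem_S B).1 hB
  by_cases hα : (Matrix.J (Fin m) F *ᵥ p) ⬝ᵥ q = 0
  · have h1 := (pair_Sp hp hRA hRB).1 hα
    obtain ⟨r, hr, hRC⟩ := (mem_S _).1 hcc.1
    exact rg_ne_bot hRC (full_Sp r) (Xp_ne hr) h1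
  · have hβ : (Matrix.J (Fin m) F *ᵥ q) ⬝ᵥ p ≠ 0 := by rw [J_skew]; exact neg_ne_zero.2 hα
    exact not_central_of_rank_one hRA hRB (full_Sp p) (full_Sp q) (Xp_sq p) (Xp_sq q)
      (Xp_ne hp) (mul_ne_zero hα hβ) (vv_triple _ _ _ _) hcc.2.1

theorem kroot : IsKRootSubgroupSet F (S F m) := by
  refine ⟨isRootSet, ?_⟩
  intro A hA B hB hrop
  obtain ⟨p, hp, hRA⟩ := (mem_S A).1 hA
  obtain ⟨q, hq, hRB⟩ := (mem_S B).1 hB
  have hα : (Matrix.J (Fin m) F *ᵥ p) ⬝ᵥ q ≠ 0 := by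
    intro h0
    have hc := (pair_Sp hp hRA hRB).1 h0
    obtain ⟨a, ha⟩ := full_Sp p 1
    have haA : a ∈ A := (hRA a).2 ⟨1, ha⟩
    have ha1 : a ≠ 1 := by
      intro h
      rw [h, map_one, one_smul] at ha
      exact Xp_ne hp (one_add_eq ha)
    exact not_rop_of_comm hc haA ha1 hrop
  exact psl2_Sp hRA hRB hα

theorem connected : IsConnectedFamily (FAdj (S F m)) (S F m) := by
  intro A hA B hB
  obtain ⟨p, hp, hRA⟩ := (mem_S A).1 hA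
  obtain ⟨q, hq, hRB⟩ := (mem_S B).1 hB
  obtain ⟨w, h1w, h2w⟩ := exists_w (Matrix.J (Fin m) F *ᵥ p) (Matrix.J (Fin m) F *ᵥ q)
    (Jp_ne hp) (Jp_ne hq)
  have hw : w ≠ 0 := by
    intro h
    rw [h, dotProduct_zero] at h1w
    exact h1w rfl
  have hC := hT (F := F) (m := m) w
  have hCS : T F m w ∈ S F m := ⟨w, hw, rfl⟩
  have a1 : FAdj (S F m) A (T F m w) := ⟨hA, hCS, (pair_Sp hp hRA hC).2 h1w⟩
  have a2 : FAdj (S F m) (T F m w) B :=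
    ⟨hCS, hB, (pair_Sp hw hC hRB).2 (by rw [J_skew q w]; exact neg_ne_zero.2 h2w)⟩
  exact Relation.ReflTransGen.tail (Relation.ReflTransGen.single a1) a2

theorem main (F : Type*) [Field F] (m : ℕ) :
    IsRootSubgroupClass (S F (m + 1)) ∧ IsDegenerateRootSet (S F (m + 1)) ∧
      IsKRootSubgroupSet F (S F (m + 1)) ∧
      IsConnectedFamily (FAdj (S F (m + 1))) (S F (m + 1)) :=
  ⟨⟨isRootSet, isConjClass⟩, degenerate, kroot, connected⟩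

end Cfsg.Agent.Helper2.TvSp
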