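import Mathlib
import Cfsg.Prelude.Def_RootSubgroups

set_option autoImplicit false

/-!
Helper library (helper2): a Baer–Suzuki / Alperin–Lyons type theorem for unipotent linear groups:
a conjugation-invariant family of subgroups of `GL(M)` any two of which generate a unipotent
subgroup generates a unipotent subgroup.
-/

namespace Cfsg.Agent.Helper2.Unip

open Cfsg

variable {k : Type*} [Field k] {M : Type*} [AddCommGroup M] [Module k M]

/-- the product of the endomorphisms `g - 1` along a list -/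
def up (l : List (LinearMap.GeneralLinearGroup k M)) : M →ₗ[k] M :=
  (l.map fun g : LinearMap.GeneralLinearGroup k M => (g : M →ₗ[k] M) - 1).prod

theorem up_nil : up ([] : List (LinearMap.GeneralLinearGroup k M)) = 1 := rfl

theorem up_cons (g : LinearMap.GeneralLinearGroup k M) (l : List (LinearMap.GeneralLinearGroup k M)) :
    up (g :: l) = ((g : M →ₗ[k] M) - 1) * up l := by
  unfold up
  rw [List.map_cons, List.prod_cons]

theorem coe_list (l : List (LinearMap.GeneralLinearGroup k M)) :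
    ((l : List (M →ₗ[k] M)))
      = l.map (fun a : LinearMap.GeneralLinearGroup k M => (a : M →ₗ[k] M)) := by
  rw [List.map_eq_flatMap]; rfl

theorem isUnip_iff (H : Subgroup (LinearMap.GeneralLinearGroup k M)) :
    IsUnipotentOn H ↔ ∃ n : ℕ, ∀ l : List (LinearMap.GeneralLinearGroup k M), (∀ g ∈ l, g ∈ H) →
      l.length = n → up l = 0 := by
  unfold IsUnipotentOn up
  simp only [coe_list, List.map_map]
  rfl

/-! ### relative Kolchin property -/

theorem prod_maps (H : Subgroup (LinearMap.GeneralLinearGroup k M)) (F : Submodule k M)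
    (hF : ∀ g ∈ H, ∀ v ∈ F, (g : M →ₗ[k] M) v ∈ F) :
    ∀ l : List (LinearMap.GeneralLinearGroup k M), (∀ g ∈ l, g ∈ H) → ∀ v ∈ F,
      up l v ∈ F := by
  intro l
  induction l with
  | nil =>
    intro _ v hv
    rw [up_nil, Module.End.one_apply]
    exact hv
  | cons g l ih =>
    intro hl v hv
    have h1 := ih (fun x hx => hl x (List.mem_cons_of_mem _ hx)) v hv
    have h2 := hF g (hl g List.mem_cons_self) _ h1
    rw [up_cons, Module.End.mul_apply, LinearMap.sub_apply, Module.End.one_apply]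
    exact F.sub_mem h2 h1

theorem rk {H : Subgroup (LinearMap.GeneralLinearGroup k M)} (hH : IsUnipotentOn H)
    (F V : Submodule k M) (hF : ∀ g ∈ H, ∀ v ∈ F, (g : M →ₗ[k] M) v ∈ F) (hFV : ¬ F ≤ V) :
    ∃ u ∈ F, u ∉ V ∧ ∀ g ∈ H, (g : M →ₗ[k] M) u - u ∈ V := by
  obtain ⟨n, hn⟩ := (isUnip_iff H).mp hH
  obtain ⟨u₀, hu₀F, hu₀V⟩ := SetLike.not_le_iff_exists.mp hFV
  obtain ⟨Q, hQ⟩ : ∃ Q : ℕ → Prop, ∀ m, Q m ↔
      ∃ l : List (LinearMap.GeneralLinearGroup k M), (∀ g ∈ l, g ∈ H) ∧ l.length = m ∧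
        up l u₀ ∉ V := ⟨_, fun _ => Iff.rfl⟩
  have hQ0 : Q 0 := (hQ 0).mpr ⟨[], by simp, rfl, by rw [up_nil, Module.End.one_apply]; exact hu₀V⟩
  have hQn : ¬ Q n := by
    intro h
    obtain ⟨l, hl, hlen, hp⟩ := (hQ n).mp h
    apply hp
    rw [hn l hl hlen]
    simp
  have hex : ∃ m, Q m ∧ ¬ Q (m + 1) := by
    by_contra hcon
    have hstep : ∀ m, Q m → Q (m + 1) := fun m hm => by
      by_contra h
      exact hcon ⟨m, hm, h⟩
    have : ∀ m, Q m := by
      intro m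
      induction m with
      | zero => exact hQ0
      | succ m ih => exact hstep m ih
    exact hQn (this n)
  obtain ⟨m, hm, hm1⟩ := hex
  obtain ⟨l, hl, hlen, hp⟩ := (hQ m).mp hm
  refine ⟨up l u₀, prod_maps H F hF l hl u₀ hu₀F, hp, ?_⟩
  intro g hg
  by_contra hgv
  apply hm1
  refine (hQ (m + 1)).mpr ⟨g :: l, ?_, by simp [hlen], ?_⟩
  · intro x hx
    rcases List.mem_cons.mp hx with rfl | hx
    · exact hg
    · exact hl x hx
  · rw [up_cons, Module.End.mul_apply, LinearMap.sub_apply, Module.End.one_apply]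
    exact hgv

/-! ### the chain construction -/

/-- vectors fixed modulo `V` by `H` -/
def fm (H : Subgroup (LinearMap.GeneralLinearGroup k M)) (V : Submodule k M) : Submodule k M where
  carrier := {u | ∀ g ∈ H, (g : M →ₗ[k] M) u - u ∈ V}
  add_mem' := by
    intro a b ha hb g hg
    have h := V.add_mem (ha g hg) (hb g hg)
    have e : (g : M →ₗ[k] M) (a + b) - (a + b)
        = ((g : M →ₗ[k] M) a - a) + ((g : M →ₗ[k] M) b - b) := by
      rw [map_add]; abel
    rw [e]; exact h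
  zero_mem' := by
    intro g _
    simp
  smul_mem' := by
    intro c a ha g hg
    have h := V.smul_mem c (ha g hg)
    have e : (g : M →ₗ[k] M) (c • a) - c • a = c • ((g : M →ₗ[k] M) a - a) := by
      rw [map_smul, smul_sub]
    rw [e]; exact h

theorem mem_fm {H : Subgroup (LinearMap.GeneralLinearGroup k M)} {V : Submodule k M} {u : M} :
    u ∈ fm H V ↔ ∀ g ∈ H, (g : M →ₗ[k] M) u - u ∈ V := Iff.rfl

theorem conj_apply (g h : LinearMap.GeneralLinearGroup k M) (u : M) :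
    (h : M →ₗ[k] M) (((h⁻¹ * g * h : LinearMap.GeneralLinearGroup k M) : M →ₗ[k] M) u)
      = (g : M →ₗ[k] M) ((h : M →ₗ[k] M) u) := by
  have e : (h * (h⁻¹ * g * h) : LinearMap.GeneralLinearGroup k M) = g * h := by group
  have h2 := congrArg (fun x : LinearMap.GeneralLinearGroup k M => (x : M →ₗ[k] M) u) e
  simp only [Units.val_mul, Module.End.mul_apply] at h2 ⊢
  exact h2

theorem inv_apply_self (a : LinearMap.GeneralLinearGroup k M) (u : M) :
    ((a⁻¹ : LinearMap.GeneralLinearGroup k M) : M →ₗ[k] M) ((a : M →ₗ[k] M) u) = u := by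
  have e : (a⁻¹ * a : LinearMap.GeneralLinearGroup k M) = 1 := inv_mul_cancel a
  have h2 := congrArg (fun x : LinearMap.GeneralLinearGroup k M => (x : M →ₗ[k] M) u) e
  simp only [Units.val_mul, Module.End.mul_apply, Units.val_one, Module.End.one_apply] at h2
  exact h2

theorem fm_inv (H : Subgroup (LinearMap.GeneralLinearGroup k M)) (V : Submodule k M)
    (hV : ∀ g ∈ H, ∀ v ∈ V, (g : M →ₗ[k] M) v ∈ V) :
    ∀ h ∈ H, ∀ u ∈ fm H V, (h : M →ₗ[k] M) u ∈ fm H V := by
  intro h hh u hu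
  rw [mem_fm]
  intro g hg
  have h1 : ((h⁻¹ * g * h : LinearMap.GeneralLinearGroup k M) : M →ₗ[k] M) u - u ∈ V :=
    mem_fm.mp hu _ (H.mul_mem (H.mul_mem (H.inv_mem hh) hg) hh)
  have h2 := hV h hh _ h1
  rw [map_sub, conj_apply] at h2
  exact h2

theorem le_fm (H : Subgroup (LinearMap.GeneralLinearGroup k M)) (V : Submodule k M)
    (hV : ∀ g ∈ H, ∀ v ∈ V, (g : M →ₗ[k] M) v ∈ V) : V ≤ fm H V := by
  intro u hu
  rw [mem_fm]
  intro g hg
  exact V.sub_mem (hV g hg u hu) hu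

/-- the ascending chain of iterated fixed spaces -/
def ch (H : Subgroup (LinearMap.GeneralLinearGroup k M)) : ℕ → Submodule k M
  | 0 => ⊥
  | (i + 1) => fm H (ch H i)

theorem ch_zero (H : Subgroup (LinearMap.GeneralLinearGroup k M)) : ch H 0 = ⊥ := rfl

theorem ch_succ (H : Subgroup (LinearMap.GeneralLinearGroup k M)) (i : ℕ) :
    ch H (i + 1) = fm H (ch H i) := rfl

theorem ch_inv (H : Subgroup (LinearMap.GeneralLinearGroup k M)) :
    ∀ i, ∀ g ∈ H, ∀ v ∈ ch H i, (g : M →ₗ[k] M) v ∈ ch H i := by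
  intro i
  induction i with
  | zero =>
    intro g _ v hv
    rw [ch_zero, Submodule.mem_bot] at hv
    rw [hv, map_zero]
    exact Submodule.zero_mem _
  | succ i ih =>
    rw [ch_succ]
    exact fm_inv H (ch H i) ih

theorem ch_mono (H : Subgroup (LinearMap.GeneralLinearGroup k M)) (i : ℕ) :
    ch H i ≤ ch H (i + 1) := by
  rw [ch_succ]
  exact le_fm H (ch H i) (ch_inv H i)

theorem ch_prod (H : Subgroup (LinearMap.GeneralLinearGroup k M)) :
    ∀ l : List (LinearMap.GeneralLinearGroup k M), (∀ g ∈ l, g ∈ H) → ∀ j : ℕ,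
      ∀ v ∈ ch H (j + l.length), up l v ∈ ch H j := by
  intro l
  induction l with
  | nil =>
    intro _ j v hv
    rw [up_nil, Module.End.one_apply]
    exact hv
  | cons g l ih =>
    intro hl j v hv
    have hv' : v ∈ ch H ((j + 1) + l.length) := by
      have e : j + (g :: l).length = (j + 1) + l.length := by
        rw [List.length_cons]; omega
      rw [e] at hv
      exact hv
    have h1 := ih (fun x hx => hl x (List.mem_cons_of_mem _ hx)) (j + 1) v hv'
    rw [ch_succ] at h1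
    have h2 := mem_fm.mp h1 g (hl g List.mem_cons_self)
    rw [up_cons, Module.End.mul_apply, LinearMap.sub_apply, Module.End.one_apply]
    exact h2

theorem cc [FiniteDimensional k M] (H : Subgroup (LinearMap.GeneralLinearGroup k M))
    (hK : ∀ V : Submodule k M, (∀ g ∈ H, ∀ v ∈ V, (g : M →ₗ[k] M) v ∈ V) → V ≠ ⊤ →
      ∃ u, u ∉ V ∧ ∀ g ∈ H, (g : M →ₗ[k] M) u - u ∈ V) : IsUnipotentOn H := by
  have hdim : ∀ i, ch H i = ⊤ ∨ i ≤ Module.finrank k (ch H i) := by
    intro i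
    induction i with
    | zero => right; exact Nat.zero_le _
    | succ i ih =>
      by_cases htop : ch H i = ⊤
      · left
        have h := ch_mono H i
        rw [htop] at h
        exact top_le_iff.mp h
      · right
        have hi : i ≤ Module.finrank k (ch H i) := ih.resolve_left htop
        obtain ⟨u, huV, hu⟩ := hK (ch H i) (ch_inv H i) htop
        have hlt : ch H i < ch H (i + 1) := by
          refine lt_of_le_of_ne (ch_mono H i) ?_
          intro heq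
          apply huV
          rw [heq, ch_succ]
          exact mem_fm.mpr hu
        have h := Submodule.finrank_lt_finrank_of_lt hlt
        omega
  have htop : ch H (Module.finrank k M + 1) = ⊤ := by
    rcases hdim (Module.finrank k M + 1) with h | h
    · exact h
    · have h' := Submodule.finrank_le (ch H (Module.finrank k M + 1))
      omega
  refine (isUnip_iff H).mpr ⟨Module.finrank k M + 1, ?_⟩
  intro l hl hlen
  apply LinearMap.ext
  intro v
  have hv : v ∈ ch H (0 + l.length) := by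
    rw [hlen, zero_add, htop]
    exact Submodule.mem_top
  have h := ch_prod H l hl 0 v hv
  rw [ch_zero, Submodule.mem_bot] at h
  rw [h]
  rfl

/-! ### a unipotent group normalising a unipotent group -/

theorem l2 [FiniteDimensional k M] (I H : Subgroup (LinearMap.GeneralLinearGroup k M))
    (hI : IsUnipotentOn I) (hH : IsUnipotentOn H)
    (hn : ∀ h ∈ H, ∀ g ∈ I, h * g * h⁻¹ ∈ I) : IsUnipotentOn (I ⊔ H) := by
  apply cc
  intro V hV hVtop
  have hVH : ∀ g ∈ H, ∀ v ∈ V, (g : M →ₗ[k] M) v ∈ V :=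
    fun g hg => hV g ((le_sup_right : H ≤ I ⊔ H) hg)
  have hFV : ¬ fm I V ≤ V := by
    obtain ⟨u, -, huV, hu⟩ := rk hI ⊤ V (fun _ _ _ _ => Submodule.mem_top)
      (fun h => hVtop (top_le_iff.mp h))
    intro hle
    exact huV (hle (mem_fm.mpr hu))
  have hFinv : ∀ h ∈ H, ∀ u ∈ fm I V, (h : M →ₗ[k] M) u ∈ fm I V := by
    intro h hh u hu
    rw [mem_fm]
    intro g hg
    have hc : h⁻¹ * g * h ∈ I := by
      have h3 := hn h⁻¹ (H.inv_mem hh) g hg
      rw [inv_inv] at h3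
      exact h3
    have h1 : ((h⁻¹ * g * h : LinearMap.GeneralLinearGroup k M) : M →ₗ[k] M) u - u ∈ V :=
      mem_fm.mp hu _ hc
    have h2 := hVH h hh _ h1
    rw [map_sub, conj_apply] at h2
    exact h2
  obtain ⟨u, huF, huV, huH⟩ := rk hH (fm I V) V hFinv hFV
  refine ⟨u, huV, ?_⟩
  let St : Subgroup (LinearMap.GeneralLinearGroup k M) :=
    { carrier := {g | g ∈ I ⊔ H ∧ (g : M →ₗ[k] M) u - u ∈ V}
      mul_mem' := by
        rintro a b ⟨ha, hau⟩ ⟨hb, hbu⟩
        refine ⟨mul_mem ha hb, ?_⟩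
        have h1 := hV a ha _ hbu
        have h2 := V.add_mem h1 hau
        have e : ((a * b : LinearMap.GeneralLinearGroup k M) : M →ₗ[k] M) u - u
            = (a : M →ₗ[k] M) ((b : M →ₗ[k] M) u - u) + ((a : M →ₗ[k] M) u - u) := by
          rw [Units.val_mul, Module.End.mul_apply, map_sub]; abel
        rw [e]; exact h2
      one_mem' := ⟨one_mem _, by simp⟩
      inv_mem' := by
        rintro a ⟨ha, hau⟩
        refine ⟨inv_mem ha, ?_⟩
        have h1 := hV a⁻¹ (inv_mem ha) _ hau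
        have e : ((a⁻¹ : LinearMap.GeneralLinearGroup k M) : M →ₗ[k] M) u - u
            = - ((a⁻¹ : LinearMap.GeneralLinearGroup k M) : M →ₗ[k] M)
                ((a : M →ₗ[k] M) u - u) := by
          rw [map_sub, inv_apply_self]; abel
        rw [e]; exact V.neg_mem h1 }
  have hle : I ⊔ H ≤ St := by
    apply sup_le
    · intro g hg
      exact ⟨(le_sup_left : I ≤ I ⊔ H) hg, mem_fm.mp huF g hg⟩
    · intro g hg
      exact ⟨(le_sup_right : H ≤ I ⊔ H) hg, huH g hg⟩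
  intro g hg
  obtain ⟨-, h⟩ := hle hg
  exact h

/-! ### nil subalgebras of `End M` -/

/-- the span of the `g - 1`, `g ∈ H` -/
def Sp (H : Subgroup (LinearMap.GeneralLinearGroup k M)) : Submodule k (M →ₗ[k] M) :=
  Submodule.span k {x | ∃ g ∈ H, x = (g : M →ₗ[k] M) - 1}

/-- a nil subspace closed under multiplication -/
structure NS (S : Submodule k (M →ₗ[k] M)) : Prop where
  mul : ∀ x ∈ S, ∀ y ∈ S, x * y ∈ S
  nil : ∃ n : ℕ, ∀ l : List (M →ₗ[k] M), (∀ x ∈ l, x ∈ S) → l.length = n → l.prod = 0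

theorem sub_one_mem_Sp {H : Subgroup (LinearMap.GeneralLinearGroup k M)}
    {g : LinearMap.GeneralLinearGroup k M} (hg : g ∈ H) : (g : M →ₗ[k] M) - 1 ∈ Sp H :=
  Submodule.subset_span ⟨g, hg, rfl⟩

theorem Sp_mono {H K : Subgroup (LinearMap.GeneralLinearGroup k M)} (h : H ≤ K) : Sp H ≤ Sp K :=
  Submodule.span_mono (by rintro x ⟨g, hg, rfl⟩; exact ⟨g, h hg, rfl⟩)

theorem Sp_mul (H : Subgroup (LinearMap.GeneralLinearGroup k M)) :
    ∀ x ∈ Sp H, ∀ y ∈ Sp H, x * y ∈ Sp H := by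
  intro x hx y hy
  have h1 : Sp H * Sp H ≤ Sp H := by
    unfold Sp
    rw [Submodule.span_mul_span]
    apply Submodule.span_le.mpr
    rintro z ⟨a, ⟨g, hg, rfl⟩, b, ⟨h, hh, rfl⟩, rfl⟩
    have e : ((g : M →ₗ[k] M) - 1) * ((h : M →ₗ[k] M) - 1)
        = (((g * h : LinearMap.GeneralLinearGroup k M) : M →ₗ[k] M) - 1)
          - ((g : M →ₗ[k] M) - 1) - ((h : M →ₗ[k] M) - 1) := by
      rw [Units.val_mul]; noncomm_ring
    show ((g : M →ₗ[k] M) - 1) * ((h : M →ₗ[k] M) - 1)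
      ∈ Submodule.span k {x | ∃ g ∈ H, x = (g : M →ₗ[k] M) - 1}
    rw [e]
    exact Submodule.sub_mem _ (Submodule.sub_mem _
      (Submodule.subset_span ⟨g * h, H.mul_mem hg hh, rfl⟩)
      (Submodule.subset_span ⟨g, hg, rfl⟩)) (Submodule.subset_span ⟨h, hh, rfl⟩)
  exact h1 (Submodule.mul_mem_mul hx hy)

theorem Sp_nil {H : Subgroup (LinearMap.GeneralLinearGroup k M)} (hH : IsUnipotentOn H) :
    ∃ n : ℕ, ∀ l : List (M →ₗ[k] M), (∀ x ∈ l, x ∈ Sp H) → l.length = n → l.prod = 0 := by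
  obtain ⟨n, hn⟩ := (isUnip_iff H).mp hH
  refine ⟨n, ?_⟩
  have hex : ∀ a : List (M →ₗ[k] M), (∀ x ∈ a, ∃ g ∈ H, x = (g : M →ₗ[k] M) - 1) →
      ∃ l : List (LinearMap.GeneralLinearGroup k M), (∀ g ∈ l, g ∈ H) ∧
        (l.map fun g : LinearMap.GeneralLinearGroup k M => (g : M →ₗ[k] M) - 1) = a := by
    intro a
    induction a with
    | nil => intro _; exact ⟨[], by simp, rfl⟩
    | cons x a ih =>
      intro ha
      obtain ⟨g, hg, rfl⟩ := ha x List.mem_cons_self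
      obtain ⟨l, hl, hla⟩ := ih (fun y hy => ha y (List.mem_cons_of_mem _ hy))
      refine ⟨g :: l, ?_, by rw [List.map_cons, hla]⟩
      intro y hy
      rcases List.mem_cons.mp hy with rfl | hy
      · exact hg
      · exact hl y hy
  have hgen : ∀ a : List (M →ₗ[k] M), (∀ x ∈ a, ∃ g ∈ H, x = (g : M →ₗ[k] M) - 1) →
      a.length = n → a.prod = 0 := by
    intro a ha hlen
    obtain ⟨l, hl, rfl⟩ := hex a ha
    exact hn l hl (by rw [← hlen, List.length_map])
  have key : ∀ l : List (M →ₗ[k] M), (∀ x ∈ l, x ∈ Sp H) →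
      ∀ a : List (M →ₗ[k] M), (∀ x ∈ a, ∃ g ∈ H, x = (g : M →ₗ[k] M) - 1) →
        a.length + l.length = n → (a ++ l).prod = 0 := by
    intro l
    induction l with
    | nil =>
      intro _ a ha hlen
      rw [List.append_nil]
      exact hgen a ha (by simpa using hlen)
    | cons x l ih =>
      intro hl a ha hlen
      have hx : x ∈ Submodule.span k {x | ∃ g ∈ H, x = (g : M →ₗ[k] M) - 1} :=
        hl x List.mem_cons_self
      have hl' : ∀ y ∈ l, y ∈ Sp H := fun y hy => hl y (List.mem_cons_of_mem _ hy)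
      rw [List.prod_append, List.prod_cons]
      refine Submodule.span_induction (p := fun z _ => a.prod * (z * l.prod) = 0) ?_ ?_ ?_ ?_ hx
      · rintro z ⟨g, hg, rfl⟩
        have h1 : ∀ y ∈ a ++ [(g : M →ₗ[k] M) - 1], ∃ g ∈ H, y = (g : M →ₗ[k] M) - 1 := by
          intro y hy
          rcases List.mem_append.mp hy with hy | hy
          · exact ha y hy
          · rw [List.mem_singleton] at hy
            exact ⟨g, hg, hy⟩
        have h2 : (a ++ [(g : M →ₗ[k] M) - 1]).length + l.length = n := by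
          rw [List.length_append, List.length_singleton]
          rw [List.length_cons] at hlen
          omega
        have h3 := ih hl' (a ++ [(g : M →ₗ[k] M) - 1]) h1 h2
        rw [List.append_assoc, List.singleton_append, List.prod_append, List.prod_cons] at h3
        exact h3
      · simp
      · intro z w _ _ hz hw
        rw [add_mul, mul_add, hz, hw, add_zero]
      · intro c z _ hz
        rw [smul_mul_assoc, mul_smul_comm, hz, smul_zero]
  intro l hl hlen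
  have h := key l hl [] (by simp) (by simpa using hlen)
  simpa using h

theorem NS_Sp {H : Subgroup (LinearMap.GeneralLinearGroup k M)} (hH : IsUnipotentOn H) :
    NS (Sp H) := ⟨Sp_mul H, Sp_nil hH⟩

theorem NS_bot : NS (⊥ : Submodule k (M →ₗ[k] M)) := by
  refine ⟨?_, 1, ?_⟩
  · intro x hx y _
    rw [Submodule.mem_bot] at hx
    rw [hx, zero_mul]
    exact Submodule.zero_mem _
  · intro l hl hlen
    obtain ⟨x, rfl⟩ := List.length_eq_one_iff.mp hlen
    have h := hl x (List.mem_singleton.mpr rfl)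
    rw [Submodule.mem_bot] at h
    rw [List.prod_singleton, h]

theorem NS_inf {S T : Submodule k (M →ₗ[k] M)} (hS : NS S) (hT : NS T) : NS (S ⊓ T) := by
  refine ⟨?_, ?_⟩
  · intro x hx y hy
    rw [Submodule.mem_inf] at hx hy ⊢
    exact ⟨hS.mul x hx.1 y hy.1, hT.mul x hx.2 y hy.2⟩
  · obtain ⟨n, hn⟩ := hS.nil
    exact ⟨n, fun l hl hlen => hn l (fun x hx => (Submodule.mem_inf.mp (hl x hx)).1) hlen⟩

theorem NS_of_le {S T : Submodule k (M →ₗ[k] M)} (hT : NS T) (h : S ≤ T)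
    (hmul : ∀ x ∈ S, ∀ y ∈ S, x * y ∈ S) : NS S := by
  obtain ⟨n, hn⟩ := hT.nil
  exact ⟨hmul, n, fun l hl hlen => hn l (fun x hx => h (hl x hx)) hlen⟩

theorem prod_mem_NS {S : Submodule k (M →ₗ[k] M)} (hS : NS S) :
    ∀ l : List (M →ₗ[k] M), l ≠ [] → (∀ x ∈ l, x ∈ S) → l.prod ∈ S := by
  intro l
  induction l with
  | nil => intro h; exact absurd rfl h
  | cons x l ih =>
    intro _ hl
    by_cases hl0 : l = []
    · subst hl0
      rw [List.prod_singleton]
      exact hl x List.mem_cons_self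
    · rw [List.prod_cons]
      exact hS.mul _ (hl x List.mem_cons_self) _
        (ih hl0 (fun y hy => hl y (List.mem_cons_of_mem _ hy)))

theorem nil_ge {S : Submodule k (M →ₗ[k] M)} {n : ℕ}
    (hn : ∀ l : List (M →ₗ[k] M), (∀ x ∈ l, x ∈ S) → l.length = n → l.prod = 0) :
    ∀ l : List (M →ₗ[k] M), (∀ x ∈ l, x ∈ S) → n ≤ l.length → l.prod = 0 := by
  intro l hl hlen
  have h1 : (l.take n).prod = 0 :=
    hn _ (fun x hx => hl x (List.mem_of_mem_take hx)) (by rw [List.length_take]; omega)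
  rw [← List.take_append_drop n l, List.prod_append, h1, zero_mul]

/-- idealiser growth in a nil algebra -/
theorem ng' {S' S₁ : Submodule k (M →ₗ[k] M)} (hS₁ : NS S₁) (hle : S' ≤ S₁) (hne : S' ≠ S₁) :
    ∃ t ∈ S₁, t ∉ S' ∧ ∀ s ∈ S₁, s * t ∈ S' ∧ t * s ∈ S' := by
  obtain ⟨s₀, hs₀1, hs₀⟩ := SetLike.exists_of_lt (lt_of_le_of_ne hle hne)
  obtain ⟨n, hn⟩ := hS₁.nil
  obtain ⟨Q, hQ⟩ : ∃ Q : ℕ → Prop, ∀ m, Q m ↔
      ∃ l : List (M →ₗ[k] M), (∀ x ∈ l, x ∈ S₁) ∧ l.length = m + 1 ∧ l.prod ∉ S' :=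
    ⟨_, fun _ => Iff.rfl⟩
  have hQ0 : Q 0 := (hQ 0).mpr ⟨[s₀], by simpa using hs₀1, rfl, by simpa using hs₀⟩
  have hQn : ¬ Q n := by
    intro h
    obtain ⟨l, hl, hlen, hp⟩ := (hQ n).mp h
    apply hp
    rw [nil_ge hn l hl (by omega)]
    exact Submodule.zero_mem _
  have hex : ∃ m, Q m ∧ ¬ Q (m + 1) := by
    by_contra hcon
    have hstep : ∀ m, Q m → Q (m + 1) := fun m hm => by
      by_contra h
      exact hcon ⟨m, hm, h⟩
    have : ∀ m, Q m := by
      intro m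
      induction m with
      | zero => exact hQ0
      | succ m ih => exact hstep m ih
    exact hQn (this n)
  obtain ⟨m, hm, hm1⟩ := hex
  obtain ⟨l, hl, hlen, hp⟩ := (hQ m).mp hm
  have hl0 : l ≠ [] := by
    intro h
    rw [h] at hlen
    simp at hlen
  refine ⟨l.prod, prod_mem_NS hS₁ l hl0 hl, hp, ?_⟩
  intro s hs
  constructor
  · by_contra h
    apply hm1
    refine (hQ (m + 1)).mpr ⟨s :: l, ?_, by simp [hlen], ?_⟩
    · intro x hx
      rcases List.mem_cons.mp hx with rfl | hx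
      · exact hs
      · exact hl x hx
    · rw [List.prod_cons]
      exact h
  · by_contra h
    apply hm1
    refine (hQ (m + 1)).mpr ⟨l ++ [s], ?_, by simp [hlen], ?_⟩
    · intro x hx
      rcases List.mem_append.mp hx with hx | hx
      · exact hl x hx
      · rw [List.mem_singleton] at hx
        rw [hx]
        exact hs
    · rw [List.prod_append, List.prod_singleton]
      exact h

/-! ### the family -/

section Family

variable (W : Set (Subgroup (LinearMap.GeneralLinearGroup k M)))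

/-- members of `W` lying in `1 + S` -/
def Dl (S : Submodule k (M →ₗ[k] M)) : Set (Subgroup (LinearMap.GeneralLinearGroup k M)) :=
  {A | A ∈ W ∧ ∀ g ∈ A, (g : M →ₗ[k] M) - 1 ∈ S}

theorem mem_Dl {S : Submodule k (M →ₗ[k] M)} {A : Subgroup (LinearMap.GeneralLinearGroup k M)} :
    A ∈ Dl W S ↔ A ∈ W ∧ ∀ g ∈ A, (g : M →ₗ[k] M) - 1 ∈ S := Iff.rfl

theorem Dl_mono {S T : Submodule k (M →ₗ[k] M)} (h : S ≤ T) : Dl W S ⊆ Dl W T := by
  intro A hA
  obtain ⟨h1, h2⟩ := (mem_Dl W).mp hA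
  exact (mem_Dl W).mpr ⟨h1, fun g hg => h (h2 g hg)⟩

theorem mem_sSup_Dl {S : Submodule k (M →ₗ[k] M)} (hS : NS S) :
    ∀ g ∈ sSup (Dl W S), (g : M →ₗ[k] M) - 1 ∈ S := by
  intro g hg
  rw [sSup_eq_iSup'] at hg
  refine Subgroup.iSup_induction (C := fun g : LinearMap.GeneralLinearGroup k M => (g : M →ₗ[k] M) - 1 ∈ S) _ hg ?_ ?_ ?_
  · rintro ⟨A, hA⟩ x hx
    exact ((mem_Dl W).mp hA).2 x hx
  · show ((1 : LinearMap.GeneralLinearGroup k M) : M →ₗ[k] M) - 1 ∈ S
    rw [Units.val_one, sub_self]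
    exact Submodule.zero_mem _
  · intro x y hx hy
    have e : ((x * y : LinearMap.GeneralLinearGroup k M) : M →ₗ[k] M) - 1
        = ((x : M →ₗ[k] M) - 1) * ((y : M →ₗ[k] M) - 1) + ((x : M →ₗ[k] M) - 1)
          + ((y : M →ₗ[k] M) - 1) := by
      rw [Units.val_mul]; noncomm_ring
    show ((x * y : LinearMap.GeneralLinearGroup k M) : M →ₗ[k] M) - 1 ∈ S
    rw [e]
    exact S.add_mem (S.add_mem (hS.mul _ hx _ hy) hx) hy

theorem unip_sSup_Dl {S : Submodule k (M →ₗ[k] M)} (hS : NS S) :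
    IsUnipotentOn (sSup (Dl W S)) := by
  obtain ⟨n, hn⟩ := hS.nil
  refine (isUnip_iff _).mpr ⟨n, fun l hl hlen => ?_⟩
  unfold up
  apply hn
  · intro x hx
    obtain ⟨g, hg, rfl⟩ := List.mem_map.mp hx
    exact mem_sSup_Dl W hS g (hl g hg)
  · rw [List.length_map]
    exact hlen

theorem Sp_sSup_le {S : Submodule k (M →ₗ[k] M)} (hS : NS S) : Sp (sSup (Dl W S)) ≤ S := by
  apply Submodule.span_le.mpr
  rintro x ⟨g, hg, rfl⟩
  exact mem_sSup_Dl W hS g hg

/-- the measure of a nil subalgebra -/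
noncomputable def mu (S : Submodule k (M →ₗ[k] M)) : ℕ :=
  Module.finrank k (Sp (sSup (Dl W S)))

theorem mu_lt [FiniteDimensional k M] {S T : Submodule k (M →ₗ[k] M)} (hS : NS S)
    (hsub : Dl W S ⊆ Dl W T) {A : Subgroup (LinearMap.GeneralLinearGroup k M)}
    (hAT : A ∈ Dl W T) (hAS : A ∉ Dl W S) : mu W S < mu W T := by
  have hle : Sp (sSup (Dl W S)) ≤ Sp (sSup (Dl W T)) := Sp_mono (sSup_le_sSup hsub)
  have hne : Sp (sSup (Dl W S)) ≠ Sp (sSup (Dl W T)) := by
    intro heq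
    apply hAS
    refine (mem_Dl W).mpr ⟨((mem_Dl W).mp hAT).1, fun g hg => ?_⟩
    have h1 : (g : M →ₗ[k] M) - 1 ∈ Sp (sSup (Dl W T)) := sub_one_mem_Sp ((le_sSup hAT) hg)
    rw [← heq] at h1
    exact Sp_sSup_le W hS h1
  exact Submodule.finrank_lt_finrank_of_lt (lt_of_le_of_ne hle hne)

theorem mu_le [FiniteDimensional k M] (S : Submodule k (M →ₗ[k] M)) :
    mu W S ≤ Module.finrank k (M →ₗ[k] M) := Submodule.finrank_le _

/-- maximal with respect to the family it captures -/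
def IsMax (S : Submodule k (M →ₗ[k] M)) : Prop :=
  NS S ∧ ∀ T, NS T → Dl W S ⊆ Dl W T → Dl W T ⊆ Dl W S

theorem exists_max [FiniteDimensional k M] : ∀ (d : ℕ) (S : Submodule k (M →ₗ[k] M)), NS S →
    Module.finrank k (M →ₗ[k] M) - mu W S = d → ∃ T, IsMax W T ∧ Dl W S ⊆ Dl W T := by
  intro d
  induction d using Nat.strong_induction_on with
  | _ d ih =>
    intro S hS hd
    by_cases hmax : ∀ T, NS T → Dl W S ⊆ Dl W T → Dl W T ⊆ Dl W S
    · exact ⟨S, ⟨hS, hmax⟩, subset_rfl⟩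
    · have hexT : ∃ T, NS T ∧ Dl W S ⊆ Dl W T ∧ ¬ Dl W T ⊆ Dl W S := by
        by_contra hcon
        exact hmax (fun T hT hST => by_contra (fun hTS => hcon ⟨T, hT, hST, hTS⟩))
      obtain ⟨T, hT, hST, hTS⟩ := hexT
      obtain ⟨A, hAT, hAS⟩ := Set.not_subset.mp hTS
      have hlt := mu_lt W hS hST hAT hAS
      have hle := mu_le W T
      obtain ⟨T', hT', hTT'⟩ := ih (Module.finrank k (M →ₗ[k] M) - mu W T) (by omega) T hT rfl
      exact ⟨T', hT', hST.trans hTT'⟩

theorem ng [FiniteDimensional k M] {G : Subgroup (LinearMap.GeneralLinearGroup k M)}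
    (hWG : ∀ A ∈ W, A ≤ G) (hWconj : ∀ A ∈ W, ∀ g ∈ G, conjBy A g ∈ W)
    {S₀ S₁ : Submodule k (M →ₗ[k] M)} (hS₀ : NS S₀) (hS₁ : NS S₁) (hle : S₀ ≤ S₁)
    (hne : Dl W S₀ ≠ Dl W S₁) :
    ∃ X ∈ Dl W S₁, X ∉ Dl W S₀ ∧ ∀ x ∈ X, ∀ A ∈ Dl W S₀, conjBy A x ∈ Dl W S₀ := by
  have main : ∀ (d : ℕ) (S' : Submodule k (M →ₗ[k] M)), NS S' → S' ≤ S₁ → Dl W S' = Dl W S₀ →
      Module.finrank k (M →ₗ[k] M) - Module.finrank k S' = d →
      ∃ X ∈ Dl W S₁, X ∉ Dl W S₀ ∧ ∀ x ∈ X, ∀ A ∈ Dl W S₀, conjBy A x ∈ Dl W S₀ := by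
    intro d
    induction d using Nat.strong_induction_on with
    | _ d ih =>
      intro S' hS' hS'1 hDl hd
      have hne' : S' ≠ S₁ := by
        intro h
        rw [h] at hDl
        exact hne hDl.symm
      obtain ⟨t, ht1, htS', ht⟩ := ng' hS₁ hS'1 hne'
      obtain ⟨S'', hS''def⟩ : ∃ S'' : Submodule k (M →ₗ[k] M),
          S'' = S' ⊔ Submodule.span k {t} := ⟨_, rfl⟩
      have hmem : ∀ x ∈ S'', ∃ s ∈ S', ∃ c : k, x = s + c • t := by
        intro x hx
        rw [hS''def] at hx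
        obtain ⟨s, hs, y, hy, rfl⟩ := Submodule.mem_sup.mp hx
        obtain ⟨c, rfl⟩ := Submodule.mem_span_singleton.mp hy
        exact ⟨s, hs, c, rfl⟩
      have hS'le : S' ≤ S'' := by
        rw [hS''def]
        exact le_sup_left
      have htS'' : t ∈ S'' := by
        rw [hS''def]
        exact (le_sup_right : Submodule.span k {t} ≤ S' ⊔ Submodule.span k {t})
          (Submodule.mem_span_singleton_self t)
      have hS''1 : S'' ≤ S₁ := by
        rw [hS''def]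
        exact sup_le hS'1 (Submodule.span_le.mpr (Set.singleton_subset_iff.mpr ht1))
      have hmulL : ∀ x ∈ S'', ∀ y ∈ S', x * y ∈ S' := by
        intro x hx y hy
        obtain ⟨s, hs, c, rfl⟩ := hmem x hx
        rw [add_mul, smul_mul_assoc]
        exact S'.add_mem (hS'.mul s hs y hy) (S'.smul_mem c (ht y (hS'1 hy)).2)
      have hmulR : ∀ y ∈ S', ∀ x ∈ S'', y * x ∈ S' := by
        intro y hy x hx
        obtain ⟨s, hs, c, rfl⟩ := hmem x hx
        rw [mul_add, mul_smul_comm]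
        exact S'.add_mem (hS'.mul y hy s hs) (S'.smul_mem c (ht y (hS'1 hy)).1)
      have hS''mul : ∀ x ∈ S'', ∀ y ∈ S'', x * y ∈ S'' := by
        intro x hx y hy
        obtain ⟨s, hs, c, rfl⟩ := hmem y hy
        rw [mul_add, mul_smul_comm]
        exact S''.add_mem (hS'le (hmulL x hx s hs))
          (S''.smul_mem c (hS'le (ht x (hS''1 hx)).1))
      have hNS'' : NS S'' := NS_of_le hS₁ hS''1 hS''mul
      by_cases hDl'' : Dl W S'' = Dl W S₀
      · have hlt : S' < S'' := by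
          refine lt_of_le_of_ne hS'le ?_
          intro h
          apply htS'
          rw [h]
          exact htS''
        have hf := Submodule.finrank_lt_finrank_of_lt hlt
        have hf2 := Submodule.finrank_le S''
        exact ih (Module.finrank k (M →ₗ[k] M) - Module.finrank k S'') (by omega) S'' hNS''
          hS''1 hDl'' rfl
      · have hsub : Dl W S₀ ⊆ Dl W S'' := by
          rw [← hDl]
          exact Dl_mono W hS'le
        have hexX : ∃ X ∈ Dl W S'', X ∉ Dl W S₀ := by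
          by_contra hcon
          apply hDl''
          apply Set.Subset.antisymm
          · intro X hX
            by_contra hX0
            exact hcon ⟨X, hX, hX0⟩
          · exact hsub
        obtain ⟨X, hX, hX0⟩ := hexX
        refine ⟨X, Dl_mono W hS''1 hX, hX0, ?_⟩
        intro x hx A hA
        rw [← hDl] at hA ⊢
        obtain ⟨hXW, hXS⟩ := (mem_Dl W).mp hX
        obtain ⟨hAW, hAS⟩ := (mem_Dl W).mp hA
        refine (mem_Dl W).mpr ⟨hWconj A hAW x (hWG X hXW hx), ?_⟩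
        intro b hb
        obtain ⟨a, ha, rfl⟩ := Subgroup.mem_map.1 hb
        have h1 : (x : M →ₗ[k] M) - 1 ∈ S'' := hXS x hx
        have h2 : ((x⁻¹ : LinearMap.GeneralLinearGroup k M) : M →ₗ[k] M) - 1 ∈ S'' :=
          hXS _ (X.inv_mem hx)
        have h3 : (a : M →ₗ[k] M) - 1 ∈ S' := hAS a ha
        have hxx : (x : M →ₗ[k] M) * ((x⁻¹ : LinearMap.GeneralLinearGroup k M) : M →ₗ[k] M) = 1 :=
          Units.mul_inv x
        have e : ((x * a * x⁻¹ : LinearMap.GeneralLinearGroup k M) : M →ₗ[k] M) - 1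
            = ((a : M →ₗ[k] M) - 1) + ((x : M →ₗ[k] M) - 1) * ((a : M →ₗ[k] M) - 1)
              + ((a : M →ₗ[k] M) - 1)
                * (((x⁻¹ : LinearMap.GeneralLinearGroup k M) : M →ₗ[k] M) - 1)
              + ((x : M →ₗ[k] M) - 1) * ((a : M →ₗ[k] M) - 1)
                * (((x⁻¹ : LinearMap.GeneralLinearGroup k M) : M →ₗ[k] M) - 1) := by
          have e1 : ((x * a * x⁻¹ : LinearMap.GeneralLinearGroup k M) : M →ₗ[k] M) - 1
              = (x : M →ₗ[k] M) * ((a : M →ₗ[k] M) - 1)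
                * ((x⁻¹ : LinearMap.GeneralLinearGroup k M) : M →ₗ[k] M) := by
            rw [Units.val_mul, Units.val_mul, mul_sub, sub_mul, mul_one, hxx]
          rw [e1]
          noncomm_ring
        show ((x * a * x⁻¹ : LinearMap.GeneralLinearGroup k M) : M →ₗ[k] M) - 1 ∈ S'
        rw [e]
        exact S'.add_mem (S'.add_mem (S'.add_mem h3 (hmulL _ h1 _ h3)) (hmulR _ h3 _ h2))
          (hmulR _ (hmulL _ h1 _ h3) _ h2)
  exact main _ S₀ hS₀ hle rfl rfl

theorem conj_mem_sSup {S₀ : Submodule k (M →ₗ[k] M)} {x : LinearMap.GeneralLinearGroup k M}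
    (hx : ∀ A ∈ Dl W S₀, conjBy A x ∈ Dl W S₀) :
    ∀ g ∈ sSup (Dl W S₀), x * g * x⁻¹ ∈ sSup (Dl W S₀) := by
  intro g hg
  have hg' := hg
  rw [sSup_eq_iSup'] at hg'
  refine Subgroup.iSup_induction (C := fun g : LinearMap.GeneralLinearGroup k M => x * g * x⁻¹ ∈ sSup (Dl W S₀)) _ hg' ?_ ?_ ?_
  · rintro ⟨A, hA⟩ y hy
    exact (le_sSup (hx A hA)) (Subgroup.mem_map.2 ⟨y, hy, rfl⟩)
  · show x * 1 * x⁻¹ ∈ sSup (Dl W S₀)
    rw [mul_one, mul_inv_cancel]
    exact one_mem _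
  · intro a b ha hb
    have e : x * (a * b) * x⁻¹ = (x * a * x⁻¹) * (x * b * x⁻¹) := by group
    show x * (a * b) * x⁻¹ ∈ sSup (Dl W S₀)
    rw [e]
    exact mul_mem ha hb

theorem le_normalizer_of_conj {S₀ : Submodule k (M →ₗ[k] M)}
    (X : Subgroup (LinearMap.GeneralLinearGroup k M))
    (hX : ∀ x ∈ X, ∀ A ∈ Dl W S₀, conjBy A x ∈ Dl W S₀) :
    X ≤ Subgroup.normalizer ((sSup (Dl W S₀) : Subgroup (LinearMap.GeneralLinearGroup k M)) :
      Set (LinearMap.GeneralLinearGroup k M)) := by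
  intro x hx
  rw [Subgroup.mem_normalizer_iff]
  intro g
  constructor
  · exact conj_mem_sSup W (hX x hx) g
  · intro hg
    have h := conj_mem_sSup W (hX x⁻¹ (X.inv_mem hx)) _ hg
    have e : x⁻¹ * (x * g * x⁻¹) * x⁻¹⁻¹ = g := by group
    rw [e] at h
    exact h

theorem step [FiniteDimensional k M] {G : Subgroup (LinearMap.GeneralLinearGroup k M)}
    (hWG : ∀ A ∈ W, A ≤ G) (hWW : ∀ A ∈ W, ∀ B ∈ W, IsUnipotentOn (A ⊔ B))
    (hWconj : ∀ A ∈ W, ∀ g ∈ G, conjBy A g ∈ W)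
    {S₁ S₂ : Submodule k (M →ₗ[k] M)} (h1 : IsMax W S₁) (h2 : IsMax W S₂)
    (hne : Dl W S₁ ≠ Dl W S₂) :
    ∃ S₃, IsMax W S₃ ∧ Dl W S₁ ≠ Dl W S₃ ∧ mu W (S₁ ⊓ S₂) < mu W (S₁ ⊓ S₃) := by
  have hS₀ : NS (S₁ ⊓ S₂) := NS_inf h1.1 h2.1
  have hDl0 : ∀ A, A ∈ Dl W (S₁ ⊓ S₂) ↔ A ∈ Dl W S₁ ∧ A ∈ Dl W S₂ := by
    intro A
    constructor
    · intro hA
      exact ⟨Dl_mono W inf_le_left hA, Dl_mono W inf_le_right hA⟩
    · rintro ⟨hA1, hA2⟩
      obtain ⟨hAW, hA1'⟩ := (mem_Dl W).mp hA1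
      obtain ⟨-, hA2'⟩ := (mem_Dl W).mp hA2
      exact (mem_Dl W).mpr ⟨hAW, fun g hg => Submodule.mem_inf.mpr ⟨hA1' g hg, hA2' g hg⟩⟩
  have hn1 : Dl W (S₁ ⊓ S₂) ≠ Dl W S₁ := by
    intro heq
    apply hne
    have hsub : Dl W S₁ ⊆ Dl W S₂ := by
      intro A hA
      rw [← heq] at hA
      exact ((hDl0 A).mp hA).2
    exact Set.Subset.antisymm hsub (h1.2 S₂ h2.1 hsub)
  have hn2 : Dl W (S₁ ⊓ S₂) ≠ Dl W S₂ := by
    intro heq
    apply hne
    have hsub : Dl W S₂ ⊆ Dl W S₁ := by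
      intro A hA
      rw [← heq] at hA
      exact ((hDl0 A).mp hA).1
    exact Set.Subset.antisymm (h2.2 S₁ h1.1 hsub) hsub
  obtain ⟨X, hX1, hX0, hXn⟩ := ng W hWG hWconj hS₀ h1.1 inf_le_left hn1
  obtain ⟨Y, hY2, hY0, hYn⟩ := ng W hWG hWconj hS₀ h2.1 inf_le_right hn2
  have hXW : X ∈ W := ((mem_Dl W).mp hX1).1
  have hYW : Y ∈ W := ((mem_Dl W).mp hY2).1
  have hY1 : Y ∉ Dl W S₁ := fun h => hY0 ((hDl0 Y).mpr ⟨h, hY2⟩)
  have hnorm : X ⊔ Y ≤ Subgroup.normalizer
      ((sSup (Dl W (S₁ ⊓ S₂)) : Subgroup (LinearMap.GeneralLinearGroup k M)) :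
        Set (LinearMap.GeneralLinearGroup k M)) :=
    sup_le (le_normalizer_of_conj W X hXn) (le_normalizer_of_conj W Y hYn)
  have hunip : IsUnipotentOn (sSup (Dl W (S₁ ⊓ S₂)) ⊔ (X ⊔ Y)) := by
    apply l2 _ _ (unip_sSup_Dl W hS₀) (hWW X hXW Y hYW)
    intro h hh g hg
    exact (Subgroup.mem_normalizer_iff.mp (hnorm hh) g).mp hg
  obtain ⟨S₃, hS₃, hsub3⟩ := exists_max W _ _ (NS_Sp hunip) rfl
  have hin : ∀ A, A ≤ sSup (Dl W (S₁ ⊓ S₂)) ⊔ (X ⊔ Y) → A ∈ W → A ∈ Dl W S₃ := by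
    intro A hA hAW
    apply hsub3
    exact (mem_Dl W).mpr ⟨hAW, fun g hg => sub_one_mem_Sp (hA hg)⟩
  have hX3 : X ∈ Dl W S₃ := hin X (le_sup_of_le_right le_sup_left) hXW
  have hY3 : Y ∈ Dl W S₃ := hin Y (le_sup_of_le_right le_sup_right) hYW
  refine ⟨S₃, hS₃, ?_, ?_⟩
  · intro heq
    apply hY1
    rw [heq]
    exact hY3
  · apply mu_lt W hS₀ (A := X)
    · intro A hA
      have hA' := (hDl0 A).mp hA
      have hA3 := hin A (le_sup_of_le_left (le_sSup hA)) ((mem_Dl W).mp hA).1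
      exact (mem_Dl W).mpr ⟨((mem_Dl W).mp hA).1, fun g hg =>
        Submodule.mem_inf.mpr ⟨((mem_Dl W).mp hA'.1).2 g hg, ((mem_Dl W).mp hA3).2 g hg⟩⟩
    · exact (mem_Dl W).mpr ⟨hXW, fun g hg =>
        Submodule.mem_inf.mpr ⟨((mem_Dl W).mp hX1).2 g hg, ((mem_Dl W).mp hX3).2 g hg⟩⟩
    · exact hX0

theorem main [FiniteDimensional k M] {G : Subgroup (LinearMap.GeneralLinearGroup k M)}
    (hWG : ∀ A ∈ W, A ≤ G) (hWW : ∀ A ∈ W, ∀ B ∈ W, IsUnipotentOn (A ⊔ B))
    (hWconj : ∀ A ∈ W, ∀ g ∈ G, conjBy A g ∈ W) : IsUnipotentOn (sSup W) := by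
  obtain ⟨S₁, hS₁, -⟩ := exists_max W _ ⊥ NS_bot rfl
  have hall : Dl W S₁ = W := by
    by_contra hne
    have hexB : ∃ B ∈ W, B ∉ Dl W S₁ := by
      by_contra hcon
      apply hne
      apply Set.Subset.antisymm
      · intro A hA
        exact ((mem_Dl W).mp hA).1
      · intro A hA
        by_contra hA1
        exact hcon ⟨A, hA, hA1⟩
    obtain ⟨B, hBW, hB1⟩ := hexB
    have hBu : IsUnipotentOn B := by
      have h := hWW B hBW B hBW
      rw [sup_idem] at h
      exact h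
    obtain ⟨S₂, hS₂, hsub2⟩ := exists_max W _ _ (NS_Sp hBu) rfl
    have hB2 : B ∈ Dl W S₂ := hsub2 ((mem_Dl W).mpr ⟨hBW, fun g hg => sub_one_mem_Sp hg⟩)
    have hne12 : Dl W S₁ ≠ Dl W S₂ := by
      intro h
      apply hB1
      rw [h]
      exact hB2
    have key : ∀ (d : ℕ) (S₂ : Submodule k (M →ₗ[k] M)), IsMax W S₂ → Dl W S₁ ≠ Dl W S₂ →
        Module.finrank k (M →ₗ[k] M) - mu W (S₁ ⊓ S₂) = d → False := by
      intro d
      induction d using Nat.strong_induction_on with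
      | _ d ih =>
        intro S₂ hS₂ hne hd
        obtain ⟨S₃, hS₃, hne3, hlt⟩ := step W hWG hWW hWconj hS₁ hS₂ hne
        have hle := mu_le W (S₁ ⊓ S₃)
        exact ih (Module.finrank k (M →ₗ[k] M) - mu W (S₁ ⊓ S₃)) (by omega) S₃ hS₃ hne3 rfl
    exact key _ S₂ hS₂ hne12 rfl
  have h := unip_sSup_Dl W hS₁.1
  rw [hall] at h
  exact h

theorem normal_part {G : Subgroup (LinearMap.GeneralLinearGroup k M)}
    (hWconj : ∀ A ∈ W, ∀ g ∈ G, conjBy A g ∈ W) : ∀ g ∈ G, conjBy (sSup W) g = sSup W := by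
  intro g hg
  apply le_antisymm
  · show (sSup W).map (MulAut.conj g).toMonoidHom ≤ sSup W
    rw [Subgroup.map_le_iff_le_comap]
    apply sSup_le
    intro A hA
    rw [← Subgroup.map_le_iff_le_comap]
    exact le_sSup (hWconj A hA g hg)
  · apply sSup_le
    intro A hA a ha
    refine Subgroup.mem_map.2 ⟨g⁻¹ * a * g,
      le_sSup (hWconj A hA g⁻¹ (G.inv_mem hg)) (Subgroup.mem_map.2 ⟨a, ha, ?_⟩), ?_⟩
    · show g⁻¹ * a * g⁻¹⁻¹ = g⁻¹ * a * g
      rw [inv_inv]
    · show g * (g⁻¹ * a * g) * g⁻¹ = a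
      group

end Family

end Cfsg.Agent.Helper2.Unip
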