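import Cfsg.Agent.S0880
import Cfsg.Prelude.Def_LieExceptional
import Mathlib

/-!
# Involutions in Zassenhaus groups with two-point stabilisers of odd order

All involutions are conjugate, and their number is `e * (h + 1)` (degree `h + 1` odd) or `e * h`
(degree even, given that the elements swapping two points invert the two-point stabiliser).
-/

set_option autoImplicit false

namespace Cfsg.Agent.Helper2.ZInv

theorem fix_pow {G Ω : Type*} [Group G] [MulAction G Ω] (u : G) (z : Ω) (hz : u • z = z)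
    (k : ℕ) : u ^ k • z = z := by
  induction k with
  | zero => rw [pow_zero, one_smul]
  | succ k ih => rw [pow_succ, mul_smul, hz, ih]

theorem two_dvd_card {G Ω : Type*} [Group G] [Finite G] [MulAction G Ω]
    (h2 : ∀ a b c d : Ω, a ≠ b → c ≠ d → ∃ g : G, g • a = c ∧ g • b = d)
    {a b : Ω} (hab : a ≠ b) : 2 ∣ Nat.card G := by
  obtain ⟨w, hwa, hwb⟩ := h2 a b b a hab hab.symm
  have hwwb : (w * w) • b = b := by rw [mul_smul, hwb, hwa]
  have hev : Even (orderOf w) := by
    by_contra hne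
    obtain ⟨m, hm⟩ := Nat.not_even_iff_odd.mp hne
    have h1 : w ^ (2 * m + 1) = 1 := by rw [← hm]; exact pow_orderOf_eq_one w
    have h2' : w ^ (2 * m + 1) • a = b := by
      rw [pow_succ, pow_mul, pow_two, mul_smul, hwa]
      exact fix_pow (w * w) b hwwb m
    rw [h1, one_smul] at h2'
    exact hab h2'
  exact (even_iff_two_dvd.mp hev).trans (orderOf_dvd_natCard w)

theorem main {G Ω : Type*} [Group G] [Finite G] [MulAction G Ω] [Fintype Ω]
    (hfaith : FaithfulSMul G Ω)
    (h2 : ∀ a b c d : Ω, a ≠ b → c ≠ d → ∃ g : G, g • a = c ∧ g • b = d)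
    (h3 : ∀ g : G, ∀ a b c : Ω, a ≠ b → b ≠ c → a ≠ c → g • a = a → g • b = b → g • c = c →
      g = 1)
    (h e : ℕ) (hh : Fintype.card Ω = h + 1) (hhpos : 0 < h)
    (hE : ∀ x y : Ω, x ≠ y →
      Nat.card ↥(MulAction.stabilizer G x ⊓ MulAction.stabilizer G y : Subgroup G) = e)
    (hodd : Odd e)
    (hinv : ¬ Even h → ∀ x y : Ω, x ≠ y → ∀ s : G, s • x = y → s • y = x →
      ∀ g : G, g • x = x → g • y = y → s * g * s⁻¹ = g⁻¹) :
    (∀ x y : G, orderOf x = 2 → orderOf y = 2 → IsConj x y) ∧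
      Nat.card {x : G // orderOf x = 2} = (if Even h then e * (h + 1) else e * h) := by
  classical
  haveI : Fintype G := Fintype.ofFinite G
  have : Fact (Nat.Prime 2) := ⟨Nat.prime_two⟩
  obtain ⟨j, hj⟩ := hodd
  have hcf : ∀ (P : G → Prop) [DecidablePred P],
      (Finset.univ.filter P).card = Nat.card {x : G // P x} := by
    intro P _
    rw [Nat.card_eq_fintype_card, Fintype.card_subtype]
  have hoddpow : ∀ (u : G), u ^ e = (u * u) ^ j * u := by
    intro u
    rw [hj, pow_succ, pow_mul, pow_two]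
  have hpow : ∀ x y : Ω, x ≠ y → ∀ g : G, g • x = x → g • y = y → g ^ e = 1 := by
    intro x y hxy g hgx hgy
    have hmem : g ∈ (MulAction.stabilizer G x ⊓ MulAction.stabilizer G y : Subgroup G) :=
      Subgroup.mem_inf.mpr ⟨hgx, hgy⟩
    have hp := pow_card_eq_one'
      (G := ↥(MulAction.stabilizer G x ⊓ MulAction.stabilizer G y : Subgroup G))
      (x := ⟨g, hmem⟩)
    rw [hE x y hxy] at hp
    have hp' : g ^ e = 1 := congrArg Subtype.val hp
    exact hp'
  have hsq1 : ∀ g : G, g * g = 1 → g ^ e = 1 → g = 1 := by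
    intro g hgg hge
    rw [hoddpow g, hgg, one_pow, one_mul] at hge
    exact hge
  have hinv1 : ∀ t : G, t ≠ 1 → t * t = 1 → ∀ c d : Ω, t • c = c → t • d = d → c = d := by
    intro t ht1 htt c d hc hd
    by_contra hcd
    exact ht1 (hsq1 t htt (hpow c d hcd t hc hd))
  have hswap : ∀ (v : G) (x y : Ω), v * v = 1 → v • x = y → v • y = x := by
    intro v x y hvv hvx
    rw [← hvx, ← mul_smul, hvv, one_smul]
  -- transitivity of the two-point stabiliser on the involutions swapping the two points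
  have htrans : ∀ x y : Ω, x ≠ y → ∀ v v' : G, v * v = 1 → v • x = y → v' * v' = 1 →
      v' • x = y → ∃ g : G, g • x = x ∧ g • y = y ∧ g * v * g⁻¹ = v' := by
    intro x y hxy v v' hvv hvx hv'v' hv'x
    have hvy := hswap v x y hvv hvx
    have hv'y := hswap v' x y hv'v' hv'x
    obtain ⟨u, hu⟩ : ∃ u : G, u = v' * v := ⟨_, rfl⟩
    have hux : u • x = x := by rw [hu, mul_smul, hvx, hv'y]
    have huy : u • y = y := by rw [hu, mul_smul, hvy, hv'x]
    have hue : u ^ e = 1 := hpow x y hxy u hux huy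
    have huinv : u⁻¹ = v * v' := by
      apply inv_eq_of_mul_eq_one_right
      rw [hu]
      calc v' * v * (v * v') = v' * (v * v) * v' := by group
        _ = 1 := by rw [hvv, mul_one, hv'v']
    have hvu : v * u = u⁻¹ * v := by
      rw [huinv, hu, mul_assoc]
    have hsc : ∀ k : ℕ, v * u ^ k = (u ^ k)⁻¹ * v := by
      intro k
      induction k with
      | zero => rw [pow_zero, mul_one, inv_one, one_mul]
      | succ k ih =>
        calc v * u ^ (k + 1) = v * u ^ k * u := by rw [pow_succ, mul_assoc]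
          _ = (u ^ k)⁻¹ * (v * u) := by rw [ih, mul_assoc]
          _ = (u ^ k)⁻¹ * (u⁻¹ * v) := by rw [hvu]
          _ = (u ^ (k + 1))⁻¹ * v := by rw [pow_succ', mul_inv_rev, mul_assoc]
    obtain ⟨g, hg⟩ : ∃ g : G, g = u ^ (j + 1) := ⟨_, rfl⟩
    have hvg : v * g = g⁻¹ * v := by rw [hg]; exact hsc (j + 1)
    have hgg : g * g = u := by
      rw [hg, ← pow_add]
      have h2j : j + 1 + (j + 1) = e + 1 := by omega
      rw [h2j, pow_succ, hue, one_mul]
    have hvfix : g⁻¹ * v * g⁻¹ = v := by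
      rw [← hvg]; group
    refine ⟨g, ?_, ?_, ?_⟩
    · rw [hg]; exact fix_pow u x hux (j + 1)
    · rw [hg]; exact fix_pow u y huy (j + 1)
    · calc g * v * g⁻¹ = g * g * (g⁻¹ * v * g⁻¹) := by group
        _ = u * v := by rw [hvfix, hgg]
        _ = v' := by rw [hu, mul_assoc, hvv, mul_one]
  -- existence of an involution swapping two points
  have hex : ∀ x y : Ω, x ≠ y → ∃ v : G, v * v = 1 ∧ v • x = y := by
    intro x y hxy
    obtain ⟨w, hwx, hwy⟩ := h2 x y y x hxy hxy.symm
    have hwwx : (w * w) • x = x := by rw [mul_smul, hwx, hwy]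
    have hwwy : (w * w) • y = y := by rw [mul_smul, hwy, hwx]
    refine ⟨w ^ e, ?_, ?_⟩
    · rw [← (Commute.refl w).mul_pow e]
      exact hpow x y hxy (w * w) hwwx hwwy
    · rw [hoddpow w, mul_smul, hwx]
      exact fix_pow (w * w) y hwwy j
  -- parity of the number of moved points
  have hmv : ∀ v : G, v * v = 1 →
      2 ∣ (Finset.univ.filter (fun z : Ω => ¬ v • z = z)).card := by
    intro v hvv
    have hσ : (MulAction.toPerm v : Equiv.Perm Ω) ^ 2 = 1 := by
      ext z
      rw [pow_two, Equiv.Perm.mul_apply, MulAction.toPerm_apply, MulAction.toPerm_apply,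
        Equiv.Perm.one_apply, ← mul_smul, hvv, one_smul]
    have h2d := Equiv.Perm.two_dvd_card_support hσ
    have hsupp : (MulAction.toPerm v : Equiv.Perm Ω).support =
        Finset.univ.filter (fun z : Ω => ¬ v • z = z) := by
      ext z
      rw [Equiv.Perm.mem_support, Finset.mem_filter, MulAction.toPerm_apply]
      exact ⟨fun hz => ⟨Finset.mem_univ _, hz⟩, fun hz => hz.2⟩
    rw [hsupp] at h2d
    exact h2d
  have hsplit : ∀ v : G, (Finset.univ.filter (fun z : Ω => v • z = z)).card +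
      (Finset.univ.filter (fun z : Ω => ¬ v • z = z)).card = h + 1 := by
    intro v
    rw [Finset.card_filter_add_card_filter_not, Finset.card_univ, hh]
  -- freeness
  have hfree : ∀ x y : Ω, x ≠ y → ∀ v : G, v * v = 1 → v • x = y →
      ∀ g : G, g • x = x → g • y = y → g * v * g⁻¹ = v → g = 1 := by
    intro x y hxy v hvv hvx g hgx hgy hgv
    have hvy := hswap v x y hvv hvx
    have hcomm : g * v = v * g := by
      calc g * v = g * v * g⁻¹ * g := by group
        _ = v * g := by rw [hgv]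
    by_cases hev : Even h
    · have hv1 : v ≠ 1 := by
        intro hv1
        rw [hv1, one_smul] at hvx
        exact hxy hvx
      have hfixne : (Finset.univ.filter (fun z : Ω => v • z = z)).card ≠ 0 := by
        intro h0
        have hd := hmv v hvv
        have hs := hsplit v
        obtain ⟨m, hm⟩ := hev
        omega
      obtain ⟨z, hz⟩ := Finset.card_pos.mp (Nat.pos_of_ne_zero hfixne)
      have hvz : v • z = z := (Finset.mem_filter.mp hz).2
      have hzx : x ≠ z := by
        intro hxz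
        rw [← hxz, hvx] at hvz
        exact hxy hvz.symm
      have hzy : y ≠ z := by
        intro hyz
        rw [← hyz, hvy] at hvz
        exact hxy hvz
      have hgz : g • z = z := by
        apply hinv1 v hv1 hvv (g • z) z ?_ hvz
        rw [← mul_smul, ← hcomm, mul_smul, hvz]
      exact h3 g x y z hxy hzy hzx hgx hgy hgz
    · have h1 := hinv hev x y hxy v hvx hvy g hgx hgy
      have h2' : v * g * v⁻¹ = g := by rw [← hcomm]; group
      have hgi : g = g⁻¹ := h2'.symm.trans h1
      have hgg : g * g = 1 := by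
        calc g * g = g * g⁻¹ := by rw [← hgi]
          _ = 1 := mul_inv_cancel g
      exact hsq1 g hgg (hpow x y hxy g hgx hgy)
  -- exactly e involutions swap two given points
  have hS : ∀ x y : Ω, x ≠ y →
      (Finset.univ.filter (fun v : G => v * v = 1 ∧ v • x = y)).card = e := by
    intro x y hxy
    obtain ⟨v₀, hv₀, hv₀x⟩ := hex x y hxy
    have hmem : ∀ g : G, g • x = x → g • y = y →
        (g * v₀ * g⁻¹) * (g * v₀ * g⁻¹) = 1 ∧ (g * v₀ * g⁻¹) • x = y := by
      intro g hgx hgy
      constructor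
      · calc g * v₀ * g⁻¹ * (g * v₀ * g⁻¹) = g * (v₀ * v₀) * g⁻¹ := by group
          _ = 1 := by rw [hv₀, mul_one, mul_inv_cancel]
      · rw [mul_smul, mul_smul, inv_smul_eq_iff.mpr hgx.symm, hv₀x, hgy]
    obtain ⟨K, hK⟩ : ∃ K : Subgroup G,
        K = MulAction.stabilizer G x ⊓ MulAction.stabilizer G y := ⟨_, rfl⟩
    have hKmem : ∀ g : G, g ∈ K ↔ g • x = x ∧ g • y = y := by
      intro g
      rw [hK]
      exact Subgroup.mem_inf.trans
        (Iff.and MulAction.mem_stabilizer_iff MulAction.mem_stabilizer_iff)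
    rw [hcf, ← hE x y hxy, ← hK]
    symm
    refine Nat.card_eq_of_bijective
      (fun g : ↥K => (⟨(g : G) * v₀ * (g : G)⁻¹,
        hmem g ((hKmem g).mp g.2).1 ((hKmem g).mp g.2).2⟩ :
          {v : G // v * v = 1 ∧ v • x = y})) ⟨?_, ?_⟩
    · intro g₁ g₂ h12
      have h12' : (g₁ : G) * v₀ * (g₁ : G)⁻¹ = (g₂ : G) * v₀ * (g₂ : G)⁻¹ :=
        congrArg Subtype.val h12
      have hg1 := (hKmem g₁).mp g₁.2
      have hg2 := (hKmem g₂).mp g₂.2
      have hq : (g₂ : G)⁻¹ * (g₁ : G) = 1 := by
        apply hfree x y hxy v₀ hv₀ hv₀x ((g₂ : G)⁻¹ * (g₁ : G))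
        · rw [mul_smul, hg1.1]; exact inv_smul_eq_iff.mpr hg2.1.symm
        · rw [mul_smul, hg1.2]; exact inv_smul_eq_iff.mpr hg2.2.symm
        · calc (g₂ : G)⁻¹ * (g₁ : G) * v₀ * ((g₂ : G)⁻¹ * (g₁ : G))⁻¹
              = (g₂ : G)⁻¹ * ((g₁ : G) * v₀ * (g₁ : G)⁻¹) * (g₂ : G) := by group
            _ = (g₂ : G)⁻¹ * ((g₂ : G) * v₀ * (g₂ : G)⁻¹) * (g₂ : G) := by rw [h12']
            _ = v₀ := by group
      apply Subtype.ext
      calc (g₁ : G) = (g₂ : G) * ((g₂ : G)⁻¹ * (g₁ : G)) := by group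
        _ = (g₂ : G) := by rw [hq, mul_one]
    · rintro ⟨v, hvv, hvx⟩
      obtain ⟨g, hgx, hgy, hgv⟩ := htrans x y hxy v₀ v hv₀ hv₀x hvv hvx
      exact ⟨⟨g, (hKmem g).mpr ⟨hgx, hgy⟩⟩, Subtype.ext hgv⟩
  -- the set of involutions
  obtain ⟨I, hI⟩ : ∃ I : Finset G, I = Finset.univ.filter (fun v : G => orderOf v = 2) :=
    ⟨_, rfl⟩
  have hImem : ∀ v : G, v ∈ I ↔ (v * v = 1 ∧ v ≠ 1) := by
    intro v
    rw [hI, Finset.mem_filter, orderOf_eq_prime_iff, pow_two]
    exact ⟨fun h => h.2, fun h => ⟨Finset.mem_univ _, h⟩⟩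
  have hdc : ∑ v ∈ I, (Finset.univ.filter (fun z : Ω => ¬ v • z = z)).card =
      ∑ z : Ω, (I.filter (fun v : G => ¬ v • z = z)).card := by
    simp_rw [Finset.card_filter]
    exact Finset.sum_comm
  have hrow : ∀ x : Ω, (I.filter (fun v : G => ¬ v • x = x)).card = h * e := by
    intro x
    have hmaps : ∀ v ∈ I.filter (fun v : G => ¬ v • x = x),
        v • x ∈ (Finset.univ.erase x : Finset Ω) := by
      intro v hv
      exact Finset.mem_erase.mpr ⟨(Finset.mem_filter.mp hv).2, Finset.mem_univ _⟩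
    have hfib : ∀ y ∈ (Finset.univ.erase x : Finset Ω),
        ((I.filter (fun v : G => ¬ v • x = x)).filter (fun v => v • x = y)).card = e := by
      intro y hy
      have hyx : y ≠ x := (Finset.mem_erase.mp hy).1
      rw [← hS x y hyx.symm]
      congr 1
      ext v
      simp only [Finset.mem_filter, Finset.mem_univ, true_and, hImem]
      constructor
      · rintro ⟨⟨⟨hvv, _⟩, _⟩, hvx⟩
        exact ⟨hvv, hvx⟩
      · rintro ⟨hvv, hvx⟩
        refine ⟨⟨⟨hvv, ?_⟩, ?_⟩, hvx⟩
        · intro hv1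
          rw [hv1, one_smul] at hvx
          exact hyx hvx.symm
        · rw [hvx]; exact hyx
    rw [Finset.card_eq_sum_card_fiberwise hmaps]
    refine (Finset.sum_congr rfl hfib).trans ?_
    rw [Finset.sum_const, smul_eq_mul, Finset.card_erase_of_mem (Finset.mem_univ x),
      Finset.card_univ, hh, Nat.add_sub_cancel]
  have hIcard : Nat.card {x : G // orderOf x = 2} = I.card := by
    rw [hI, hcf]
  have htotal : ∑ z : Ω, (I.filter (fun v : G => ¬ v • z = z)).card = (h + 1) * (h * e) := by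
    rw [Finset.sum_congr rfl (fun z _ => hrow z), Finset.sum_const, smul_eq_mul,
      Finset.card_univ, hh]
  have hmove : ∀ t : G, t ≠ 1 → ∃ x : Ω, t • x ≠ x := by
    intro t ht
    by_contra hall
    apply ht
    apply hfaith.eq_of_smul_eq_smul
    intro x
    rw [one_smul]
    by_contra hx
    exact hall ⟨x, hx⟩
  constructor
  · intro v v' hv hv'
    obtain ⟨hvv, hv1⟩ := (hImem v).mp
      (by rw [hI]; exact Finset.mem_filter.mpr ⟨Finset.mem_univ _, hv⟩)
    obtain ⟨hv'v', hv'1⟩ := (hImem v').mp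
      (by rw [hI]; exact Finset.mem_filter.mpr ⟨Finset.mem_univ _, hv'⟩)
    obtain ⟨x, hx⟩ := hmove v hv1
    obtain ⟨x', hx'⟩ := hmove v' hv'1
    obtain ⟨w, hwx, hwy⟩ := h2 x (v • x) x' (v' • x') (fun h => hx h.symm)
      (fun h => hx' h.symm)
    have hwinv : w⁻¹ • x' = x := inv_smul_eq_iff.mpr hwx.symm
    have h1 : (w * v * w⁻¹) * (w * v * w⁻¹) = 1 := by
      calc w * v * w⁻¹ * (w * v * w⁻¹) = w * (v * v) * w⁻¹ := by group
        _ = 1 := by rw [hvv, mul_one, mul_inv_cancel]
    have h2' : (w * v * w⁻¹) • x' = v' • x' := by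
      rw [mul_smul, mul_smul, hwinv, hwy]
    obtain ⟨g, -, -, hg⟩ := htrans x' (v' • x') (fun h => hx' h.symm) (w * v * w⁻¹) v' h1 h2'
      hv'v' rfl
    exact isConj_iff.mpr ⟨g * w, by rw [← hg]; group⟩
  · rw [hIcard]
    have hle : ∀ v ∈ I, (Finset.univ.filter (fun z : Ω => v • z = z)).card ≤ 1 := by
      intro v hv
      obtain ⟨hvv, hv1⟩ := (hImem v).mp hv
      exact Finset.card_le_one.mpr (fun z hz z' hz' =>
        hinv1 v hv1 hvv z z' (Finset.mem_filter.mp hz).2 (Finset.mem_filter.mp hz').2)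
    by_cases hev : Even h
    · rw [if_pos hev]
      have hmoved : ∀ v ∈ I, (Finset.univ.filter (fun z : Ω => ¬ v • z = z)).card = h := by
        intro v hv
        have hl := hle v hv
        have hd := hmv v ((hImem v).mp hv).1
        have hs := hsplit v
        obtain ⟨m, hm⟩ := hev
        omega
      have h1 : ∑ v ∈ I, (Finset.univ.filter (fun z : Ω => ¬ v • z = z)).card = I.card * h := by
        rw [Finset.sum_congr rfl hmoved, Finset.sum_const, smul_eq_mul]
      rw [h1, htotal] at hdc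
      have h2' : I.card * h = (e * (h + 1)) * h := by rw [hdc]; ring
      exact Nat.eq_of_mul_eq_mul_right hhpos h2'
    · rw [if_neg hev]
      have hmoved : ∀ v ∈ I,
          (Finset.univ.filter (fun z : Ω => ¬ v • z = z)).card = h + 1 := by
        intro v hv
        have hl := hle v hv
        have hd := hmv v ((hImem v).mp hv).1
        have hs := hsplit v
        obtain ⟨m, hm⟩ := Nat.not_even_iff_odd.mp hev
        omega
      have h1 : ∑ v ∈ I, (Finset.univ.filter (fun z : Ω => ¬ v • z = z)).card =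
          I.card * (h + 1) := by
        rw [Finset.sum_congr rfl hmoved, Finset.sum_const, smul_eq_mul]
      rw [h1, htotal] at hdc
      have h2' : I.card * (h + 1) = (e * h) * (h + 1) := by rw [hdc]; ring
      exact Nat.eq_of_mul_eq_mul_right (Nat.succ_pos h) h2'

theorem full {G Ω : Type*} [Group G] [Finite G] [MulAction G Ω] [Fintype Ω]
    (hZ : Cfsg.IsZassenhausGroup G Ω) {a b : Ω} (hab : a ≠ b) [IsSimpleGroup G] (h e : ℕ)
    (hh : Fintype.card Ω = h + 1)
    (he : Nat.card ↥(MulAction.stabilizer G a ⊓ MulAction.stabilizer G b : Subgroup G) = e)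
    (hodd : Odd e) (hlt : 2 * e < h - 1)
    (hS : ¬ Even h → ∀ x y : Ω, x ≠ y →
      Odd (Nat.card ↥(MulAction.stabilizer G x ⊓ MulAction.stabilizer G y : Subgroup G)) →
      (∀ q : ℕ, q.Prime →
        q ∣ Nat.card ↥(MulAction.stabilizer G x ⊓ MulAction.stabilizer G y : Subgroup G) →
        ¬ ∃ N : Subgroup G, N.Normal ∧ N.index = q ^ (Nat.card G).factorization q) →
      ∀ s : G, s • x = y → s • y = x →
        ∀ g ∈ (MulAction.stabilizer G x ⊓ MulAction.stabilizer G y : Subgroup G),
          s * g * s⁻¹ = g⁻¹) :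
    (∀ x y : G, orderOf x = 2 → orderOf y = 2 → IsConj x y) ∧
      Nat.card {x : G // orderOf x = 2} = (if Even h then e * (h + 1) else e * h) := by
  classical
  have hfaith := hZ.1
  have h2 : ∀ a b c d : Ω, a ≠ b → c ≠ d → ∃ g : G, g • a = c ∧ g • b = d :=
    fun a b c d h1 h2 => MulAction.is_two_pretransitive_iff.mp hZ.2.1 h1 h2
  have h3 := hZ.2.2.1
  have hE : ∀ x y : Ω, x ≠ y →
      Nat.card ↥(MulAction.stabilizer G x ⊓ MulAction.stabilizer G y : Subgroup G) = e := by
    intro x y hxy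
    have h1 := Cfsg.Agent.S0880.fiber_card (G := G) (Ω := Ω)
      (fun {a b c d} hab' hcd' => h2 a b c d hab' hcd') hab hxy hxy
    rw [← he, ← h1]
    exact Nat.card_congr (Equiv.subtypeEquivRight (fun g => Subgroup.mem_inf.trans
      (Iff.and MulAction.mem_stabilizer_iff MulAction.mem_stabilizer_iff)))
  have hhpos : 0 < h := by omega
  refine main hfaith h2 h3 h e hh hhpos hE hodd ?_
  intro hev x y hxy s hsx hsy g hgx hgy
  refine hS hev x y hxy ?_ ?_ s hsx hsy g (Subgroup.mem_inf.mpr ⟨hgx, hgy⟩)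
  · rw [hE x y hxy]; exact hodd
  · intro q hq hqd
    rintro ⟨N, hN, hidx⟩
    have hqG : q ∣ Nat.card G := hqd.trans (Subgroup.card_subgroup_dvd_card _)
    rcases hN.eq_bot_or_eq_top with hbot | htop
    · rw [hbot, Subgroup.index_bot] at hidx
      have h2G : 2 ∣ Nat.card G := two_dvd_card h2 hab
      rw [hidx] at h2G
      have h2q : 2 ∣ q := Nat.Prime.dvd_of_dvd_pow Nat.prime_two h2G
      have hq2 : 2 = q := (Nat.prime_dvd_prime_iff_eq Nat.prime_two hq).mp h2q
      rw [← hq2, hE x y hxy] at hqd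
      obtain ⟨j, hj⟩ := hodd
      omega
    · rw [htop, Subgroup.index_top] at hidx
      have hk : 0 < (Nat.card G).factorization q :=
        hq.factorization_pos_of_dvd Nat.card_pos.ne' hqG
      have h1lt : 1 < q ^ (Nat.card G).factorization q := Nat.one_lt_pow hk.ne' hq.one_lt
      exact absurd hidx (Nat.ne_of_lt h1lt)

end Cfsg.Agent.Helper2.ZInv
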