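import Cfsg.Agent.Lead.FrobConj
import Cfsg.Prelude.Def_LieExceptional
import Mathlib

/-!
# Zassenhaus groups: normal subgroups contain the Frobenius kernels of the point stabilisers;
Zassenhaus groups of odd degree are simple.
-/

set_option autoImplicit false
open Pointwise

namespace Cfsg.Agent.Helper2.Zass

open Cfsg.Agent.Lead

universe u v

/-- The working hypotheses extracted from `Cfsg.IsZassenhausGroup`. -/
structure Hyp (G : Type u) (Ω : Type v) [Group G] [MulAction G Ω] : Prop where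
  faith : ∀ g : G, (∀ x : Ω, g • x = x) → g = 1
  two : ∀ {a b c d : Ω}, a ≠ b → c ≠ d → ∃ g : G, g • a = c ∧ g • b = d
  three : ∀ g : G, ∀ a b c : Ω, a ≠ b → b ≠ c → a ≠ c → g • a = a → g • b = b → g • c = c → g = 1
  fix : ∃ g : G, g ≠ 1 ∧ ∃ a b : Ω, a ≠ b ∧ g • a = a ∧ g • b = b
  noreg : ∀ N : Subgroup G, N.Normal → (∀ c d : Ω, ∃ n ∈ N, n • c = d) →
    ∃ n ∈ N, n ≠ 1 ∧ ∃ a : Ω, n • a = a

variable {G : Type u} {Ω : Type v} [Group G] [MulAction G Ω]

theorem hyp_of_zass (hZ : Cfsg.IsZassenhausGroup G Ω) : Hyp G Ω := by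
  obtain ⟨hf, h2, h3, hfix, hreg⟩ := hZ
  refine ⟨?_, ?_, h3, hfix, ?_⟩
  · intro g hg
    have := hf
    apply FaithfulSMul.eq_of_smul_eq_smul (α := Ω)
    intro x
    rw [hg x, one_smul]
  · intro a b c d hab hcd
    exact (MulAction.is_two_pretransitive_iff.mp h2) hab hcd
  · intro N hNn htr
    have : MulAction.IsPretransitive N Ω := by
      constructor
      intro c d
      obtain ⟨n, hn, hnc⟩ := htr c d
      exact ⟨⟨n, hn⟩, hnc⟩
    obtain ⟨a, ha⟩ := hreg N hNn inferInstance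
    obtain ⟨⟨x, hx⟩, hx1⟩ := (Subgroup.ne_bot_iff_exists_ne_one).mp ha
    refine ⟨(x : G), x.2, ?_, a, ?_⟩
    · intro he
      apply hx1
      apply Subtype.ext
      apply Subtype.ext
      exact he
    · exact MulAction.mem_stabilizer_iff.mp hx

theorem finite_of_zass [Finite Ω] (hZ : Cfsg.IsZassenhausGroup G Ω) : Finite G := by
  have := hZ.1
  exact Finite.of_injective (MulAction.toPermHom G Ω) MulAction.toPerm_injective

theorem Hyp.trans (h : Hyp G Ω) (c d : Ω) : ∃ g : G, g • c = d := by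
  by_cases hcd : c = d
  · exact ⟨1, by rw [one_smul, hcd]⟩
  · obtain ⟨g, hg, -⟩ := h.two hcd (Ne.symm hcd)
    exact ⟨g, hg⟩

theorem Hyp.normal_trans (h : Hyp G Ω) (N : Subgroup G) (hNn : N.Normal) (hN : N ≠ ⊥)
    (c d : Ω) : ∃ n ∈ N, n • c = d := by
  by_cases hcd : c = d
  · exact ⟨1, N.one_mem, by rw [one_smul, hcd]⟩
  · obtain ⟨n₀, hn₀, hn₀1⟩ : ∃ n₀ ∈ N, n₀ ≠ 1 := by
      by_contra hcon
      apply hN
      rw [Subgroup.eq_bot_iff_forall]
      intro x hx
      by_contra hx1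
      exact hcon ⟨x, hx, hx1⟩
    obtain ⟨a, ha⟩ : ∃ a : Ω, n₀ • a ≠ a := by
      by_contra hcon
      apply hn₀1
      apply h.faith
      intro x
      by_contra hx
      exact hcon ⟨x, hx⟩
    obtain ⟨g, hg1, hg2⟩ := h.two (Ne.symm ha) hcd
    refine ⟨g * n₀ * g⁻¹, hNn.conj_mem n₀ hn₀ g, ?_⟩
    rw [mul_smul, mul_smul, ← hg1, inv_smul_smul, hg2]

theorem Hyp.exists_fix (h : Hyp G Ω) {a b : Ω} (hab : a ≠ b) :
    ∃ g : G, g ≠ 1 ∧ g • a = a ∧ g • b = b := by
  obtain ⟨g₀, hg₀, a₀, b₀, hab₀, h1, h2⟩ := h.fix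
  obtain ⟨x, hx1, hx2⟩ := h.two hab₀ hab
  refine ⟨x * g₀ * x⁻¹, ?_, ?_, ?_⟩
  · intro he
    apply hg₀
    have e : g₀ = x⁻¹ * (x * g₀ * x⁻¹) * x := by group
    rw [e, he]; group
  · rw [mul_smul, mul_smul, ← hx1, inv_smul_smul, h1]
  · rw [mul_smul, mul_smul, ← hx2, inv_smul_smul, h2]

theorem Hyp.exists_third (h : Hyp G Ω) {a b : Ω} (hab : a ≠ b) : ∃ c : Ω, c ≠ a ∧ c ≠ b := by
  obtain ⟨g, hg, h1, h2⟩ := h.exists_fix hab
  obtain ⟨c, hc⟩ : ∃ c : Ω, g • c ≠ c := by
    by_contra hcon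
    apply hg
    apply h.faith
    intro x
    by_contra hx
    exact hcon ⟨x, hx⟩
  refine ⟨c, ?_, ?_⟩
  · rintro rfl; exact hc h1
  · rintro rfl; exact hc h2

/-- The point stabiliser is a Frobenius group with the two-point stabiliser as complement. -/
theorem Hyp.frob (h : Hyp G Ω) {a b : Ω} (hab : a ≠ b) :
    Cfsg.IsFrobeniusComplement
      ((MulAction.stabilizer G b).subgroupOf (MulAction.stabilizer G a)) := by
  refine ⟨?_, ?_, ?_⟩
  · intro hbot
    obtain ⟨g, hg, h1, h2⟩ := h.exists_fix hab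
    have hmem : (⟨g, MulAction.mem_stabilizer_iff.mpr h1⟩ : MulAction.stabilizer G a) ∈
        (MulAction.stabilizer G b).subgroupOf (MulAction.stabilizer G a) :=
      Subgroup.mem_subgroupOf.mpr (MulAction.mem_stabilizer_iff.mpr h2)
    rw [hbot, Subgroup.mem_bot] at hmem
    exact hg (congrArg Subtype.val hmem)
  · intro htop
    obtain ⟨c, hca, hcb⟩ := h.exists_third hab
    obtain ⟨s, hs1, hs2⟩ := h.two hab (Ne.symm hca)
    have hmem : (⟨s, MulAction.mem_stabilizer_iff.mpr hs1⟩ : MulAction.stabilizer G a) ∈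
        (MulAction.stabilizer G b).subgroupOf (MulAction.stabilizer G a) := by
      rw [htop]; exact Subgroup.mem_top _
    have h3 : s • b = b := MulAction.mem_stabilizer_iff.mp (Subgroup.mem_subgroupOf.mp hmem)
    exact hcb (by rw [← hs2, h3])
  · intro s hs
    rw [Subgroup.eq_bot_iff_forall]
    intro x hx
    obtain ⟨hx1, hx2⟩ := Subgroup.mem_inf.mp hx
    have hx2' := (Cfsg.Agent.Helper1.mem_conj_smul_iff s x _).mp hx2
    have hxa : (x : G) • a = a := MulAction.mem_stabilizer_iff.mp x.2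
    have hxb : (x : G) • b = b :=
      MulAction.mem_stabilizer_iff.mp (Subgroup.mem_subgroupOf.mp hx1)
    have hsa : (s : G) • a = a := MulAction.mem_stabilizer_iff.mp s.2
    have hsb : (s : G) • b ≠ b := fun hh =>
      hs (Subgroup.mem_subgroupOf.mpr (MulAction.mem_stabilizer_iff.mpr hh))
    have hxsb : (x : G) • ((s : G) • b) = (s : G) • b := by
      have h5 : ((s⁻¹ * x * s : MulAction.stabilizer G a) : G) • b = b :=
        MulAction.mem_stabilizer_iff.mp (Subgroup.mem_subgroupOf.mp hx2')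
      have h6 : ((s⁻¹ * x * s : MulAction.stabilizer G a) : G)
          = (s : G)⁻¹ * (x : G) * (s : G) := rfl
      rw [h6, mul_smul, mul_smul] at h5
      have h7 := congrArg (fun y => (s : G) • y) h5
      simp only [smul_inv_smul] at h7
      exact h7
    have hsba : (s : G) • b ≠ a := by
      intro hh
      apply hab
      have e : (s : G) • b = (s : G) • a := by rw [hh, hsa]
      exact (smul_left_cancel _ e).symm
    have hx1' : (x : G) = 1 :=
      h.three (x : G) a b ((s : G) • b) hab (Ne.symm hsb) (Ne.symm hsba) hxa hxb hxsb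
    exact Subtype.ext hx1'

/-- Elements of the Frobenius kernel of the point stabiliser fix no further point. -/
theorem Hyp.kernel_fix (h : Hyp G Ω) {a b : Ω} (hab : a ≠ b)
    {K : Subgroup (MulAction.stabilizer G a)}
    (d : FrobData ((MulAction.stabilizer G b).subgroupOf (MulAction.stabilizer G a)) K)
    (x : MulAction.stabilizer G a) (hx : x ∈ K) (c : Ω) (hc : c ≠ a)
    (hxc : (x : G) • c = c) : x = 1 := by
  obtain ⟨s, hs1, hs2⟩ := h.two hab (Ne.symm hc)
  apply FrobData.mem_conj d (g := ⟨s, MulAction.mem_stabilizer_iff.mpr hs1⟩) hx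
  apply Subgroup.mem_subgroupOf.mpr
  apply MulAction.mem_stabilizer_iff.mpr
  show (s⁻¹ * (x : G) * s) • b = b
  rw [mul_smul, mul_smul, hs2, hxc, ← hs2, inv_smul_smul]

/-- Elements of the point stabiliser outside the Frobenius kernel fix a further point. -/
theorem Hyp.not_kernel_fix (h : Hyp G Ω) {a b : Ω} (hab : a ≠ b)
    {K : Subgroup (MulAction.stabilizer G a)}
    (d : FrobData ((MulAction.stabilizer G b).subgroupOf (MulAction.stabilizer G a)) K)
    (x : MulAction.stabilizer G a) (hx : x ∉ K) : ∃ c : Ω, c ≠ a ∧ (x : G) • c = c := by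
  obtain ⟨-, s, hs⟩ := FrobData.not_mem d hx
  have hsa : (s : G) • a = a := MulAction.mem_stabilizer_iff.mp s.2
  have h5 : ((s⁻¹ * x * s : MulAction.stabilizer G a) : G) • b = b :=
    MulAction.mem_stabilizer_iff.mp (Subgroup.mem_subgroupOf.mp hs)
  have h6 : ((s⁻¹ * x * s : MulAction.stabilizer G a) : G)
      = (s : G)⁻¹ * (x : G) * (s : G) := rfl
  rw [h6, mul_smul, mul_smul] at h5
  refine ⟨(s : G) • b, ?_, ?_⟩
  · intro hh
    apply hab
    have e : (s : G) • b = (s : G) • a := by rw [hh, hsa]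
    exact (smul_left_cancel _ e).symm
  · have h7 := congrArg (fun y => (s : G) • y) h5
    simp only [smul_inv_smul] at h7
    exact h7

/-- **Core.** A non-trivial normal subgroup of a Zassenhaus group contains the Frobenius kernel
of every point stabiliser. -/
theorem Hyp.core [Finite G] (h : Hyp G Ω) (N : Subgroup G) (hNn : N.Normal) (hN : N ≠ ⊥)
    {a b : Ω} (hab : a ≠ b) {K : Subgroup (MulAction.stabilizer G a)}
    (d : FrobData ((MulAction.stabilizer G b).subgroupOf (MulAction.stabilizer G a)) K) :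
    ∀ x : MulAction.stabilizer G a, x ∈ K → (x : G) ∈ N := by
  classical
  have hNS : (N.subgroupOf (MulAction.stabilizer G a)).Normal := hNn.subgroupOf _
  rcases FrobData.normal_le_or_le d (N.subgroupOf (MulAction.stabilizer G a)) hNS with hle | hle
  · exfalso
    obtain ⟨n₁, hn₁, hn₁1, hn₁a⟩ : ∃ n₁ ∈ N, n₁ ≠ 1 ∧ n₁ • a = a := by
      obtain ⟨n, hn, hn1, a₁, hna₁⟩ := h.noreg N hNn (h.normal_trans N hNn hN)
      obtain ⟨g, hg⟩ := h.trans a₁ a
      refine ⟨g * n * g⁻¹, hNn.conj_mem n hn g, ?_, ?_⟩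
      · intro he
        apply hn1
        have e : n = g⁻¹ * (g * n * g⁻¹) * g := by group
        rw [e, he]; group
      · rw [mul_smul, mul_smul, ← hg, inv_smul_smul, hna₁]
    obtain ⟨C, hCdef⟩ : ∃ C : Subgroup N, C = (MulAction.stabilizer G a).subgroupOf N :=
      ⟨_, rfl⟩
    have hCmem : ∀ y : N, y ∈ C ↔ (y : G) • a = a := by
      intro y
      rw [hCdef, Subgroup.mem_subgroupOf, MulAction.mem_stabilizer_iff]
    have hCfrob : Cfsg.IsFrobeniusComplement C := by
      refine ⟨?_, ?_, ?_⟩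
      · intro hbot
        have hmem : (⟨n₁, hn₁⟩ : N) ∈ C := (hCmem _).mpr hn₁a
        rw [hbot, Subgroup.mem_bot] at hmem
        exact hn₁1 (congrArg Subtype.val hmem)
      · intro htop
        obtain ⟨n, hn, hnab⟩ := h.normal_trans N hNn hN a b
        have hmem : (⟨n, hn⟩ : N) ∈ C := by rw [htop]; exact Subgroup.mem_top _
        have h3 : n • a = a := (hCmem _).mp hmem
        exact hab (by rw [← h3, hnab])
      · intro y hy
        rw [Subgroup.eq_bot_iff_forall]
        intro x hx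
        obtain ⟨hx1, hx2⟩ := Subgroup.mem_inf.mp hx
        have hx2' := (Cfsg.Agent.Helper1.mem_conj_smul_iff y x C).mp hx2
        have hxa : (x : G) • a = a := (hCmem x).mp hx1
        have hya : (y : G) • a ≠ a := fun hh => hy ((hCmem y).mpr hh)
        have h5 : ((y⁻¹ * x * y : N) : G) • a = a := (hCmem _).mp hx2'
        have h6 : ((y⁻¹ * x * y : N) : G) = (y : G)⁻¹ * (x : G) * (y : G) := rfl
        rw [h6, mul_smul, mul_smul] at h5
        have h7 := congrArg (fun z => (y : G) • z) h5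
        simp only [smul_inv_smul] at h7
        have hxK : (⟨(x : G), MulAction.mem_stabilizer_iff.mpr hxa⟩ : MulAction.stabilizer G a)
            ∈ K := hle (Subgroup.mem_subgroupOf.mpr x.2)
        have h8 := h.kernel_fix hab d _ hxK ((y : G) • a) hya h7
        have h9 : (x : G) = 1 := congrArg (fun z : MulAction.stabilizer G a => (z : G)) h8
        exact Subtype.ext h9
    obtain ⟨M, dM⟩ := exists_frobData C hCfrob
    have hMfix : ∀ m : N, m ∈ M → ∀ p : Ω, (m : G) • p = p → m = 1 := by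
      intro m hm p hp
      obtain ⟨y, hy, hyp⟩ := h.normal_trans N hNn hN a p
      apply FrobData.mem_conj dM (g := ⟨y, hy⟩) hm
      apply (hCmem _).mpr
      show (y⁻¹ * (m : G) * y) • a = a
      rw [mul_smul, mul_smul, hyp, hp, ← hyp, inv_smul_smul]
    have hnotM : ∀ x : N, x ∉ M → x ≠ 1 ∧ ∃ p : Ω, (x : G) • p = p := by
      intro x hx
      obtain ⟨hx1, y, hy⟩ := FrobData.not_mem dM hx
      refine ⟨hx1, (y : G) • a, ?_⟩
      have h5 : ((y⁻¹ * x * y : N) : G) • a = a := (hCmem _).mp hy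
      have h6 : ((y⁻¹ * x * y : N) : G) = (y : G)⁻¹ * (x : G) * (y : G) := rfl
      rw [h6, mul_smul, mul_smul] at h5
      have h7 := congrArg (fun z => (y : G) • z) h5
      simp only [smul_inv_smul] at h7
      exact h7
    have hM'n : (M.map N.subtype).Normal := by
      constructor
      intro m' hm' g
      obtain ⟨m, hm, rfl⟩ := Subgroup.mem_map.mp hm'
      have hz : g * (m : G) * g⁻¹ ∈ N := hNn.conj_mem _ m.2 g
      refine Subgroup.mem_map.mpr ⟨⟨g * (m : G) * g⁻¹, hz⟩, ?_, rfl⟩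
      by_contra hzM
      obtain ⟨hz1, p, hp⟩ := hnotM _ hzM
      have hp' : (m : G) • (g⁻¹ • p) = g⁻¹ • p := by
        have h5 : (g * (m : G) * g⁻¹) • p = p := hp
        rw [mul_smul, mul_smul] at h5
        have h7 := congrArg (fun z => g⁻¹ • z) h5
        simp only [inv_smul_smul] at h7
        exact h7
      have hm1 := hMfix m hm _ hp'
      apply hz1
      apply Subtype.ext
      show g * (m : G) * g⁻¹ = 1
      rw [hm1]; simp
    have hMa : ∀ p : Ω, ∃ m : N, m ∈ M ∧ (m : G) • a = p := by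
      intro p
      obtain ⟨n, hn, hnp⟩ := h.normal_trans N hNn hN a p
      obtain ⟨⟨⟨m, hm⟩, ⟨c, hc⟩⟩, hmc, -⟩ :=
        (Subgroup.isComplement'_def.mp dM.2.2.2).existsUnique (⟨n, hn⟩ : N)
      refine ⟨m, hm, ?_⟩
      have hca : (c : G) • a = a := (hCmem c).mp hc
      have e : (m : G) * (c : G) = n := congrArg Subtype.val hmc
      rw [← hnp, ← e, mul_smul, hca]
    have hM't : ∀ c d : Ω, ∃ x ∈ M.map N.subtype, x • c = d := by
      intro c d
      obtain ⟨m₁, hm₁, h1⟩ := hMa c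
      obtain ⟨m₂, hm₂, h2⟩ := hMa d
      refine ⟨N.subtype (m₂ * m₁⁻¹),
        Subgroup.mem_map_of_mem _ (M.mul_mem hm₂ (M.inv_mem hm₁)), ?_⟩
      show ((m₂ : G) * (m₁ : G)⁻¹) • c = d
      rw [mul_smul, ← h1, inv_smul_smul, h2]
    obtain ⟨x, hx, hx1, p, hxp⟩ := h.noreg (M.map N.subtype) hM'n hM't
    obtain ⟨m, hm, rfl⟩ := Subgroup.mem_map.mp hx
    have hm1 := hMfix m hm p hxp
    apply hx1
    rw [hm1]
    exact map_one _
  · intro x hx
    exact Subgroup.mem_subgroupOf.mp (hle hx)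

/-- An involution acting on a set of odd size has a fixed point, and if it has two fixed points
it has a third one. -/
theorem inv_fix {G : Type*} {Ω : Type*} [Group G] [MulAction G Ω] [Finite Ω]
    (hodd : Odd (Nat.card Ω)) (t : G) (ht : t * t = 1) :
    (∃ p : Ω, t • p = p) ∧ (∀ p p' : Ω, p ≠ p' → t • p = p → t • p' = p' →
      ∃ q : Ω, q ≠ p ∧ q ≠ p' ∧ t • q = q) := by
  classical
  have hP : IsPGroup 2 (Subgroup.zpowers t) := by
    rintro ⟨z, hz⟩
    obtain ⟨j, rfl⟩ := Subgroup.mem_zpowers_iff.mp hz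
    refine ⟨1, Subtype.ext ?_⟩
    show (t ^ j) ^ 2 ^ 1 = 1
    rw [pow_one, pow_two, ← zpow_add, ← two_mul, zpow_mul, zpow_ofNat, pow_two, ht, one_zpow]
  have hmod := hP.card_modEq_card_fixedPoints Ω
  have hset : MulAction.fixedPoints (Subgroup.zpowers t) Ω = {x : Ω | t • x = x} := by
    ext x
    constructor
    · intro hx
      exact hx ⟨t, Subgroup.mem_zpowers t⟩
    · intro hx z
      obtain ⟨z, hz⟩ := z
      exact MulAction.mem_stabilizer_iff.mp
        ((Subgroup.zpowers_le.mpr (MulAction.mem_stabilizer_iff.mpr hx)) hz)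
  rw [hset, Nat.card_coe_set_eq] at hmod
  have hoddF : Set.ncard {x : Ω | t • x = x} % 2 = 1 := by
    rw [Nat.odd_iff] at hodd
    have hm' : Set.ncard {x : Ω | t • x = x} % 2 = Nat.card Ω % 2 := hmod.symm
    exact hm'.trans hodd
  constructor
  · by_contra hcon
    have hempty : {x : Ω | t • x = x} = ∅ := by
      ext x
      simp only [Set.mem_ofPred_eq, Set.mem_empty_iff_false, iff_false]
      intro hx
      exact hcon ⟨x, hx⟩
    rw [hempty, Set.ncard_empty] at hoddF
    omega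
  · intro p p' hpp hp hp'
    by_contra hcon
    have hpair : {x : Ω | t • x = x} = {p, p'} := by
      ext x
      simp only [Set.mem_ofPred_eq, Set.mem_insert_iff, Set.mem_singleton_iff]
      constructor
      · intro hx
        by_contra hx2
        rw [not_or] at hx2
        exact hcon ⟨x, hx2.1, hx2.2, hx⟩
      · rintro (rfl | rfl)
        · exact hp
        · exact hp'
    rw [hpair, Set.ncard_pair hpp] at hoddF
    omega

/-- A Zassenhaus group of odd degree is simple. -/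
theorem simple_of_odd [Finite Ω] (hZ : Cfsg.IsZassenhausGroup G Ω) (hodd : Odd (Nat.card Ω)) :
    IsSimpleGroup G := by
  classical
  have h := hyp_of_zass hZ
  have : Finite G := finite_of_zass hZ
  obtain ⟨g₀, hg₀, a, b, hab, -, -⟩ := h.fix
  refine { exists_pair_ne := ⟨g₀, 1, hg₀⟩, eq_bot_or_eq_top_of_normal := ?_ }
  intro N hNn
  by_cases hN : N = ⊥
  · exact Or.inl hN
  right
  have hthree : ∀ t : G, t * t = 1 → ∀ p p' : Ω, p ≠ p' → t • p = p → t • p' = p' → t = 1 := by
    intro t ht p p' hpp hp hp'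
    obtain ⟨q, hq1, hq2, hq⟩ := (inv_fix hodd t ht).2 p p' hpp hp hp'
    exact h.three t p p' q hpp (Ne.symm hq2) (Ne.symm hq1) hp hp' hq
  have hinv : ∀ t : G, t * t = 1 → t ∈ N := by
    intro t ht
    obtain ⟨p, hp⟩ := (inv_fix hodd t ht).1
    obtain ⟨p', hpp⟩ : ∃ p' : Ω, p ≠ p' := by
      by_cases hpa : p = a
      · exact ⟨b, by rw [hpa]; exact hab⟩
      · exact ⟨a, hpa⟩
    obtain ⟨K, d⟩ := exists_frobData _ (h.frob hpp)
    by_cases hK : (⟨t, MulAction.mem_stabilizer_iff.mpr hp⟩ : MulAction.stabilizer G p) ∈ K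
    · exact h.core N hNn hN hpp d _ hK
    · obtain ⟨c, hc, hfix⟩ := h.not_kernel_fix hpp d _ hK
      have ht1 : t = 1 := hthree t ht p c (Ne.symm hc) hp hfix
      rw [ht1]; exact N.one_mem
  obtain ⟨H, hHdef⟩ : ∃ H : Subgroup G,
      H = MulAction.stabilizer G a ⊓ MulAction.stabilizer G b := ⟨_, rfl⟩
  have hHmem : ∀ x : G, x ∈ H ↔ x • a = a ∧ x • b = b := by
    intro x
    rw [hHdef, Subgroup.mem_inf, MulAction.mem_stabilizer_iff, MulAction.mem_stabilizer_iff]
  have hHodd : Odd (Nat.card H) := by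
    by_contra hcon
    have h2 : 2 ∣ Nat.card H := by
      rcases Nat.even_or_odd (Nat.card H) with he | ho
      · exact even_iff_two_dvd.mp he
      · exact absurd ho hcon
    obtain ⟨u, hu⟩ := exists_prime_orderOf_dvd_card' 2 h2
    have hu2 : u ^ 2 = 1 := by rw [← hu]; exact pow_orderOf_eq_one u
    have hu2' : (u : G) * (u : G) = 1 := by
      have e : u * u = 1 := by rw [← pow_two]; exact hu2
      exact congrArg Subtype.val e
    obtain ⟨hua, hub⟩ := (hHmem _).mp u.2
    have hu1 : (u : G) = 1 := hthree _ hu2' a b hab hua hub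
    have hu1' : u = 1 := Subtype.ext hu1
    rw [hu1', orderOf_one] at hu
    omega
  obtain ⟨j, hj⟩ := hHodd
  obtain ⟨g, hga, hgb⟩ := h.two hab (Ne.symm hab)
  have hgga : (g * g) • a = a := by rw [mul_smul, hga, hgb]
  have hggb : (g * g) • b = b := by rw [mul_smul, hgb, hga]
  have hggH : g * g ∈ H := (hHmem _).mpr ⟨hgga, hggb⟩
  have hgg1 : (g * g) ^ (2 * j + 1) = 1 := by
    have e : (⟨g * g, hggH⟩ : H) ^ Nat.card H = 1 := pow_card_eq_one'
    rw [hj] at e
    exact congrArg Subtype.val e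
  obtain ⟨t, htdef⟩ : ∃ t : G, t = g ^ (2 * j + 1) := ⟨_, rfl⟩
  have ht : t * t = 1 := by
    rw [htdef, ← pow_add, ← two_mul, pow_mul, pow_two]
    exact hgg1
  have hpowb : ∀ i : ℕ, (g * g) ^ i • b = b := fun i =>
    MulAction.mem_stabilizer_iff.mp
      (Subgroup.pow_mem _ (MulAction.mem_stabilizer_iff.mpr hggb) i)
  have hpowa : ∀ i : ℕ, (g * g) ^ i • a = a := fun i =>
    MulAction.mem_stabilizer_iff.mp
      (Subgroup.pow_mem _ (MulAction.mem_stabilizer_iff.mpr hgga) i)
  have hta : t • a = b := by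
    rw [htdef, pow_succ, mul_smul, hga, pow_mul, pow_two]
    exact hpowb j
  have htb : t • b = a := by
    rw [htdef, pow_succ, mul_smul, hgb, pow_mul, pow_two]
    exact hpowa j
  have htN : t ∈ N := hinv t ht
  have ht1 : t ≠ 1 := by
    intro he
    rw [he, one_smul] at hta
    exact hab hta
  obtain ⟨p, hp⟩ := (inv_fix hodd t ht).1
  have hpa : a ≠ p := by
    intro he
    rw [← he, hta] at hp
    exact hab hp.symm
  have hpb : b ≠ p := by
    intro he
    rw [← he, htb] at hp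
    exact hab hp
  have hmemf : ∀ x : G, x ∈ H → t * x * t * x⁻¹ ∈ H := by
    intro x hx
    obtain ⟨hxa, hxb⟩ := (hHmem x).mp hx
    have hxa' : x⁻¹ • a = a := by rw [inv_smul_eq_iff, hxa]
    have hxb' : x⁻¹ • b = b := by rw [inv_smul_eq_iff, hxb]
    apply (hHmem _).mpr
    constructor
    · rw [mul_smul, mul_smul, mul_smul, hxa', hta, hxb, htb]
    · rw [mul_smul, mul_smul, mul_smul, hxb', htb, hxa, hta]
  have hinj : ∀ x y : G, x ∈ H → y ∈ H → t * x * t * x⁻¹ = t * y * t * y⁻¹ → x = y := by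
    intro x y hx hy hxy
    have e : y⁻¹ * x * t = t * (y⁻¹ * x) := by
      have e1 : y⁻¹ * x * t = y⁻¹ * t⁻¹ * (t * x * t * x⁻¹) * x := by group
      have e2 : t * (y⁻¹ * x) = y⁻¹ * t⁻¹ * (t * y * t * y⁻¹) * x := by group
      rw [e1, e2, hxy]
    have hcH : y⁻¹ * x ∈ H := H.mul_mem (H.inv_mem hy) hx
    obtain ⟨hca, hcb⟩ := (hHmem _).mp hcH
    have hcp : t • ((y⁻¹ * x) • p) = (y⁻¹ * x) • p := by
      rw [← mul_smul, ← e, mul_smul, hp]
    have hcp' : (y⁻¹ * x) • p = p := by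
      by_contra hne
      exact ht1 (hthree t ht p ((y⁻¹ * x) • p) (Ne.symm hne) hp hcp)
    have hc1 : y⁻¹ * x = 1 := h.three _ a b p hab hpb hpa hca hcb hcp'
    exact (inv_mul_eq_one.mp hc1).symm
  have hHN : ∀ x : G, x ∈ H → x ∈ N := by
    intro x hx
    obtain ⟨f, hf⟩ : ∃ f : H → H, ∀ y : H, ((f y : H) : G) = t * (y : G) * t * (y : G)⁻¹ :=
      ⟨fun y => ⟨t * (y : G) * t * (y : G)⁻¹, hmemf y y.2⟩, fun y => rfl⟩
    have hfinj : Function.Injective f := by
      intro y z hyz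
      apply Subtype.ext
      apply hinj _ _ y.2 z.2
      rw [← hf y, ← hf z, hyz]
    obtain ⟨y, hy⟩ := (Finite.injective_iff_surjective.mp hfinj) ⟨x, hx⟩
    have hx' : x = t * (y : G) * t * (y : G)⁻¹ := by
      rw [← hf y, hy]
    rw [hx']
    have e : t * (y : G) * t * (y : G)⁻¹ = t * ((y : G) * t * (y : G)⁻¹) := by group
    rw [e]
    exact N.mul_mem htN (hNn.conj_mem t htN y)
  obtain ⟨K, d⟩ := exists_frobData _ (h.frob hab)
  have hSN : ∀ s : G, s • a = a → s ∈ N := by
    intro s hs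
    have hK : K ≤ N.subgroupOf (MulAction.stabilizer G a) := fun x hx =>
      Subgroup.mem_subgroupOf.mpr (h.core N hNn hN hab d x hx)
    have hH' : (MulAction.stabilizer G b).subgroupOf (MulAction.stabilizer G a)
        ≤ N.subgroupOf (MulAction.stabilizer G a) := by
      intro x hx
      apply Subgroup.mem_subgroupOf.mpr
      apply hHN
      apply (hHmem _).mpr
      exact ⟨MulAction.mem_stabilizer_iff.mp x.2,
        MulAction.mem_stabilizer_iff.mp (Subgroup.mem_subgroupOf.mp hx)⟩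
    have htop : (⟨s, MulAction.mem_stabilizer_iff.mpr hs⟩ : MulAction.stabilizer G a)
        ∈ K ⊔ (MulAction.stabilizer G b).subgroupOf (MulAction.stabilizer G a) := by
      rw [d.2.2.2.sup_eq_top]; exact Subgroup.mem_top _
    exact Subgroup.mem_subgroupOf.mp ((sup_le hK hH') htop)
  rw [Subgroup.eq_top_iff']
  intro x
  obtain ⟨n, hn, hna⟩ := h.normal_trans N hNn hN a (x • a)
  have h1 : (n⁻¹ * x) • a = a := by rw [mul_smul, ← hna, inv_smul_smul]
  have h3 := N.mul_mem hn (hSN _ h1)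
  rwa [mul_inv_cancel_left] at h3

end Cfsg.Agent.Helper2.Zass
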